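/-
Project Q49 (a component of the centraliser of a 2-central involution in a quasithin group of even type is terminal):
definitions, and the steps of the proof stated as propositions.
-/
import Cfsg.Agent.Q16.Defs

set_option autoImplicit false

namespace CL.Q49

open Cfsg Subgroup CL.Even CL.Grp CL.Loc CL.Ags CL.Q16
open scoped commutatorElement

universe u

/-! ### Facts about the simple groups on the list -/

/-- the simple groups on the even type list -/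
def EvS (X : Type*) [Group X] : Prop :=
  IsChevSimple 2 X ∨
  (∃ (F : Type) (_ : Field F) (_ : Fintype F), Fintype.card F = 3 ∧
      Nonempty (X ≃* Matrix.ProjectiveSpecialLinearGroup (Fin 3) F)) ∨
  (∃ (F : Type) (_ : Field F) (_ : Fintype F), IsTwoPowerNeighbourPrime (Fintype.card F) ∧
      Nonempty (X ≃* Matrix.ProjectiveSpecialLinearGroup (Fin 2) F)) ∨
  Spor.IsoM11 X ∨ Spor.IsoM12 X ∨ Spor.IsoM22 X ∨ Spor.IsoM23 X ∨ Spor.IsoM24 X ∨ Spor.IsoJ2 X ∨ Spor.IsoJ4 X ∨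
    Spor.IsoHS X ∨ Spor.IsoRu X

def IsoA6 (X : Type*) [Group X] : Prop := Nonempty (X ≃* alternatingGroup (Fin 6))
def IsoL34 (X : Type*) [Group X] : Prop := ∃ (F : Type) (_ : Field F) (_ : Fintype F), Fintype.card F = 4 ∧
  Nonempty (X ≃* Matrix.ProjectiveSpecialLinearGroup (Fin 3) F)
def IsoL33 (X : Type*) [Group X] : Prop := ∃ (F : Type) (_ : Field F) (_ : Fintype F), Fintype.card F = 3 ∧
  Nonempty (X ≃* Matrix.ProjectiveSpecialLinearGroup (Fin 3) F)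
def IsoG24 (X : Type*) [Group X] : Prop := ∃ (F : Type) (_ : Field F) (_ : Fintype F), Fintype.card F = 4 ∧
  Nonempty (X ≃* ↥(Lie.chevG2.group F))
def IsoSz8 (X : Type*) [Group X] : Prop := ∃ (F : Type) (_ : Field F) (_ : Fintype F), Fintype.card F = 8 ∧
  Nonempty (X ≃* Lie.Sz F 4)

/-- the four groups with an involution centraliser not of characteristic 2 -/
def Ex4 (X : Type*) [Group X] : Prop := Spor.IsoM12 X ∨ Spor.IsoJ2 X ∨ Spor.IsoHS X ∨ Spor.IsoRu X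
/-- the eight groups with an admissible proper 2-cover -/
def Ex8 (X : Type*) [Group X] : Prop := Ex4 X ∨ IsoL34 X ∨ IsoG24 X ∨ Spor.IsoM22 X ∨ IsoSz8 X

def EvOf : Prop := ∀ (K : Type u) [Group K] [Finite K], IsQuasisimple K → IsPGroup 2 (center K) →
  IsQTEvenTypeComponent K → EvS (K ⧸ center K)

/-- an involutory automorphism fixing a Sylow 2-subgroup pointwise is inner -/
def I1 (X : Type*) [Group X] : Prop := ∀ α : MulAut X, α * α = 1 → ∀ S : Subgroup X, IsSylowIn 2 S ⊤ →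
  (∀ s ∈ S, α s = s) → ∃ k : X, α = MulAut.conj k
def I1Of (P : (X : Type u) → [Group X] → Prop) : Prop := ∀ (X : Type u) [Group X] [Finite X], P X → I1 X
def I1A : Prop := ∀ (X : Type u) [Group X] [Finite X], IsSimpleGroup X → ¬ IsMulCommutative X → EvS X →
  I1 X ∨ IsoA6 X

/-- 2-groups of outer automorphisms are abelian -/
def OA (X : Type*) [Group X] : Prop := ∀ D : Subgroup (MulAut X), IsPGroup 2 D → ∀ α ∈ D, ∀ β ∈ D,
  ∃ k : X, ⁅α, β⁆ = MulAut.conj k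
def OAA : Prop := ∀ (X : Type u) [Group X] [Finite X], IsSimpleGroup X → ¬ IsMulCommutative X → EvS X → OA X

/-- sharper form of `LK` -/
def LK2 : Prop := ∀ (X : Type u) [Group X] [Finite X], IsSimpleGroup X → ¬ IsMulCommutative X → EvS X →
  ∀ s : X, orderOf s = 2 → IsCharP 2 (centralizer ({s} : Set X)) ∨
    (Ex4 X ∧ s ∉ ⁅centralizer ({s} : Set X), centralizer ({s} : Set X)⁆)

/-- proper 2-covers -/
def RedC : Prop := ∀ (K : Type u) [Group K] [Finite K], IsQuasisimple K → IsPGroup 2 (center K) → center K ≠ ⊥ →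
  IsQTEvenTypeComponent K → PRankLE 3 2 K → Ex8 (K ⧸ center K)

def FourG : Prop := ∀ (L : Type u) [Group L] [Finite L], IsQuasisimple L → IsPGroup 2 (center L) →
  IsQTEvenTypeComponent L → Four (⊤ : Subgroup L)

section amb
variable {G : Type u} [Group G]

/-- `L` is a component of the centraliser in the quasisimple group `K` of the involution `z` -/
structure Pr (K L : Subgroup G) (z : G) : Prop where
  qs : IsQuasisimple K
  z2 : IsPGroup 2 (center K)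
  ev : IsQTEvenTypeComponent K
  evL : IsQTEvenTypeComponent L
  iz : Inv z
  zn : z ∈ 𝒩(K)
  zZ : z ∈ 𝒞(K ⊓ 𝒞(K))
  cmp : IsCompIn L (K ⊓ Ce z)
  nrm : K ⊓ Ce z ≤ 𝒩(L)
  ne : L ≠ K
  rk : ∀ p : ℕ, p.Prime → p ≠ 2 → PRankLE p 2 K

/-- an element of `K` interchanges `z` and `z a`, and the class of `a` in `L` is invariant -/
def SW (K L : Subgroup G) (z : G) : Prop := ∃ a ∈ L, Inv a ∧ a ∉ 𝒞(L) ∧
  (∃ r ∈ K, Commute r a ∧ r * z * r⁻¹ = z * a) ∧ ∀ x ∈ 𝒩(L), ∃ l ∈ L, x * a * x⁻¹ = l * a * l⁻¹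
/-- `z` is fused to `z c` with `c` central -/
def ZC (K L : Subgroup G) (z : G) : Prop := ∃ r ∈ K, r ∈ 𝒩(L) ∧ ∃ c ∈ K, c ∈ 𝒞(K) ∧ c ≠ 1 ∧ r * z * r⁻¹ = z * c
def Cov (K : Subgroup G) : Prop := K ⊓ 𝒞(K) ≠ ⊥
def Exc (K L : Subgroup G) (z : G) : Prop := ∃ e ∈ K, e ∈ 𝒞(L) ∧ Commute e z ∧ Inv e ∧ e ∉ 𝒞(K)

/-- involutions normalising `L` and centralising a Sylow 2-subgroup are inner -/
def In1 (L : Subgroup G) : Prop := ∀ U, IsSylowIn 2 U L → ∀ w ∈ 𝒩(L), w * w = 1 → w ∈ 𝒞(U) → w ∈ L ⊔ 𝒞(L)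
def InA (L : Subgroup G) : Prop := ∀ D : Subgroup G, IsPGroup 2 D → D ≤ 𝒩(L) → ⁅D, D⁆ ≤ L ⊔ 𝒞(L)

/-- the global hypotheses -/
structure Gb (T : Subgroup G) : Prop where
  gl : Gl G
  ev : ∀ t : G, Inv t → ∀ K : Subgroup G, IsCompIn K (Ce t) → IsQTEvenTypeComponent K
  syl : IsSylowIn 2 T ⊤
  nrm : ∀ t g : G, Inv t → cj g T ≤ Ce t → ∀ J : Subgroup G, IsCompIn J (Ce t) → Ce t ≤ 𝒩(J)
  nq : ∀ t : G, Inv t → ∀ (K : Subgroup G) (c : G), IsCompIn K (Ce t) → Commute c t → cj c K ≠ K → NQ K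

/-- a maximal counterexample `y` to terminality; `D = T ⊓ Ce y` -/
structure St (T L : Subgroup G) (z y : G) : Prop extends Gb T where
  zT : z ∈ T
  zc : T ≤ Ce z
  iz : Inv z
  cL : IsCompIn L (Ce z)
  yT : y ∈ T
  iy : Inv y
  yL : y ∈ 𝒞(L)
  bad : ¬ IsCompIn L (Ce y)
  sD : IsSylowIn 2 (T ⊓ Ce y) (𝒩(L) ⊓ Ce y)
  good : ∀ w : G, Inv w → w ∈ 𝒞(L) → ∀ P : Subgroup G, IsPGroup 2 P → P ≤ 𝒩(L) ⊓ Ce w →
    Nat.card (T ⊓ Ce y : Subgroup G) < Nat.card P → IsCompIn L (Ce w)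

/-- `h` normalises `D` and induces an involution on it -/
structure Up (T : Subgroup G) (y h : G) : Prop where
  hT : h ∈ T
  hN : h ∈ 𝒩(T ⊓ Ce y)
  hD : h ∉ Ce y
  h2 : h * h ∈ Ce y

/-- the pump-up `K` -/
structure SK (T L K : Subgroup G) (z y : G) : Prop extends St T L z y where
  cK : IsCompIn K (Ce y)
  le : L ≤ K
  zK : z ∈ 𝒩(K)
  DK : T ⊓ Ce y ≤ 𝒩(K)
  pr : Pr K L z

/-- the moving elements -/
structure Mv (T L K : Subgroup G) (z y g h : G) : Prop extends SK T L K z y where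
  up : Up T y h
  gK : g ∈ K
  gN : g ∈ 𝒩(T ⊓ Ce y)
  gD : g ∉ T
  g2 : g * g ∈ T
  gz : ¬ Commute g z
  ZL : L ⊓ 𝒞(L) = ⊥

/-- coordinates in `A₆`: `U` is a Sylow 2-subgroup -/
structure A6D (L U : Subgroup G) (l f₁ f₂ n m : G) : Prop where
  UL : U ≤ L
  lU : l ∈ U
  f1U : f₁ ∈ U
  f2U : f₂ ∈ U
  nL : n ∈ L
  mL : m ∈ L
  il : Inv l
  i1 : Inv f₁
  i2 : Inv f₂
  c1 : Commute l f₁
  c2 : Commute l f₂
  c12 : f₁ * f₂ * f₁ = f₂ * l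
  c21 : f₂ * f₁ * f₂ = f₁ * l
  el : ∀ x ∈ U, x = 1 ∨ x = l ∨ x = f₁ ∨ x = f₁ * l ∨ x = f₂ ∨ x = f₂ * l ∨ x = f₁ * f₂ ∨ x = f₂ * f₁
  n1 : n * l * n⁻¹ = f₁
  n2 : n * f₁ * n⁻¹ = f₁ * l
  n3 : n * n * n = 1
  m1 : m * l * m⁻¹ = f₂
  m2 : m * f₂ * m⁻¹ = f₂ * l
  m3 : m * m * m = 1
  s1 : ∀ x ∈ L, Commute x l → Commute x f₁ → x = 1 ∨ x = l ∨ x = f₁ ∨ x = f₁ * l
  s2 : ∀ x ∈ L, Commute x l → Commute x f₂ → x = 1 ∨ x = l ∨ x = f₂ ∨ x = f₂ * l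
  gen : ∀ x : G, Commute x f₁ → Commute x f₂ → Commute x n → Commute x m → x ∈ 𝒞(L)
  one : ∀ a ∈ L, ∀ b ∈ L, Inv a → Inv b → ∃ x ∈ L, x * a * x⁻¹ = b

theorem A6D.symm {L U : Subgroup G} {l f₁ f₂ n m : G} (h : A6D L U l f₁ f₂ n m) : A6D L U l f₂ f₁ m n where
  UL := h.UL
  lU := h.lU
  f1U := h.f2U
  f2U := h.f1U
  nL := h.mL
  mL := h.nL
  il := h.il
  i1 := h.i2
  i2 := h.i1
  c1 := h.c2
  c2 := h.c1
  c12 := h.c21
  c21 := h.c12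
  el x hx := by have := h.el x hx; tauto
  n1 := h.m1
  n2 := h.m2
  n3 := h.m3
  m1 := h.n1
  m2 := h.n2
  m3 := h.n3
  s1 := h.s2
  s2 := h.s1
  gen x a b c d := h.gen x b a d c
  one := h.one

/-- the case `L ≅ A₆`, `v = [z, g]` outer -/
structure AC (T L K : Subgroup G) (z y g h l f₁ f₂ n m v : G) : Prop extends Mv T L K z y g h where
  ZK : K ⊓ 𝒞(K) = ⊥
  nx : ∀ e ∈ K, e ∈ 𝒞(L) → Commute e z → e * e = 1 → e = 1
  a6 : A6D L (T ⊓ L) l f₁ f₂ n m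
  zv : g * z * g⁻¹ = z * v
  vK : v ∈ K
  vT : v ∈ T
  vD : v ∈ 𝒞(T ⊓ Ce y)
  iv : Inv v
  vL : v ∉ L
  vn : Commute v n
  vm : Commute (v * l) m

/-- decompositions -/
structure AD (T L K : Subgroup G) (z y g h l f₁ f₂ n m v : G) : Prop extends AC T L K z y g h l f₁ f₂ n m v where
  lT : T ≤ Ce l
  fT : ∀ t ∈ T, (t * f₁ * t⁻¹ = f₁ ∨ t * f₁ * t⁻¹ = f₁ * l) ∨ (t * f₁ * t⁻¹ = f₂ ∨ t * f₁ * t⁻¹ = f₂ * l)
  fD : ∀ t ∈ T ⊓ Ce y, t * f₁ * t⁻¹ = f₁ ∨ t * f₁ * t⁻¹ = f₁ * l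
  dec : ∀ t ∈ T, (t * f₁ * t⁻¹ = f₁ ∨ t * f₁ * t⁻¹ = f₁ * l) →
    ∃ c ∈ T ⊓ 𝒞(L), ∃ x ∈ T ⊓ L, t = c * x ∨ t = c * x * v
  dU : ∀ t ∈ T ⊓ Ce y, t ∈ K → ∃ x ∈ T ⊓ L, t = x ∨ t = x * v
  vC : v ∉ 𝒞(L)
  gl' : Commute g l
  gv : Commute g v

/-- the pattern of `A₈` -/
structure AE (T L K : Subgroup G) (z y g h l f₁ f₂ n m v : G) : Prop extends AD T L K z y g h l f₁ f₂ n m v where
  gf : g * f₂ * g⁻¹ = f₂ * v

structure AG (T L K : Subgroup G) (z y g h l f₁ f₂ n m v : G) : Prop extends AE T L K z y g h l f₁ f₂ n m v where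
  A0 : ∀ x ∈ T ⊓ Ce y, x ∈ 𝒞(L) → x = 1 ∨ x = y ∨ x = z ∨ x = y * z
  hy : h * y * h⁻¹ = y * z
  big : 4 * Nat.card (T ⊓ Ce y : Subgroup G) ∣ Nat.card 𝒩(closure ({y, z, v, l, f₂} : Set G))
  DA : T ⊓ Ce y ≤ 𝒩(closure ({y, z, v, l, f₂} : Set G))

end amb

/-! ### The tables -/

/-- the table for the simple groups satisfying `P` -/
def Tab (P : (X : Type u) → [Group X] → Prop) : Prop := ∀ (G : Type u) [Group G] [Finite G] (K L : Subgroup G) (z : G),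
  Pr K L z → L ⊓ 𝒞(L) = ⊥ → Cov K ∨ Exc K L z → P (K ⧸ center K) → SW K L z ∨ ZC K L z

/-- an involution of `K / Z(K)` centralising `L` and `z` has a centraliser not of characteristic 2 -/
def NC2 : Prop := ∀ (G : Type u) [Group G] [Finite G] (K L : Subgroup G) (z : G), Pr K L z → ∀ e : K,
  (e : G) ∈ 𝒞(L) → Commute (e : G) z →
    ¬ IsCharP 2 (centralizer ({QuotientGroup.mk' (center K) e} : Set (K ⧸ center K)))
def RedE : Prop := ∀ (G : Type u) [Group G] [Finite G] (K L : Subgroup G) (z : G), Pr K L z → Exc K L z →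
  Ex4 (K ⧸ center K)
def ZL0 : Prop := ∀ (G : Type u) [Group G] [Finite G] (K L : Subgroup G) (z : G), Pr K L z →
  ∀ e ∈ L, e ∈ 𝒞(L) → Inv e → e ∈ 𝒞(K)
def GI1 : Prop := ∀ (G : Type u) [Group G] [Finite G] (K L : Subgroup G) (z : G), Pr K L z →
  ∀ S, IsSylowIn 2 S K → z ∉ 𝒞(S)
def InOf : Prop := ∀ (G : Type u) [Group G] [Finite G] (L : Subgroup G), IsQuasisimple L → L ⊓ 𝒞(L) = ⊥ →
  IsQTEvenTypeComponent L → (In1 L ∨ IsoA6 L) ∧ InA L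
def InvK : Prop := ∀ (G : Type u) [Group G] [Finite G] (K : Subgroup G), NQ K → ∃ k ∈ K, Inv k ∧ k ∉ 𝒞(K)

/-! ### The global steps -/

def SetT : Prop := ∀ (G : Type u) [Group G] [Finite G] (T L : Subgroup G) (z w : G), Gb T → z ∈ T → T ≤ Ce z → Inv z →
  IsCompIn L (Ce z) → Inv w → w ∈ 𝒞(L) → ¬ IsCompIn L (Ce w) → ∃ y, St T L z y
/-- the global step -/
def GS : Prop := ∀ (G : Type u) [Group G] [Finite G] (T L : Subgroup G) (z y h : G), St T L z y → Up T y h →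
  ∀ a ∈ L, a ∉ 𝒞(L) → ∀ r ∈ Ce y, Commute r a → r * z * r⁻¹ = z * a → ∀ l ∈ L, h * a * h⁻¹ ≠ l * a * l⁻¹
def GZ : Prop := ∀ (G : Type u) [Group G] [Finite G] (T L K : Subgroup G) (z y : G), SK T L K z y → ¬ ZC K L z
def GDg : Prop := ∀ (G : Type u) [Group G] [Finite G] (T L K : Subgroup G) (z y : G), St T L z y →
  IsCompIn K (Ce y) → cj z K ≠ K → L ≠ diagSub K z
def GK : Prop := ∀ (G : Type u) [Group G] [Finite G] (T L K : Subgroup G) (z y : G), St T L z y →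
  IsCompIn K (Ce y) → L ≤ K → z ∈ 𝒩(K) → SK T L K z y
def GM : Prop := ∀ (G : Type u) [Group G] [Finite G] (T L K : Subgroup G) (z y : G), SK T L K z y →
  ∃ g h, Mv T L K z y g h
def GMain : Prop := ∀ (G : Type u) [Group G] [Finite G] (T L K : Subgroup G) (z y g h : G), Mv T L K z y g h →
  ¬ Cov K → ¬ Exc K L z → In1 L → InA L → False

/-! ### The case `A₆` -/

def A6F : Prop := ∀ (G : Type u) [Group G] [Finite G] (L U : Subgroup G), IsoA6 L → IsSylowIn 2 U L →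
  ∃ l f₁ f₂ n m, A6D L U l f₁ f₂ n m
/-- fixed points of the element of order three -/
def FX : Prop := ∀ (G : Type u) [Group G] (L U : Subgroup G) (l f₁ f₂ n m : G), A6D L U l f₁ f₂ n m →
  ∀ x ∈ 𝒩(L), Commute x l → Commute x f₁ →
    (∃ c, (c = 1 ∨ c = l ∨ c = f₁ ∨ c = f₁ * l) ∧ Commute (x * c) n) ∧
    (Commute x f₂ → Commute x n ∨ Commute (x * l) n)
def AA0 : Prop := ∀ (G : Type u) [Group G] [Finite G] (T L K : Subgroup G) (z y g h : G), Mv T L K z y g h →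
  ¬ Cov K → ¬ Exc K L z → IsoA6 L → ∃ l f₁ f₂ n m v, AC T L K z y g h l f₁ f₂ n m v
def AA1 : Prop := ∀ (G : Type u) [Group G] [Finite G] (T L K : Subgroup G) (z y g h l f₁ f₂ n m v : G),
  AC T L K z y g h l f₁ f₂ n m v → AD T L K z y g h l f₁ f₂ n m v
def AA2 : Prop := ∀ (G : Type u) [Group G] [Finite G] (T L K : Subgroup G) (z y g h l f₁ f₂ n m v : G),
  AD T L K z y g h l f₁ f₂ n m v →
    g * f₂ * g⁻¹ = f₂ ∨ g * f₂ * g⁻¹ = f₂ * l ∨ g * f₂ * g⁻¹ = f₂ * v ∨ g * f₂ * g⁻¹ = f₂ * l * v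
def AA3 : Prop := ∀ (G : Type u) [Group G] [Finite G] (T L K : Subgroup G) (z y g h l f₁ f₂ n m v : G),
  AD T L K z y g h l f₁ f₂ n m v → ∃ g', AE T L K z y g' h l f₁ f₂ n m v
def AA4 : Prop := ∀ (G : Type u) [Group G] [Finite G] (T L K : Subgroup G) (z y g h l f₁ f₂ n m v : G),
  AE T L K z y g h l f₁ f₂ n m v → ∀ x ∈ T ⊓ Ce y, x ∈ 𝒞(L) →
    Commute x v ∧ (g * x * g⁻¹ = x ∨ g * x * g⁻¹ = x * v)
def AA5 : Prop := ∀ (G : Type u) [Group G] [Finite G] (T L K : Subgroup G) (z y g h l f₁ f₂ n m v : G),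
  AE T L K z y g h l f₁ f₂ n m v →
    (∀ x ∈ T ⊓ Ce y, x ∈ 𝒞(L) → x = 1 ∨ x = y ∨ x = z ∨ x = y * z) ∧ h * y * h⁻¹ = y * z
def AA6 : Prop := ∀ (G : Type u) [Group G] [Finite G] (T L K : Subgroup G) (z y g h l f₁ f₂ n m v : G),
  AE T L K z y g h l f₁ f₂ n m v →
    4 * Nat.card (T ⊓ Ce y : Subgroup G) ∣ Nat.card 𝒩(closure ({y, z, v, l, f₂} : Set G)) ∧
      T ⊓ Ce y ≤ 𝒩(closure ({y, z, v, l, f₂} : Set G))
def AA7 : Prop := ∀ (G : Type u) [Group G] [Finite G] (T L K : Subgroup G) (z y g h l f₁ f₂ n m v : G),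
  AG T L K z y g h l f₁ f₂ n m v → h * f₁ * h⁻¹ = f₁ ∨ h * f₁ * h⁻¹ = f₁ * l
/-- the element `k` of `C_T(L)` -/
def AA8 : Prop := ∀ (G : Type u) [Group G] [Finite G] (T L K : Subgroup G) (z y g h l f₁ f₂ n m v : G),
  AG T L K z y g h l f₁ f₂ n m v → (h * f₁ * h⁻¹ = f₁ ∨ h * f₁ * h⁻¹ = f₁ * l) →
    ∃ k ∈ T, k ∈ 𝒞(L) ∧ k ∈ 𝒩(T ⊓ Ce y) ∧ k * y * k⁻¹ = y * z ∧ k * v * k⁻¹ = v * z ∧ (k * k = 1 ∨ k * k = z)
def AA9 : Prop := ∀ (G : Type u) [Group G] [Finite G] (T L K : Subgroup G) (z y g h l f₁ f₂ n m v : G),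
  AG T L K z y g h l f₁ f₂ n m v → ∀ k ∈ T, k ∈ 𝒞(L) → k ∈ 𝒩(T ⊓ Ce y) → k * y * k⁻¹ = y * z →
    k * v * k⁻¹ = v * z → (k * k = 1 ∨ k * k = z) → False

end CL.Q49
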