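/-
Project Q49: coordinates in `A₆`.
-/
import Cfsg.Agent.Q49.Defs
import Cfsg.Agent.S5057

set_option autoImplicit false

namespace CL.Q49

open Cfsg Subgroup CL.Even CL.Grp CL.Loc CL.Ags CL.Q16 Equiv

universe u

namespace A6F

abbrev A := alternatingGroup (Fin 6)

def gp : Fin 5 → Perm (Fin 6) := ![swap 0 2 * swap 1 3, swap 0 1 * swap 4 5, swap 1 3 * swap 1 2,
  swap 0 2 * swap 0 4 * (swap 1 3 * swap 1 5), swap 0 1 * swap 2 3]

def ga (i : Fin 5) : A := ⟨gp i, Perm.mem_alternatingGroup.2 (by revert i; decide +kernel)⟩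

def ws : List (List (Fin 5)) := [[], [0, 2], [2, 0, 2], [3, 2, 3, 0], [3, 2, 2, 3, 3], [2, 2, 0], [0, 2, 0],
  [0, 2, 3, 2, 3, 2], [3, 2, 3, 3], [0, 1, 0, 1], [0, 1, 3, 1, 2, 3], [0, 1, 3, 2, 3, 1], [0, 3, 2, 1, 3],
  [1, 3, 3, 2, 3], [1]]

theorem words : ∀ x y : Fin 6, x ≠ y → ∃ w ∈ ws, (∀ i ∈ w, i ≠ 4) ∧ swap 0 1 * swap x y = (w.map gp).prod := by
  decide +kernel

theorem gen (H : Subgroup A) (h : ∀ i, i ≠ 4 → ga i ∈ H) (g : A) : g ∈ H := by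
  have k : ∀ x y : Fin 6, x ≠ y → swap 0 1 * swap x y ∈ H.map A.subtype := fun x y e => by
    obtain ⟨w, -, h1, h2⟩ := words x y e
    rw [h2]
    refine list_prod_mem fun p hp => ?_
    obtain ⟨i, hi, rfl⟩ := List.mem_map.1 hp
    exact ⟨_, h i (h1 i hi), rfl⟩
  have : ∀ σ : Perm (Fin 6), σ ∈ H.map A.subtype ∧ Perm.sign σ = 1 ∨
      swap 0 1 * σ ∈ H.map A.subtype ∧ Perm.sign σ = -1 := fun σ => by
    induction σ using Perm.swap_induction_on with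
    | one => exact .inl ⟨one_mem _, map_one _⟩
    | swap_mul f x y e ih =>
      rcases ih with ⟨h1, h2⟩ | ⟨h1, h2⟩
      · exact .inr ⟨by rw [← mul_assoc]; exact mul_mem (k x y e) h1, by simp [e, h2]⟩
      · exact .inl ⟨by simpa [mul_assoc] using mul_mem (inv_mem (k x y e)) h1, by simp [e, h2]⟩
  rcases this g with ⟨⟨x, hx, e⟩, -⟩ | ⟨-, e⟩
  · exact Subtype.ext e ▸ hx
  · exact absurd ((Perm.mem_alternatingGroup.1 g.2).symm.trans e) (by decide)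

theorem el0 : ∀ x : Perm (Fin 6), x * gp 4 = gp 4 * x → Perm.sign x = 1 → x = 1 ∨ x = gp 4 ∨ x = gp 0 ∨
    x = gp 0 * gp 4 ∨ x = gp 1 ∨ x = gp 1 * gp 4 ∨ x = gp 0 * gp 1 ∨ x = gp 1 * gp 0 := by decide +kernel

theorem el {x : A} (h : x * ga 4 = ga 4 * x) : x = 1 ∨ x = ga 4 ∨ x = ga 0 ∨
    x = ga 0 * ga 4 ∨ x = ga 1 ∨ x = ga 1 * ga 4 ∨ x = ga 0 * ga 1 ∨ x = ga 1 * ga 0 := by
  simp only [Subtype.ext_iff]
  exact el0 x (congrArg Subtype.val h) (Perm.mem_alternatingGroup.1 x.2)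

theorem s1 {x : A} (h : x * ga 4 = ga 4 * x) (k : x * ga 0 = ga 0 * x) :
    x = 1 ∨ x = ga 4 ∨ x = ga 0 ∨ x = ga 0 * ga 4 := by
  rcases el h with rfl | rfl | rfl | rfl | rfl | rfl | rfl | rfl <;> revert k <;> decide +kernel

theorem s2 {x : A} (h : x * ga 4 = ga 4 * x) (k : x * ga 1 = ga 1 * x) :
    x = 1 ∨ x = ga 4 ∨ x = ga 1 ∨ x = ga 1 * ga 4 := by
  rcases el h with rfl | rfl | rfl | rfl | rfl | rfl | rfl | rfl <;> revert k <;> decide +kernel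

theorem pg : IsPGroup 2 (centralizer {ga 4}) := fun ⟨x, hx⟩ => ⟨2, Subtype.ext (show x ^ 2 ^ 2 = 1 by
  rcases el (mem_centralizer_singleton_iff.1 hx) with rfl | rfl | rfl | rfl | rfl | rfl | rfl | rfl <;> decide +kernel)⟩

theorem ord {X : Type*} [Group X] {a : X} (h : Inv a) : orderOf a = 2 := orderOf_eq_prime (by rw [sq, h.1]) h.2

variable {G : Type u} [Group G]

theorem tr {ψ : A →* G} (hi : Function.Injective ψ) :
    A6D ψ.range ((centralizer {ga 4}).map ψ) (ψ (ga 4)) (ψ (ga 0)) (ψ (ga 1)) (ψ (ga 2)) (ψ (ga 3)) := by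
  have iv : ∀ {a}, Inv (ψ a) ↔ Inv a := by
    intro a; rw [Ags.Inv, Ags.Inv, ← map_mul, ne_eq, map_eq_one_iff _ hi, map_eq_one_iff _ hi]
  have cm : ∀ {a b}, Commute (ψ a) (ψ b) ↔ a * b = b * a := by
    intro a b; rw [commute_iff_eq, ← map_mul, ← map_mul, hi.eq_iff]
  refine ⟨map_le_range _ _, ⟨_, mem_centralizer_singleton_iff.2 rfl, rfl⟩,
    ⟨_, mem_centralizer_singleton_iff.2 (by decide +kernel), rfl⟩,
    ⟨_, mem_centralizer_singleton_iff.2 (by decide +kernel), rfl⟩, ⟨_, rfl⟩, ⟨_, rfl⟩,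
    iv.2 ⟨by decide +kernel, by decide +kernel⟩, iv.2 ⟨by decide +kernel, by decide +kernel⟩,
    iv.2 ⟨by decide +kernel, by decide +kernel⟩, cm.2 (by decide +kernel), cm.2 (by decide +kernel), ?_, ?_, ?_, ?_, ?_,
    ?_, ?_, ?_, ?_, ?_, ?_, fun x h0 h1 h2 h3 => ?_, ?_⟩
  any_goals
    simp only [← map_mul, ← map_inv, hi.eq_iff, map_eq_one_iff _ hi]
    decide +kernel
  · rintro _ ⟨x, hx, rfl⟩
    simpa only [← map_mul, hi.eq_iff, map_eq_one_iff _ hi] using el (mem_centralizer_singleton_iff.1 hx)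
  · rintro _ ⟨x, rfl⟩ h k
    simpa only [← map_mul, hi.eq_iff, map_eq_one_iff _ hi] using s1 (cm.1 h) (cm.1 k)
  · rintro _ ⟨x, rfl⟩ h k
    simpa only [← map_mul, hi.eq_iff, map_eq_one_iff _ hi] using s2 (cm.1 h) (cm.1 k)
  · rintro _ ⟨g, rfl⟩
    refine mem_centralizer_singleton_iff.1 (gen ((centralizer {x}).comap ψ) (fun i hi => ?_) g)
    refine mem_centralizer_singleton_iff.2 ?_
    fin_cases i
    exacts [h0.symm, h1.symm, h2.symm, h3.symm, absurd rfl hi]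
  · rintro _ ⟨a, rfl⟩ _ ⟨b, rfl⟩ ha hb
    obtain ⟨g, rfl⟩ := Cfsg.Agent.S5057.conj (ord (iv.1 ha)) (ord (iv.1 hb))
    exact ⟨_, ⟨g, rfl⟩, by rw [map_mul, map_mul, map_inv]⟩

end A6F

open A6F in
theorem a6f : A6F.{u} := by
  rintro G _ _ L U ⟨e⟩ hU
  have i4 : Inv (ga 4) := ⟨by decide +kernel, by decide +kernel⟩
  obtain ⟨z, hz, iz, hc⟩ := exists_inv_cent hU.isPGroup (hU.le.trans le_normalizer) (e.symm (ga 4)).2
    ⟨by rw [← coe_mul, ← map_mul, i4.1, map_one, coe_one], fun k => i4.2 (e.symm.map_eq_one_iff.1 (Subtype.ext k))⟩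
  obtain ⟨g, hg⟩ := Cfsg.Agent.S5057.conj (a := e ⟨z, hz⟩) (by rw [e.orderOf_eq, orderOf_mk, ord iz]) (ord i4)
  let f := e.trans (MulAut.conj g)
  have hi : Function.Injective (L.subtype.comp f.symm.toMonoidHom) := L.subtype_injective.comp f.symm.injective
  have hr : (L.subtype.comp f.symm.toMonoidHom).range = L := le_antisymm (by rintro _ ⟨x, rfl⟩; exact (f.symm x).2)
    fun x hx => ⟨f ⟨x, hx⟩, congrArg Subtype.val (f.symm_apply_apply _)⟩
  have := tr hi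
  rw [hU.eq_of_le (pg.map _) (fun x hx => ⟨f ⟨x, hU.le hx⟩, mem_centralizer_singleton_iff.2 (by
    rw [show ga 4 = f ⟨z, hz⟩ from hg, ← map_mul, ← map_mul]
    exact congrArg f (Subtype.ext (hc x hx))), congrArg Subtype.val (f.symm_apply_apply _)⟩)
    ((map_le_range _ _).trans hr.le), hr] at this
  exact ⟨_, _, _, _, _, this⟩

theorem fx : FX.{u} := by
  intro G _ L U l f₁ f₂ n m h x hx hl hf
  have n3 : n * (f₁ * l) * n⁻¹ = l := by
    rw [← conj_mul, h.n1, h.n2, mul_assoc, h.c1.eq, ← mul_assoc, h.i1.1, one_mul]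
  have k1 : Commute (n * x * n⁻¹) l := n3 ▸ (hf.mul_right hl).conj n
  have k2 : Commute (n * x * n⁻¹) f₁ := h.n1 ▸ hl.conj n
  have key : ∀ c, x⁻¹ * (n * x * n⁻¹) * (n * c * n⁻¹) = c → Commute (x * c) n := fun c e => by
    rw [commute_iff_eq]
    conv_lhs => rw [← e]
    group
  have one : ∃ c, (c = 1 ∨ c = l ∨ c = f₁ ∨ c = f₁ * l) ∧ Commute (x * c) n := by
    rcases h.s1 (x⁻¹ * (n * x * n⁻¹)) (by
      simpa [mul_assoc] using mul_mem (conj_mem (inv_mem hx) h.nL) (inv_mem h.nL))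
      (hl.inv_left.mul_left k1) (hf.inv_left.mul_left k2) with e | e | e | e
    · exact ⟨1, .inl rfl, key _ (by rw [e]; group)⟩
    · exact ⟨f₁, by simp, key _ (by rw [e, h.n2, ← h.c1.eq, ← mul_assoc, h.il.1, one_mul])⟩
    · exact ⟨f₁ * l, by simp, key _ (by rw [e, n3])⟩
    · exact ⟨l, by simp, key _ (by rw [e, h.n1, mul_assoc, h.c1.eq, ← mul_assoc, h.i1.1, one_mul])⟩
  refine ⟨one, fun h2 => ?_⟩
  obtain ⟨c, hc, k⟩ := one
  have iv : f₂⁻¹ = f₂ := inv_eq_of_mul_eq_one_right h.i2.1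
  have t1 : f₂ * f₁ * f₂⁻¹ = f₁ * l := by rw [iv, h.c21]
  have t3 : f₂ * l * f₂⁻¹ = l := by rw [← h.c2.eq, mul_inv_cancel_right]
  have t2 : f₂ * (f₁ * l) * f₂⁻¹ = f₁ := by rw [← conj_mul, t1, t3, mul_assoc, h.il.1, mul_one]
  have bad : f₂ * c * f₂⁻¹ = c * l → Commute c l → Commute c f₁ → False := fun e cl cf => by
    have a1 : Commute (x * c * l) (f₂ * n * f₂⁻¹) := by
      have := k.conj f₂
      rwa [← conj_mul, e, ← h2.eq, mul_inv_cancel_right, ← mul_assoc] at this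
    have b1 : Commute (x * c * l) l := (hl.mul_left cl).mul_left (.refl l)
    have b2 : Commute (x * c * l) f₁ := (hf.mul_left cf).mul_left h.c1
    have a2 : Commute (x * c * l) (f₂ * n * f₂ * n) := by
      rcases h.s1 (f₂ * n * f₂ * n) (mul_mem (mul_mem (mul_mem (h.UL h.f2U) h.nL) (h.UL h.f2U)) h.nL)
        (mul_inv_eq_iff_eq_mul.1 (calc
          _ = f₂ * (n * (f₂ * (n * l * n⁻¹) * f₂⁻¹) * n⁻¹) * f₂⁻¹ := by group
          _ = _ := by rw [h.n1, t1, n3, t3]))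
        (mul_inv_eq_iff_eq_mul.1 (calc
          _ = f₂ * (n * (f₂ * (n * f₁ * n⁻¹) * f₂⁻¹) * n⁻¹) * f₂⁻¹ := by group
          _ = _ := by rw [h.n2, t2, h.n2, t2])) with e | e | e | e <;> rw [e]
      exacts [.one_right _, b1, b2, b2.mul_right b1]
    have a3 := a1.inv_right.mul_right a2
    rw [iv, inv_mul_cancel_left] at a3
    have a4 := k.inv_left.mul_left a3
    rw [inv_mul_cancel_left] at a4
    have a5 : l = f₁ := by rw [← h.n1, ← a4.eq, mul_inv_cancel_right]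
    exact h.i1.2 (conj_eq_one_iff.1 (h.n2.trans (a5 ▸ h.il.1)))
  rcases hc with rfl | rfl | rfl | rfl
  · exact .inl (mul_one x ▸ k)
  · exact .inr k
  · exact (bad t1 h.c1.symm (.refl _)).elim
  · exact (bad (by rw [t2, mul_assoc, h.il.1, mul_one]) (h.c1.symm.mul_left (.refl _))
      ((Commute.refl _).mul_left h.c1)).elim

end CL.Q49
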