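/-
Project Q49: the case `L ≅ A₆`, the outer involution `v = [z, g]`.
-/
import Cfsg.Agent.Q49.Defs
import Cfsg.Agent.Ags.Base

set_option autoImplicit false

namespace CL.Q49

open Cfsg Subgroup CL.Even CL.Grp CL.Loc CL.Ags CL.Q16

universe u

theorem aa0 (h1 : GS.{u}) (h2 : A6F.{u}) (h3 : FX.{u}) : AA0.{u} := by
  intro G _ _ T L K z y g h M nC nE iso
  have mC : ∀ {a b : G}, a ∈ Ce b ↔ Commute a b := mem_centralizer_singleton_iff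
  have ZK : K ⊓ 𝒞(K) = ⊥ := by_contra nC
  have nx : ∀ e ∈ K, e ∈ 𝒞(L) → Commute e z → e * e = 1 → e = 1 := fun e hK hL c e2 => by_contra fun e1 =>
    nE ⟨e, hK, hL, c, ⟨e2, e1⟩, fun k => e1 (mem_bot.1 (ZK ▸ ⟨hK, k⟩))⟩
  have TL : T ≤ 𝒩(L) := M.zc.trans (M.nrm z 1 M.iz (by rw [cj_one]; exact M.zc) L M.cL)
  obtain ⟨l, f₁, f₂, n, m, a⟩ := h2 G L (T ⊓ L) iso ((M.syl.of_le TL le_top).inf_of_normalized le_normalizer le_rfl)
  have LD : T ⊓ L ≤ T ⊓ Ce y := inf_le_inf_left _ fun x hx => mC.2 (cm_of M.yL hx).symm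
  have zD : z ∈ T ⊓ Ce y := ⟨M.zT, mC.2 (mC.1 (M.zc M.yT)).symm⟩
  have zC : z ∈ 𝒞(T ⊓ Ce y) := mc_iff.2 fun x hx => (mC.1 (M.zc hx.1)).symm
  have wD := conj_mem M.gN zD
  have wz : Commute (g * z * g⁻¹) z := mC.1 (M.zc wD.1)
  obtain ⟨v, ev⟩ : ∃ v, v = z * (g * z * g⁻¹) := ⟨_, rfl⟩
  have zv : g * z * g⁻¹ = z * v := by rw [ev, ← mul_assoc z z, M.iz.1, one_mul]
  have vT : v ∈ T := ev ▸ mul_mem M.zT wD.1
  have vD : v ∈ 𝒞(T ⊓ Ce y) := ev ▸ mul_mem zC (conj_mem (norm_cent M.gN) zC)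
  have iv : Inv v := ⟨by
    rw [ev, mul_assoc, ← mul_assoc _ z, wz.eq, mul_assoc z, (M.iz.conj g).1, mul_one, M.iz.1], fun e =>
      M.gz (by rw [e, mul_one] at zv; exact mul_inv_eq_iff_eq_mul.1 zv)⟩
  have vK : v ∈ K := by
    have := mul_mem (conj_mem M.zK M.gK) (inv_mem M.gK)
    rwa [M.iz.inv_eq, mul_assoc z g z, mul_assoc z, ← ev] at this
  have gv : Commute g v := by
    have c : g * g * z = z * (g * g) := mC.1 (M.zc M.g2)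
    refine mul_inv_eq_iff_eq_mul.1 ?_
    rw [ev]
    calc _ = g * z * g⁻¹ * (g * g * z) * (g * g)⁻¹ := by group
      _ = g * z * g⁻¹ * z := by rw [c]; group
      _ = _ := wz.eq
  have vL : v ∉ L := fun hv => by
    obtain ⟨x, hx, e⟩ := a.one v hv _ (conj_mem (TL M.up.hT) hv) iv (iv.conj h)
    exact h1 G T L z y h M.toSt M.up v hv (fun k => iv.2 (mem_bot.1 (M.ZL ▸ ⟨hv, k⟩))) g (M.cK.le M.gK) gv zv x hx e.symm
  have cl := cm_of vD (LD a.lU)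
  have c1 := cm_of vD (LD a.f1U)
  have c2 := cm_of vD (LD a.f2U)
  have vz : Commute v z := mC.1 (M.zc vT)
  rcases (h3 G L _ _ _ _ _ _ a v (TL vT) cl c1).2 c2 with p | p <;>
    rcases (h3 G L _ _ _ _ _ _ a.symm v (TL vT) cl c2).2 c1 with q | q
  · exact (iv.2 (nx v vK (a.gen v c1 c2 p q) vz iv.1)).elim
  · exact ⟨l, f₁, f₂, n, m, v, M, ZK, nx, a, zv, vK, vT, vD, iv, vL, p, q⟩
  · exact ⟨l, f₂, f₁, m, n, v, M, ZK, nx, a.symm, zv, vK, vT, vD, iv, vL, q, p⟩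
  · have := nx (v * l) (mul_mem vK (M.le a.lU.2)) (a.gen _ (c1.mul_left a.c1) (c2.mul_left a.c2) p q)
      (vz.mul_left (mC.1 (M.zc a.lU.1))) (by rw [mul_assoc, ← mul_assoc l, ← cl.eq, mul_assoc, a.il.1, mul_one, iv.1])
    exact (vL (eq_inv_of_mul_eq_one_left this ▸ inv_mem a.lU.2)).elim

end CL.Q49
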