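/-
Project Q49, job AA1: decompositions in the case `L ≅ A₆`.
-/
import Cfsg.Agent.Q49.Defs
import Cfsg.Agent.Ags.Base

set_option autoImplicit false

namespace CL.Q49

open Cfsg Subgroup CL.Even CL.Grp CL.Loc CL.Ags CL.Q16

universe u

namespace AA1x

variable {G : Type u} [Group G] {L U : Subgroup G} {l f₁ f₂ n m : G}

theorem mce {x y : G} : y ∈ Ce x ↔ Commute y x := mem_centralizer_singleton_iff

theorem cmj {t x : G} : Commute t x ↔ t * x * t⁻¹ = x := by rw [mul_inv_eq_iff_eq_mul]; rfl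

theorem inv_eq {x : G} (h : Inv x) : x⁻¹ = x := inv_eq_of_mul_eq_one_right h.1

theorem cmj2 {a b x : G} (h : a * x * a⁻¹ = b * x * b⁻¹) : Commute (b⁻¹ * a) x :=
  cmj.2 (by rw [show b⁻¹ * a * x * (b⁻¹ * a)⁻¹ = b⁻¹ * (a * x * a⁻¹) * b by group, h]; group)

theorem sq12 (a : A6D L U l f₁ f₂ n m) : f₁ * f₂ * (f₁ * f₂) = l := by
  rw [← mul_assoc, a.c12, mul_assoc, a.c2.eq, ← mul_assoc, a.i2.1, one_mul]

theorem sql (a : A6D L U l f₁ f₂ n m) : f₁ * l * (f₁ * l) = 1 := by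
  rw [← a.c1.symm.mul_mul_mul_comm, a.i1.1, a.il.1, one_mul]

theorem sqU (a : A6D L U l f₁ f₂ n m) {x : G} (hx : x ∈ U) : x * x = 1 ∨ x * x = l := by
  rcases a.el x hx with e | e | e | e | e | e | e | e <;> rw [e]
  exacts [.inl (one_mul 1), .inl a.il.1, .inl a.i1.1, .inl (sql a), .inl a.i2.1, .inl (sql a.symm), .inr (sq12 a),
    .inr (sq12 a.symm)]

theorem ne1 (a : A6D L U l f₁ f₂ n m) : f₁ ≠ l := fun e => by
  have k := a.n2
  rw [e, a.il.1, a.n1] at k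
  exact a.i1.2 k

theorem nl (a : A6D L U l f₁ f₂ n m) : ¬ Commute n l := fun k => ne1 a (a.n1.symm.trans (cmj.1 k))

theorem n12 (a : A6D L U l f₁ f₂ n m) : ¬ Commute f₁ f₂ := fun k => a.il.2 (by
  rw [← sq12 a, ← k.mul_mul_mul_comm, a.i1.1, a.i2.1, one_mul])

/-- the conjugate of `f₁` -/
theorem cf (a : A6D L U l f₁ f₂ n m) {t : G} (hU : t * f₁ * t⁻¹ ∈ U) (hl : t * l * t⁻¹ = l) :
    (t * f₁ * t⁻¹ = f₁ ∨ t * f₁ * t⁻¹ = f₁ * l) ∨ (t * f₁ * t⁻¹ = f₂ ∨ t * f₁ * t⁻¹ = f₂ * l) := by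
  have s : t * f₁ * t⁻¹ * (t * f₁ * t⁻¹) = 1 := by rw [conj_mul, a.i1.1, mul_one, mul_inv_cancel]
  rcases a.el _ hU with e | e | e | e | e | e | e | e
  · exact absurd (conj_eq_one_iff.1 e) a.i1.2
  · exact absurd (conj_injective (e.trans hl.symm)) (ne1 a)
  · exact .inl (.inl e)
  · exact .inl (.inr e)
  · exact .inr (.inl e)
  · exact .inr (.inr e)
  · rw [e, sq12 a] at s; exact absurd s a.il.2
  · rw [e, sq12 a.symm] at s; exact absurd s a.il.2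

theorem cl (a : A6D L U l f₁ f₂ n m) {t x : G} (hx : x ∈ U) (e : t * l * t⁻¹ = x * x) : Commute t l := by
  rcases sqU a hx with k | k
  · exact absurd (conj_eq_one_iff.1 (e.trans k)) a.il.2
  · exact cmj.2 (e.trans k)

theorem cvm (a : A6D L U l f₁ f₂ n m) {n' x v : G} (hn : n' ∈ L) (hx : x = f₂ ∨ x = f₂ * l) (e1 : n' * l * n'⁻¹ = x)
    (e2 : n' * x * n'⁻¹ = x * l) (hv : ∀ u ∈ U, Commute v u) (vn : Commute v n') : Commute v m := by
  have k : ∀ k ∈ L, Commute k l → Commute k f₂ → Commute v k := fun k hk h1 h2 => by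
    rcases a.s2 k hk h1 h2 with e | e | e | e <;> rw [e]
    exacts [Commute.one_right v, hv _ a.lU, hv _ a.f2U, hv _ (mul_mem a.f2U a.lU)]
  rcases hx with rfl | rfl
  · have := k _ (mul_mem (inv_mem a.mL) hn) (cmj2 (e1.trans a.m1.symm)) (cmj2 (e2.trans a.m2.symm))
    simpa using vn.mul_right this.inv_right
  · have m3 : m * (f₂ * l) * m⁻¹ = l := by
      rw [← conj_mul, a.m1, a.m2, mul_assoc, a.c2.eq, ← mul_assoc, a.i2.1, one_mul]
    rw [mul_assoc f₂ l l, a.il.1, mul_one] at e2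
    have c1 : Commute (m * n') l := cmj.2 (by
      rw [show m * n' * l * (m * n')⁻¹ = m * (n' * l * n'⁻¹) * m⁻¹ by group, e1, m3])
    have c2 : Commute (m * n') (f₂ * l) := cmj.2 (by
      rw [show m * n' * (f₂ * l) * (m * n')⁻¹ = m * (n' * (f₂ * l) * n'⁻¹) * m⁻¹ by group, e2, a.m2])
    have := k _ (mul_mem a.mL hn) c1 (by simpa using c2.mul_right c1.inv_right)
    simpa using this.mul_right vn.inv_right

theorem exx (a : A6D L U l f₁ f₂ n m) {p q : G} (hp : p = f₁ ∨ p = f₁ * l) (hq : q = f₂ ∨ q = f₂ * l) :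
    ∃ x ∈ U, x * f₁ * x⁻¹ = p ∧ x * f₂ * x⁻¹ = q := by
  have e1 : f₁ * f₂ * f₁⁻¹ = f₂ * l := by rw [inv_eq a.i1, a.c12]
  have e2 : f₂ * f₁ * f₂⁻¹ = f₁ * l := by rw [inv_eq a.i2, a.c21]
  rcases hp with rfl | rfl <;> rcases hq with rfl | rfl
  · exact ⟨1, one_mem _, by simp, by simp⟩
  · exact ⟨p, a.f1U, by simp, e1⟩
  · exact ⟨q, a.f2U, e2, by simp⟩
  · refine ⟨f₁ * f₂, mul_mem a.f1U a.f2U, ?_, by rw [← e1]; group⟩
    rw [show f₁ * f₂ * f₁ * (f₁ * f₂)⁻¹ = f₁ * (f₂ * f₁ * f₂⁻¹) * f₁⁻¹ by group, e2]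
    exact cmj.1 ((Commute.refl f₁).mul_right a.c1.symm)

end AA1x

open AA1x

theorem aa1 (h3 : FX.{u}) : AA1.{u} := by
  intro G _ _ T L K z y g h l f₁ f₂ n m v c
  have a := c.a6
  have TN : T ≤ 𝒩(L) := c.zc.trans (c.nrm z 1 c.iz (by rw [cj_one]; exact c.zc) L c.cL)
  have cU : ∀ t ∈ T, ∀ x ∈ T ⊓ L, t * x * t⁻¹ ∈ T ⊓ L := fun t ht x hx =>
    ⟨T.mul_mem (T.mul_mem ht hx.1) (T.inv_mem ht), (mem_normalizer_iff.1 (TN ht) x).1 hx.2⟩
  have UD : T ⊓ L ≤ T ⊓ Ce y := fun x hx => ⟨hx.1, mce.2 (cm_of c.yL hx.2).symm⟩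
  have vU : ∀ u ∈ T ⊓ L, Commute v u := fun u hu => cm_of c.vD (UD hu)
  have vl := vU l a.lU
  have u12 := mul_mem a.f1U a.f2U
  have lT : ∀ t ∈ T, Commute t l := fun t ht => cl a (cU t ht _ u12) (by rw [conj_mul, sq12 a])
  have fD : ∀ t ∈ T ⊓ Ce y, t * f₁ * t⁻¹ = f₁ ∨ t * f₁ * t⁻¹ = f₁ * l := fun t ht => by
    have tl := lT t ht.1
    refine (cf a (cU t ht.1 _ a.f1U) (cmj.1 tl)).resolve_right fun k => nl a.symm ?_
    have vt : Commute v t := cm_of c.vD ht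
    have := cvm a (n' := t * n * t⁻¹) ((mem_normalizer_iff.1 (TN ht.1) n).1 a.nL) k
      (by rw [← a.n1]; nth_rewrite 1 [← cmj.1 tl]; group)
      (calc _ = t * (n * f₁ * n⁻¹) * t⁻¹ := by group
        _ = _ := by rw [a.n2, ← conj_mul, cmj.1 tl]) vU ((vt.mul_right c.vn).mul_right vt.inv_right)
    simpa using (this.inv_left.mul_left c.vm).symm
  have dec : ∀ t ∈ T, (t * f₁ * t⁻¹ = f₁ ∨ t * f₁ * t⁻¹ = f₁ * l) →
      ∃ c ∈ T ⊓ 𝒞(L), ∃ x ∈ T ⊓ L, t = c * x ∨ t = c * x * v := fun t ht k1 => by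
    have k2 : t * f₂ * t⁻¹ = f₂ ∨ t * f₂ * t⁻¹ = f₂ * l :=
      (cf a.symm (cU t ht _ a.f2U) (cmj.1 (lT t ht))).resolve_right fun k2 => n12 a (by
        have r' := (Commute.refl f₁).mul_right a.c1.symm
        have : Commute (t * f₁ * t⁻¹) (t * f₂ * t⁻¹) := by
          rcases k1 with e | e <;> rcases k2 with e' | e' <;> rw [e, e']
          exacts [r', r'.symm]
        simpa [mul_assoc] using this.conj t⁻¹)
    obtain ⟨x, hx, e1, e2⟩ := exx a k1 k2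
    have s1 := cmj2 e1.symm
    have s2 := cmj2 e2.symm
    have sT : x⁻¹ * t ∈ T := mul_mem (inv_mem hx.1) ht
    have sl := lT _ sT
    have fin : ∀ w ∈ T, Commute w f₁ → Commute w f₂ → Commute (x⁻¹ * t * w) n → Commute (x⁻¹ * t * w) m →
        x⁻¹ * t * w ∈ T ⊓ 𝒞(L) ∧ t = x⁻¹ * t * w * x * w⁻¹ := fun w hw w1 w2 wn wm => by
      have k := a.gen _ (s1.mul_left w1) (s2.mul_left w2) wn wm
      exact ⟨⟨mul_mem sT hw, k⟩, by rw [(cm_of k hx.2).eq]; group⟩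
    have v1 := vU _ a.f1U
    have v2 := vU _ a.f2U
    rcases (h3 G L _ l f₁ f₂ n m a _ (TN sT) sl s1).2 s2 with p | p <;>
      rcases (h3 G L _ l f₂ f₁ m n a.symm _ (TN sT) sl s2).2 s1 with q | q
    · obtain ⟨k, e⟩ := fin 1 (one_mem _) (.one_left _) (.one_left _) (by rwa [mul_one]) (by rwa [mul_one])
      exact ⟨_, k, x, hx, .inl (by rwa [inv_one, mul_one] at e)⟩
    · obtain ⟨k, e⟩ := fin v c.vT v1 v2 (p.mul_left c.vn) (by
        have := q.mul_left c.vm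
        rwa [vl.eq, ← mul_assoc, mul_assoc _ l l, a.il.1, mul_one] at this)
      exact ⟨_, k, x, hx, .inr (by rwa [inv_eq c.iv] at e)⟩
    · obtain ⟨k, e⟩ := fin (v * l) (mul_mem c.vT a.lU.1) (v1.mul_left a.c1) (v2.mul_left a.c2) (by
        rw [vl.eq, ← mul_assoc]; exact p.mul_left c.vn) (q.mul_left c.vm)
      exact ⟨_, k, x * l⁻¹, mul_mem hx (inv_mem a.lU), .inr (by
        rwa [mul_inv_rev, inv_eq c.iv, ← mul_assoc, mul_assoc _ x] at e)⟩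
    · obtain ⟨k, e⟩ := fin l a.lU.1 a.c1 a.c2 p q
      exact ⟨_, k, x * l⁻¹, mul_mem hx (inv_mem a.lU), .inl (by rwa [mul_assoc _ x] at e)⟩
  have triv : T ⊓ K ⊓ 𝒞(L) = ⊥ := by
    by_contra ne
    obtain ⟨e, he, ie⟩ := exists_inv_of_isP (c.syl.isPGroup.to_le (inf_le_left.trans inf_le_left)) ne
    exact ie.2 (c.nx e he.1.2 he.2 (mce.1 (c.zc he.1.1)) ie.1)
  have dU : ∀ t ∈ T ⊓ Ce y, t ∈ K → ∃ x ∈ T ⊓ L, t = x ∨ t = x * v := fun t ht tK => by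
    obtain ⟨d, hd, x, hx, e⟩ := dec t ht.1 (fD t ht)
    have dK : d ∈ K := by
      rcases e with rfl | rfl
      · exact (K.mul_mem_cancel_right (c.le hx.2)).1 tK
      · exact (K.mul_mem_cancel_right (c.le hx.2)).1 ((K.mul_mem_cancel_right c.vK).1 tK)
    have : d = 1 := mem_bot.1 (triv ▸ (⟨⟨hd.1, dK⟩, hd.2⟩ : d ∈ T ⊓ K ⊓ 𝒞(L)))
    exact ⟨x, hx, by simpa [this] using e⟩
  refine ⟨c, fun t ht => mce.2 (lT t ht), fun t ht => cf a (cU t ht _ a.f1U) (cmj.1 (lT t ht)), fD, dec, dU,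
    fun k => c.iv.2 (c.nx v c.vK k (mce.1 (c.zc c.vT)) c.iv.1), ?_, ?_⟩
  · obtain ⟨x, hx, e⟩ := dU _ ((mem_normalizer_iff.1 c.gN _).1 (UD u12))
      (mul_mem (mul_mem c.gK (c.le u12.2)) (inv_mem c.gK))
    refine cl a hx ?_
    rw [← sq12 a, ← conj_mul]
    rcases e with e | e <;> rw [e]
    rw [← (vU x hx).symm.mul_mul_mul_comm, c.iv.1, mul_one]
  · have e : g * (z * v) * g⁻¹ = z :=
      calc _ = g * g * z * (g * g)⁻¹ := by rw [← c.zv]; group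
        _ = z := cmj.1 (mce.1 (c.zc c.g2))
    rw [← conj_mul, c.zv, mul_assoc, mul_eq_left] at e
    exact cmj.2 ((eq_inv_of_mul_eq_one_right e).trans (inv_eq c.iv))

end CL.Q49
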