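import Cfsg.Agent.Q49.Defs

/-! # Q49-AA2: the type of `g f₂ g⁻¹` -/

set_option autoImplicit false

namespace CL.Q49

open Cfsg Subgroup CL.Even CL.Grp CL.Loc CL.Ags CL.Q16

universe u

namespace AA2x

variable {G : Type u} [Group G] {L U : Subgroup G} {l f₁ f₂ n m : G}

theorem ne_l (A : A6D L U l f₁ f₂ n m) : f₁ ≠ l := fun e => by
  have h2 := A.n2
  rw [e, A.n1, e, A.il.1] at h2
  exact A.il.2 h2

theorem sq12 (A : A6D L U l f₁ f₂ n m) : f₁ * f₂ * (f₁ * f₂) ≠ 1 := fun e => A.il.2 (by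
  rw [← mul_assoc, A.c12, ← A.c2.eq, mul_assoc, A.i2.1, mul_one] at e
  exact e)

theorem nc (A : A6D L U l f₁ f₂ n m) : ¬ Commute f₁ f₂ := fun e => A.il.2 (by
  have h := A.c12
  rw [e.eq, mul_assoc, A.i1.1, mul_one] at h
  exact left_eq_mul.1 h)

theorem m4 (A : A6D L U l f₁ f₂ n m) : m * (f₂ * l) * m⁻¹ = l := by
  calc _ = m * f₂ * m⁻¹ * (m * l * m⁻¹) := by group
    _ = l := by rw [A.m1, A.m2, ← A.c2.eq, mul_assoc, A.i2.1, mul_one]

theorem fin (h3 : FX.{u}) (A : A6D L U l f₁ f₂ n m) {v x s : G} (vl : Commute v l) (vf : Commute v f₂)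
    (vm : Commute (v * l) m) (hx : x ∈ 𝒩(L)) (xl : Commute x l) (xf : Commute x f₂) (hs : s = f₂ * l ∨ s = f₂)
    (e : x * v * x⁻¹ = v * l * s) : False := by
  obtain ⟨⟨c, hc, hm⟩, -⟩ := h3 G L U l f₂ f₁ m n A.symm x hx xl xf
  have k1 : Commute (v * l) l := vl.mul_left (Commute.refl l)
  have k2 : Commute (v * l) f₂ := vf.mul_left A.c2
  have cc : Commute (v * l) c := by
    rcases hc with rfl | rfl | rfl | rfl
    exacts [Commute.one_right _, k1, k2, k2.mul_right k1]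
  have k3 := vm.conj (x * c)
  have e1 : x * c * (v * l) * (x * c)⁻¹ = v * l * (s * l) := by
    calc _ = x * (c * (v * l)) * c⁻¹ * x⁻¹ := by group
      _ = x * v * x⁻¹ * (x * l * x⁻¹) := by rw [← cc.eq]; group
      _ = _ := by rw [e, xl.eq]; group
  rw [e1, hm.eq, mul_inv_cancel_right] at k3
  have k4 : Commute (s * l) m := by simpa only [inv_mul_cancel_left] using vm.inv_left.mul_left k3
  rcases hs with rfl | rfl
  · rw [mul_assoc, A.il.1, mul_one] at k4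
    have := A.m2
    rw [← k4.eq, mul_inv_cancel_right] at this
    exact A.il.2 (left_eq_mul.1 this)
  · have := m4 A
    rw [← k4.eq, mul_inv_cancel_right] at this
    exact A.i2.2 (mul_eq_right.1 this)

end AA2x

open AA2x

theorem aa2 (h3 : FX.{u}) : AA2.{u} := by
  intro G _ _ T L K z y g h l f₁ f₂ n m v H
  have A := H.a6
  have UD : T ⊓ L ≤ T ⊓ Ce y := fun x hx => ⟨hx.1, mem_centralizer_singleton_iff.2 (H.yL x hx.2)⟩
  have vU : ∀ x ∈ T ⊓ L, Commute v x := fun x hx => (H.vD x (UD hx)).symm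
  have vl := vU l A.lU
  have gl : g * l * g⁻¹ = l := by rw [H.gl'.eq, mul_inv_cancel_right]
  have gv : g * v * g⁻¹ = v := by rw [H.gv.eq, mul_inv_cancel_right]
  have cinj : ∀ {a b : G}, g * a * g⁻¹ = g * b * g⁻¹ → a = b := fun e => by simpa using e
  have ty : ∀ f ∈ T ⊓ L, Inv f → f ≠ l → ∃ x, ((x = f₁ ∨ x = f₁ * l) ∨ (x = f₂ ∨ x = f₂ * l)) ∧
      (g * f * g⁻¹ = x ∨ g * f * g⁻¹ = x * v) := fun f hf i fl => by
    obtain ⟨x, hx, e⟩ := H.dU _ (conj_mem H.gN (UD hf)) (mul_mem (mul_mem H.gK (H.le hf.2)) (inv_mem H.gK))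
    have h2 : g * f * g⁻¹ * (g * f * g⁻¹) = 1 := by rw [conj_mul, i.1, mul_one, mul_inv_cancel]
    have x2 : x * x = 1 := by
      rcases e with e | e <;> rw [e] at h2
      · exact h2
      · calc x * x = x * x * (v * v) := by rw [H.iv.1, mul_one]
          _ = x * (x * v) * v := by group
          _ = 1 := by rw [← (vU x hx).eq, ← h2]; group
    refine ⟨x, ?_, e⟩
    rcases A.el x hx with k | k | k | k | k | k | k | k
    · rcases e with e | e
      · exact absurd (cinj (b := 1) (by rw [e, k]; group)) i.2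
      · exact absurd (cinj (b := v) (by rw [e, k, gv, one_mul]) ▸ hf.2) H.vL
    · rcases e with e | e
      · exact absurd (cinj (by rw [e, k, gl])) fl
      · have : f = l * v := cinj (by rw [e, k, ← conj_mul, gl, gv])
        exact absurd ((L.mul_mem_cancel_left (A.UL A.lU)).1 (this ▸ hf.2)) H.vL
    · exact .inl (.inl k)
    · exact .inl (.inr k)
    · exact .inr (.inl k)
    · exact .inr (.inr k)
    · exact absurd (k ▸ x2) (sq12 A)
    · exact absurd (k ▸ x2) (sq12 A.symm)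
  obtain ⟨x₂, t₂, e₂⟩ := ty f₂ A.f2U A.i2 (ne_l A.symm)
  rcases t₂ with t₂ | rfl | rfl
  rotate_left
  · tauto
  · tauto
  exfalso
  obtain ⟨x₁, t₁, e₁⟩ := ty f₁ A.f1U A.i1 (ne_l A)
  have vf := vU f₁ A.f1U
  have t1c : ∀ {x φ : G}, (x = f₁ ∨ x = f₁ * l) → (φ = x ∨ φ = x * v) →
      Commute φ f₁ ∧ Commute φ l ∧ Commute φ v := fun hx hφ => by
    have r := Commute.refl f₁
    have r' := Commute.refl l
    have r'' := Commute.refl v
    rcases hx with rfl | rfl <;> rcases hφ with rfl | rfl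
    · exact ⟨r, A.c1.symm, vf.symm⟩
    · exact ⟨r.mul_left vf, A.c1.symm.mul_left vl, vf.symm.mul_left r''⟩
    · exact ⟨r.mul_left A.c1, A.c1.symm.mul_left r', vf.symm.mul_left vl.symm⟩
    · exact ⟨(r.mul_left A.c1).mul_left vf, (A.c1.symm.mul_left r').mul_left vl,
        (vf.symm.mul_left vl.symm).mul_left r''⟩
  rcases t₁ with t₁ | t₁
  · obtain ⟨a, b, c⟩ := t1c t₂ e₂
    have k : Commute (g * f₂ * g⁻¹) (g * f₁ * g⁻¹) := by
      rcases t₁ with rfl | rfl <;> rcases e₁ with e | e <;> rw [e]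
      exacts [a, a.mul_right c, a.mul_right b, (a.mul_right b).mul_right c]
    exact nc A (by simpa [mul_assoc] using (k.conj g⁻¹).symm)
  have nv : Commute (g * n * g⁻¹) v := by simpa only [gv] using H.vn.symm.conj g
  have nz : Commute (g * n * g⁻¹) z := by
    have k : Commute n z := mem_centralizer_singleton_iff.1 (H.cL.le A.nL)
    have k' := k.conj g
    rw [H.zv] at k'
    simpa using k'.mul_right nv.inv_right
  have nN : g * n * g⁻¹ ∈ 𝒩(L) :=
    H.nrm z 1 H.iz (by rw [cj_one]; exact H.zc) L H.cL (mem_centralizer_singleton_iff.2 nz)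
  have e1 : g * n * g⁻¹ * l * (g * n * g⁻¹)⁻¹ = g * f₁ * g⁻¹ := by
    conv_lhs => rw [← gl]
    rw [← A.n1]; group
  have e2 : g * n * g⁻¹ * (g * f₁ * g⁻¹) * (g * n * g⁻¹)⁻¹ = g * f₁ * g⁻¹ * l := by
    conv_rhs => rw [← gl, conj_mul, ← A.n2]
    group
  have φL : g * f₁ * g⁻¹ ∈ L := e1 ▸ conj_mem nN (A.UL A.lU)
  have x₁L : x₁ ∈ L := by
    rcases t₁ with rfl | rfl
    exacts [A.UL A.f2U, mul_mem (A.UL A.f2U) (A.UL A.lU)]
  have e₁' : g * f₁ * g⁻¹ = x₁ := e₁.resolve_right fun e => H.vL ((L.mul_mem_cancel_left x₁L).1 (e ▸ φL))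
  rw [e₁'] at e1 e2
  have e3 : g * n * g⁻¹ * v * (g * n * g⁻¹)⁻¹ = v * l * l := by
    rw [nv.eq, mul_inv_cancel_right, mul_assoc, A.il.1, mul_one]
  have mN : m ∈ 𝒩(L) := le_normalizer A.mL
  generalize g * n * g⁻¹ = n' at nN e1 e2 e3
  have cm : ∀ {a b : G}, a * b * a⁻¹ = b → Commute a b := fun e => mul_inv_eq_iff_eq_mul.1 e
  rcases t₁ with rfl | rfl
  · refine fin h3 A vl (vU _ A.f2U) H.vm (mul_mem (inv_mem mN) nN) (cm ?_) (cm ?_) (.inl rfl) ?_
    · calc _ = m⁻¹ * (n' * l * n'⁻¹) * m := by group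
        _ = l := by rw [e1, ← A.m1]; group
    · calc _ = m⁻¹ * (n' * x₁ * n'⁻¹) * m := by group
        _ = x₁ := by rw [e2, ← A.m2]; group
    · calc _ = m⁻¹ * (n' * v * n'⁻¹) * m := by group
        _ = m⁻¹ * (v * l * m) * (m⁻¹ * l * m) := by rw [e3]; group
        _ = v * l * (m⁻¹ * (m * (x₁ * l) * m⁻¹) * m) := by rw [H.vm.eq, m4 A]; group
        _ = _ := by group
  · refine fin h3 A vl (vU _ A.f2U) H.vm (mul_mem mN nN) (cm ?_) (cm ?_) (.inr rfl) ?_
    · calc _ = m * (n' * l * n'⁻¹) * m⁻¹ := by group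
        _ = l := by rw [e1, m4 A]
    · calc _ = m * (n' * (f₂ * l) * n'⁻¹ * (n' * l * n'⁻¹)⁻¹) * m⁻¹ := by group
        _ = m * (l * (f₂ * l) * (f₂ * l)⁻¹) * m⁻¹ := by rw [e1, e2, ← (A.c2.mul_right (Commute.refl l)).eq]
        _ = f₂ := by rw [mul_inv_cancel_right, A.m1]
    · calc _ = m * (n' * v * n'⁻¹) * m⁻¹ := by group
        _ = m * (v * l) * m⁻¹ * (m * l * m⁻¹) := by rw [e3]; group
        _ = _ := by rw [← H.vm.eq, mul_inv_cancel_right, A.m1]

end CL.Q49
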