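/-
Project Q49: the case `A₆`, normalisation of the moving element.
-/
import Cfsg.Agent.Q49.Defs

set_option autoImplicit false

namespace CL.Q49

open Cfsg Subgroup CL.Even CL.Grp CL.Loc CL.Ags CL.Q16
open scoped commutatorElement

universe u

namespace AA3x

variable {G : Type u} [Group G] [Finite G] {T L K : Subgroup G} {z y g h l f₁ f₂ n m v : G}

theorem mem_Ce' {x a : G} : a ∈ Ce x ↔ Commute a x := mem_centralizer_singleton_iff

theorem LD (H : AD T L K z y g h l f₁ f₂ n m v) : T ⊓ L ≤ T ⊓ Ce y :=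
  inf_le_inf_left T (H.le.trans H.cK.1.le)

theorem cmv (H : AD T L K z y g h l f₁ f₂ n m v) {x : G} (hx : x ∈ T ⊓ L) : Commute x v :=
  comm_of_mem H.vD (LD H hx)

theorem shift (H : AD T L K z y g h l f₁ f₂ n m v) : AD T L K z y (g * f₁) h l f₁ f₂ n m v := by
  have f1 := H.a6.f1U
  have c : Commute f₁ z := mem_Ce'.1 (H.zc f1.1)
  exact { H with
    gK := mul_mem H.gK (H.le f1.2)
    gN := mul_mem H.gN (le_normalizer (LD H f1))
    gD := fun e => H.gD ((T.mul_mem_cancel_right f1.1).1 e)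
    g2 := by
      rw [show g * f₁ * (g * f₁) = g * f₁ * g⁻¹ * (g * g) * f₁ by group]
      exact mul_mem (mul_mem (conj_mem H.gN (LD H f1)).1 H.g2) f1.1
    gz := fun e => H.gz (by simpa only [mul_inv_cancel_right] using e.mul_left c.inv_left)
    zv := by
      rw [← H.zv, mul_assoc g, c.eq]; group
    gl' := H.gl'.mul_left H.a6.c1.symm
    gv := H.gv.mul_left (cmv H f1) }

theorem shift_f (H : AD T L K z y g h l f₁ f₂ n m v) : g * f₁ * f₂ * (g * f₁)⁻¹ = g * f₂ * g⁻¹ * l :=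
  calc g * f₁ * f₂ * (g * f₁)⁻¹ = g * (f₁ * f₂ * f₁) * g⁻¹ := by rw [mul_inv_rev, H.a6.i1.inv_eq]; group
    _ = g * f₂ * g⁻¹ * (g * l * g⁻¹) := by rw [H.a6.c12]; group
    _ = _ := by rw [H.gl'.eq, mul_inv_cancel_right]

theorem no1 (h1 : GS.{u}) (H : AD T L K z y g h l f₁ f₂ n m v) (e : g * f₂ * g⁻¹ = f₂) : False := by
  have A := H.a6
  have c2 : Commute g f₂ := mul_inv_eq_iff_eq_mul.1 e
  have aL : f₂ * l ∈ L := mul_mem A.f2U.2 A.lU.2
  have ia : Inv (f₂ * l) := A.m2 ▸ A.i2.conj m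
  have hN : h ∈ 𝒩(L) := H.nrm z 1 H.iz (by rw [cj_one]; exact H.zc) L H.cL (H.zc H.up.hT)
  obtain ⟨x, hx, ex⟩ := A.one _ aL _ (conj_mem hN aL) ia (ia.conj h)
  have mz : Commute m z := mem_Ce'.1 (H.cL.1.le A.mL)
  have mv : m * v * m⁻¹ = v * (f₂ * l) :=
    calc m * v * m⁻¹ = m * (v * l) * m⁻¹ * (m * l * m⁻¹)⁻¹ := by group
      _ = _ := by rw [← H.vm.eq, mul_inv_cancel_right, A.m1, A.i2.inv_eq, mul_assoc, A.c2.eq]
  refine h1 G T L z y h H.toSt H.up _ aL (fun c => ia.2 (mem_bot.1 (H.ZL.le ⟨aL, c⟩))) (g * (m * g * m⁻¹))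
    (H.cK.1.le (mul_mem H.gK (mul_mem (mul_mem (H.le A.mL) H.gK) (inv_mem (H.le A.mL)))))
    ((c2.mul_right H.gl').mul_left ?_) ?_ x hx ex.symm
  · rw [← A.m2]
    change _ = _
    calc m * g * m⁻¹ * (m * f₂ * m⁻¹) = m * (g * f₂) * m⁻¹ := by group
      _ = _ := by rw [c2.eq]; group
  · calc g * (m * g * m⁻¹) * z * (g * (m * g * m⁻¹))⁻¹ = g * (m * (g * (m⁻¹ * z * m) * g⁻¹) * m⁻¹) * g⁻¹ := by group
      _ = g * (m * z * m⁻¹ * (m * v * m⁻¹)) * g⁻¹ := by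
        rw [mul_assoc m⁻¹, ← mz.eq, inv_mul_cancel_left, H.zv]; group
      _ = g * z * g⁻¹ * (g * (v * (f₂ * l)) * g⁻¹) := by rw [mz.eq, mul_inv_cancel_right, mv]; group
      _ = _ := by
        rw [H.zv, (H.gv.mul_right (c2.mul_right H.gl')).eq, mul_inv_cancel_right, mul_assoc, ← mul_assoc v, H.iv.1,
          one_mul]

end AA3x

open AA3x in
theorem aa3 (h1 : GS.{u}) (h2 : AA2.{u}) : AA3.{u} := by
  intro G _ _ T L K z y g h l f₁ f₂ n m v H
  rcases h2 G T L K z y g h l f₁ f₂ n m v H with e | e | e | e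
  · exact (no1 h1 H e).elim
  · exact (no1 h1 (shift H) (by rw [shift_f H, e, mul_assoc, H.a6.il.1, mul_one])).elim
  · exact ⟨g, H, e⟩
  · refine ⟨g * f₁, shift H, ?_⟩
    rw [shift_f H, e, mul_assoc f₂, (cmv H H.a6.lU).eq, mul_assoc, mul_assoc, H.a6.il.1, mul_one]

end CL.Q49
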