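/-
Project Q49: the cocycle computation in the case `A₆`.
-/
import Cfsg.Agent.Q49.Defs

set_option autoImplicit false

namespace CL.Q49

open Cfsg Subgroup CL.Even CL.Grp CL.Loc CL.Ags CL.Q16
open scoped commutatorElement

universe u

namespace AA4x

variable {G : Type*} [Group G]

theorem cinv {p s t : G} (h : MulAut.conj p s = t) : MulAut.conj p⁻¹ t = s := by
  rw [← h, MulAut.conj_apply, MulAut.conj_apply]; group

theorem cfix {p s : G} (h : Commute p s) : MulAut.conj p s = s := by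
  rw [MulAut.conj_apply, h.eq, mul_inv_cancel_right]

theorem key {x z v l f g m c e : G} (v2 : v * v = 1) (l2 : l * l = 1) (f2 : f * f = 1) (vl : Commute v l)
    (vf : Commute v f) (lf : Commute l f) (gz : g * z * g⁻¹ = z * v) (gv : Commute g v) (gl : Commute g l)
    (gf : g * f * g⁻¹ = f * v) (gx : g * x * g⁻¹ = x * e) (he : e = l ∨ e = l * v) (mz : Commute m z)
    (mx : Commute m x) (ml : m * l * m⁻¹ = f) (mf : m * f * m⁻¹ = f * l) (mv : Commute (v * l) m)
    (cz : Commute c z) (cx : Commute c x) (cv : Commute c v) (cl : Commute c l) {r : G}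
    (hr : r = m⁻¹ * c * m * g * m * g * m⁻¹ * g⁻¹) : r * z * r⁻¹ = z ∧ r * x * r⁻¹ = x * (l * v) := by
  have A : ∀ t, r * t * r⁻¹ = MulAut.conj m⁻¹ (MulAut.conj c (MulAut.conj m (MulAut.conj g (MulAut.conj m
      (MulAut.conj g (MulAut.conj m⁻¹ (MulAut.conj g⁻¹ t))))))) := fun t => by
    simp only [MulAut.conj_apply, hr]; group
  rw [← MulAut.conj_apply] at gz gf gx ml mf
  have v3 : ∀ t, v * (v * t) = t := fun t => by rw [← mul_assoc, v2, one_mul]
  have l3 : ∀ t, l * (l * t) = t := fun t => by rw [← mul_assoc, l2, one_mul]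
  have f3 : ∀ t, f * (f * t) = t := fun t => by rw [← mul_assoc, f2, one_mul]
  have gv' := cfix gv
  have gl' := cfix gl
  have mvl := cfix mv.symm
  have mv' : MulAut.conj m v = v * l * f := by
    rw [← mvl, map_mul, ml, mul_assoc, f2, mul_one]
  have iz : MulAut.conj g⁻¹ z = z * v := cinv (by rw [map_mul, gz, gv', mul_assoc, v2, mul_one])
  have ix : MulAut.conj g⁻¹ x = x * e := cinv (by
    rcases he with rfl | rfl <;>
      simp only [map_mul, gx, gv', gl', mul_assoc, vl.eq, vl.left_comm, v2, l2, v3, l3, mul_one])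
  have jf := cinv ml
  have jl : MulAut.conj m⁻¹ l = l * f := cinv (by rw [map_mul, ml, mf, f3])
  have jv : MulAut.conj m⁻¹ v = v * f := cinv (by
    rw [map_mul, mv', mf]; simp only [mul_assoc, f3, l2, mul_one])
  have a1 := cfix mz
  have a2 := cfix mx
  have a3 := cinv a1
  have a4 := cinv a2
  have a5 := cfix cz
  have a6 := cfix cx
  have a7 := cfix cv
  have a8 := cfix cl
  have b : ∀ t, MulAut.conj m t = t → MulAut.conj c t = t →
      MulAut.conj m⁻¹ (MulAut.conj c (MulAut.conj m t)) = t := fun t h1 h2 => by rw [h1, h2, cinv h1]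
  have b1 := b z a1 a5
  have b2 := b (x * (l * v)) (by rw [map_mul, a2, ← vl.eq, mvl]) (by rw [map_mul, map_mul, a6, a7, a8])
  rw [A, A, iz, ix]
  refine ⟨(congrArg _ (congrArg _ (congrArg _ ?_))).trans b1, (congrArg _ (congrArg _ (congrArg _ ?_))).trans b2⟩
  · simp only [map_mul, a3, jv, gz, gv', gl', gf, a1, mv', mf, ml, mul_assoc, vl.eq, vl.left_comm, vf.eq,
      vf.left_comm, lf.eq, lf.left_comm, v2, l2, f2, v3, l3, f3, mul_one]
  · rcases he with rfl | rfl <;>
      simp only [map_mul, a4, jv, jl, gx, gv', gl', gf, a2, mv', mf, ml, mul_assoc, vl.eq, vl.left_comm, vf.eq,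
        vf.left_comm, lf.eq, lf.left_comm, v2, l2, f2, v3, l3, f3, mul_one]

end AA4x

theorem aa4 : AA4.{u} := by
  intro G _ _ T L K z y g h l f₁ f₂ n m v H x hx hxL
  have a := H.a6
  have Ky : K ≤ Ce y := H.cK.le
  have UD : ∀ s ∈ T ⊓ L, s ∈ T ⊓ Ce y := fun s hs => ⟨hs.1, Ky (H.le hs.2)⟩
  have vD : ∀ s ∈ T ⊓ Ce y, Commute v s := fun s hs => (comm_of_mem H.vD hs).symm
  have xL : ∀ s ∈ L, Commute x s := fun s hs => (comm_of_mem hxL hs).symm
  have Lz : ∀ s ∈ L, Commute s z := fun s hs => (mem_centralizer_singleton_iff.1 (H.cL.le hs))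
  have xv : Commute x v := (vD x hx).symm
  have c1 : ∀ t ∈ T ⊓ Ce y, t ∈ K → Commute x t := fun t ht hK => by
    obtain ⟨s, hs, rfl | rfl⟩ := H.dU t ht hK
    exacts [xL _ hs.2, (xL _ hs.2).mul_right xv]
  have c2 : ∀ s ∈ T ⊓ L, Commute (x⁻¹ * (g * x * g⁻¹)) s := fun s hs => by
    refine (xL s hs.2).inv_left.mul_left ?_
    have := (c1 _ (conj_mem' H.gN (UD s hs)) (conj_mem' (le_normalizer H.gK) (H.le hs.2))).conj g
    rwa [show g * (g⁻¹ * s * g) * g⁻¹ = s by group] at this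
  have nc : ¬ Commute f₁ f₂ := fun e => a.il.2 (by
    have := a.c12
    rw [e.eq, mul_assoc, a.i1.1, mul_one] at this
    exact left_eq_mul.1 this)
  have cU : ∀ s ∈ T ⊓ L, Commute s f₁ → Commute s f₂ → s = 1 ∨ s = l := fun s hs h1 h2 => by
    have q : ∀ p q r : G, Commute (p * q) r → Commute q r → Commute p r := fun p q r e e' => by
      simpa using e.mul_left e'.inv_left
    have q' : ∀ p q r : G, Commute (p * q) r → Commute p r → Commute q r := fun p q r e e' => by
      simpa using e'.inv_left.mul_left e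
    rcases a.el s hs with e | e | rfl | rfl | rfl | rfl | rfl | rfl
    exacts [.inl e, .inr e, absurd h2 nc, absurd (q _ _ _ h2 a.c2) nc, absurd h1.symm nc,
      absurd (q _ _ _ h1 a.c1).symm nc, absurd (q _ _ _ h2 (Commute.refl _)) nc,
      absurd (q' _ _ _ h2 (Commute.refl _)) nc]
  have bad : ∀ e, g * x * g⁻¹ = x * e → (e = l ∨ e = l * v) → False := fun e e1 e2 => by
    have vl := vD l (UD l a.lU)
    obtain ⟨k1, k2⟩ := AA4x.key H.iv.1 a.il.1 a.i2.1 vl (vD _ (UD _ a.f2U)) a.c2 H.zv H.gv H.gl' H.gf e1 e2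
      (Lz m a.mL) (xL m a.mL).symm a.m1 a.m2 H.vm (Lz _ a.f1U.2) (xL _ a.f1U.2).symm (vD _ (UD _ a.f1U)).symm
      a.c1.symm rfl
    have hN := H.nrm z 1 H.iz (by rw [cj_one]; exact H.zc) L H.cL
      (mem_centralizer_singleton_iff.2 (mul_inv_eq_iff_eq_mul.1 k1))
    have hw := mul_mem (inv_mem hxL) (conj_mem (norm_le_norm_cent L hN) hxL)
    rw [k2, inv_mul_cancel_left] at hw
    have := H.nx (l * v) (mul_mem (H.le a.lU.2) H.vK) hw
      ((Lz l a.lU.2).mul_left (mem_centralizer_singleton_iff.1 (H.zc H.vT)))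
      (by rw [mul_assoc, vl.left_comm, H.iv.1, mul_one, a.il.1])
    exact H.vL (eq_inv_of_mul_eq_one_right this ▸ inv_mem a.lU.2)
  have e0 : g * x * g⁻¹ = x * (x⁻¹ * (g * x * g⁻¹)) := (mul_inv_cancel_left _ _).symm
  refine ⟨xv, ?_⟩
  obtain ⟨s, hs, e | e⟩ := H.dU (x⁻¹ * (g * x * g⁻¹)) (mul_mem (inv_mem hx) (conj_mem H.gN hx)) (by
    rw [← mul_assoc, ← mul_assoc]; exact mul_mem (conj_mem' (H.DK hx) H.gK) (inv_mem H.gK))
  · rw [e] at c2 e0
    rcases cU s hs (c2 _ a.f1U) (c2 _ a.f2U) with rfl | rfl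
    · exact .inl (by rw [e0, mul_one])
    · exact (bad _ e0 (.inl rfl)).elim
  · rw [e] at c2 e0
    have q : ∀ t ∈ T ⊓ L, Commute s t := fun t ht => by
      simpa using (c2 t ht).mul_left (vD t (UD t ht)).inv_left
    rcases cU s hs (q _ a.f1U) (q _ a.f2U) with rfl | rfl
    · exact .inr (by rw [e0, one_mul])
    · exact (bad _ e0 (.inr rfl)).elim

end CL.Q49
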