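/-
Project Q49: the case `A₆`, the centraliser of `L` in `D` is a four-group.
-/
import Cfsg.Agent.Q49.Defs
import Cfsg.Agent.Q16.Core0

set_option autoImplicit false

namespace CL.Q49

open Cfsg Subgroup CL.Even CL.Grp CL.Loc CL.Ags CL.Q16 CL.Q16.Core0

universe u

theorem aa5 (h4 : AA4.{u}) : AA5.{u} := by
  intro G _ _ T L K z y g h l f₁ f₂ n m v e
  have k4 := h4 G T L K z y g h l f₁ f₂ n m v e
  have TL : T ≤ 𝒩(L) := e.zc.trans (e.nrm z 1 e.iz (by rw [cj_one]; exact e.zc) L e.cL)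
  have zL : z ∈ 𝒞(L) := mc_iff.2 fun a ha => (mem_Ce.1 (e.cL.le ha)).symm
  have zt : ∀ t ∈ T, Commute t z := fun t ht => mem_Ce.1 (e.zc ht)
  have zD : z ∈ T ⊓ Ce y := ⟨e.zT, mem_Ce.2 (zt y e.yT).symm⟩
  have yz : y ≠ z := fun k => e.bad (k ▸ e.cL)
  have b0 : ∀ w, IsCompIn L (Ce w) → Commute g w → False := by
    intro w hw c
    have hw' : IsCompIn (cj g L) (Ce w) := hw.conj_smul_of_mem_normalizer (norm_Ce c)
    rcases hw'.eq_or_commutator_eq_bot hw with k | k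
    · have := conj_mem (norm_cent (cj_eq_iff_mem.1 k)) zL
      rw [e.zv] at this
      exact e.vC (by simpa using mul_mem (inv_mem zL) this)
    · have l1 : l ∈ L := e.a6.UL e.a6.lU
      have l2 := conj_mem_cj g l1
      rw [e.gl'.eq, mul_inv_cancel_right] at l2
      have : l ∈ L ⊓ 𝒞(L) := ⟨l1, le_cent_iff.2 k l2⟩
      rw [e.ZL] at this
      exact e.a6.il.2 this
  set D := T ⊓ Ce y with hD
  set A := D ⊓ 𝒞(L) with hA
  set C := A ⊓ Ce g with hC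
  have zA : z ∈ A := ⟨zD, zL⟩
  have alt : ∀ x ∈ A, x ∈ C ∨ x * z ∈ C := fun x hx => by
    refine (k4 x hx.1 hx.2).2.imp (fun k => ⟨hx, mem_Ce.2 (mul_inv_eq_iff_eq_mul.1 k).symm⟩) fun k =>
      ⟨mul_mem hx zA, mem_Ce.2 (mul_inv_eq_iff_eq_mul.1 ?_).symm⟩
    rw [← conj_mul, k, e.zv, mul_assoc, ← mul_assoc v, (cm_of e.vD zD).eq, mul_assoc z, e.iv.1, mul_one]
  have yC : y ∈ C := ⟨⟨⟨e.yT, mem_Ce.2 rfl⟩, e.yL⟩, mem_Ce.2 (mem_Ce.1 (e.cK.le e.gK)).symm⟩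
  have nC : D ≤ 𝒩(C) := by
    refine le_norm_of_cj_le fun d hd => ?_
    rintro _ ⟨x, hx, rfl⟩
    change d * x * d⁻¹ ∈ C
    obtain ⟨c, hc, x', hx', k⟩ := e.dec d hd.1 (e.fD d hd)
    have c1 : Commute x' x := (cm_of hx.1.2 hx'.2).symm
    have c2 : Commute v x := cm_of e.vD hx.1.1
    have c3 : x' ∈ Ce y := mem_Ce.2 (cm_of e.yL hx'.2).symm
    obtain ⟨r, r1, r2, rfl⟩ : ∃ r, Commute r x ∧ r ∈ Ce y ∧ d = c * r := by
      rcases k with k | k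
      · exact ⟨x', c1, c3, k⟩
      · exact ⟨x' * v, c1.mul_left c2, mul_mem c3 (e.cK.le e.vK), by rw [k, mul_assoc]⟩
    have cA : c ∈ A := ⟨⟨hc.1, by simpa using (Ce y).mul_mem hd.2 ((Ce y).inv_mem r2)⟩, hc.2⟩
    rw [show c * r * x * (c * r)⁻¹ = c * (r * x * r⁻¹) * c⁻¹ by group, r1.eq, mul_inv_cancel_right]
    rcases alt c cA with k | k
    · exact mul_mem (mul_mem k hx) (inv_mem k)
    · have := mul_mem (mul_mem k hx) (inv_mem k)
      rwa [show c * z * x * (c * z)⁻¹ = c * (z * x * z⁻¹) * c⁻¹ by group, ← (zt x hx.1.1.1).eq,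
        mul_inv_cancel_right] at this
  have nA : h ∈ 𝒩(A) := by
    rw [← cj_eq_iff_mem, hA, cj_inf, cj_eq e.up.hN, cj_eq (norm_cent (TL e.up.hT))]
  have bot : C ⊓ cj h C = ⊥ := by
    by_contra ne
    have PT : D ⊔ zpowers h ≤ T := sup_le inf_le_left (zpowers_le.2 e.up.hT)
    have P2 : IsPGroup 2 (D ⊔ zpowers h : Subgroup G) := e.syl.2.1.to_le PT
    have nP : D ⊔ zpowers h ≤ 𝒩(C ⊓ cj h C) := by
      refine sup_le (fun d hd => ?_) (zpowers_le.2 ?_)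
      · have := mem_norm_conj h (nC (conj_mem' e.up.hN hd))
        rw [show h * (h⁻¹ * d * h) * h⁻¹ = d by group] at this
        rw [← cj_eq_iff_mem, cj_inf, cj_eq (nC hd), cj_eq this]
      · rw [← cj_eq_iff_mem, cj_inf, ← cj_mul, cj_eq (nC ⟨mul_mem e.up.hT e.up.hT, e.up.h2⟩), inf_comm]
    obtain ⟨y0, y1, y2⟩ := exists_inv_of_isP (e.syl.2.1.to_le fun x (hx : x ∈ C ⊓ cj h C) => hx.1.1.1.1) ne
    obtain ⟨w, w1, w2, w3⟩ := exists_inv_cent P2 nP y1 y2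
    refine b0 w (e.good w w2 w1.1.1.2 _ P2 (le_inf (PT.trans TL) fun a ha => mem_Ce.2 (cm_of w3 ha).symm) ?_)
      (mem_Ce.1 w1.1.2).symm
    exact Grp.card_lt_card_of_lt (lt_of_le_of_ne le_sup_left fun k =>
      e.up.hD ((k.ge (mem_sup_right (mem_zpowers h))).2))
  have hz : h⁻¹ * z * h = z := by rw [mul_assoc, ← (zt h e.up.hT).eq, inv_mul_cancel_left]
  have alt' : ∀ x ∈ C, x ≠ 1 → x * z ∈ cj h C := fun x hx x1 => by
    rcases alt _ (conj_mem' nA hx.1) with k | k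
    · exact absurd (mem_bot.1 (bot ▸ (⟨hx, mem_cj.2 k⟩ : x ∈ C ⊓ cj h C))) x1
    · rw [mem_cj, show h⁻¹ * (x * z) * h = h⁻¹ * x * h * (h⁻¹ * z * h) by group, hz]
      exact k
  have two : ∀ x ∈ C, x = 1 ∨ x = y := fun x hx => by
    refine or_iff_not_imp_left.2 fun x1 => mul_inv_eq_one.1 (mem_bot.1 (bot ▸ (⟨C.mul_mem hx (C.inv_mem yC), ?_⟩ :
      x * y⁻¹ ∈ C ⊓ cj h C)))
    have := mul_mem (alt' x hx x1) (inv_mem (alt' y yC e.iy.2))
    rwa [show x * z * (y * z)⁻¹ = x * y⁻¹ by group] at this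
  have four : ∀ x ∈ D, x ∈ 𝒞(L) → x = 1 ∨ x = y ∨ x = z ∨ x = y * z := fun x h1 h2 => by
    rcases alt x ⟨h1, h2⟩ with k | k
    · rcases two x k with k | k <;> simp [k]
    · rcases two _ k with k | k
      · rw [mul_eq_one_iff_eq_inv, e.iz.inv_eq] at k
        simp [k]
      · rw [← eq_mul_inv_iff_mul_eq, e.iz.inv_eq] at k
        simp [k]
  refine ⟨four, ?_⟩
  have := conj_mem nA yC.1
  rcases four _ this.1 this.2 with k | k | k | k
  · exact absurd k (e.iy.conj h).2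
  · exact absurd (mem_Ce.2 (mul_inv_eq_iff_eq_mul.1 k)) e.up.hD
  · exact absurd (by rw [← hz, ← k]; group) yz
  · exact k

end CL.Q49
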