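/-
Project Q49, the case `A₆`: the normaliser of the elementary abelian group `⟨y, z, v, l, f₂⟩` is large (job Q49-AA6).
-/
import Cfsg.Agent.Q49.Defs

set_option autoImplicit false
set_option linter.unusedSectionVars false
set_option linter.unusedSimpArgs false

namespace CL.Q49

open Cfsg Subgroup CL.Even CL.Grp CL.Loc CL.Ags CL.Q16

universe u

namespace AA6x

variable {G : Type u} [Group G]

theorem mCe {x y : G} : y ∈ Ce x ↔ Commute y x := mem_centralizer_singleton_iff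

theorem cf {x a : G} (h : Commute x a) : x * a * x⁻¹ = a := by rw [h.eq, mul_inv_cancel_right]

theorem cm {x a : G} (h : x * a * x⁻¹ = a) : Commute x a := mul_inv_eq_iff_eq_mul.1 h

theorem cj2 (x a b : G) : x * (a * b) * x⁻¹ = (x * a * x⁻¹) * (x * b * x⁻¹) := by group

theorem back {x a b : G} (h : x * a * x⁻¹ = b) : x⁻¹ * b * x⁻¹⁻¹ = a := by rw [← h]; group

/-- the stabiliser of `l` and of the coset `{f, f l}` -/
def S2 (l f : G) (hl : l * l = 1) : Subgroup G where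
  carrier := {t | Commute t l ∧ (t * f * t⁻¹ = f ∨ t * f * t⁻¹ = f * l)}
  one_mem' := ⟨Commute.one_left l, Or.inl (by group)⟩
  mul_mem' := by
    rintro a b ⟨a1, a2⟩ ⟨b1, b2⟩
    refine ⟨a1.mul_left b1, ?_⟩
    have e : a * b * f * (a * b)⁻¹ = a * (b * f * b⁻¹) * a⁻¹ := by group
    rw [e]
    rcases b2 with b2 | b2 <;> rw [b2]
    · exact a2
    · rw [cj2, cf a1]
      rcases a2 with a2 | a2 <;> rw [a2]
      · exact Or.inr rfl
      · exact Or.inl (by rw [mul_assoc, hl, mul_one])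
  inv_mem' := by
    rintro a ⟨a1, a2⟩
    refine ⟨a1.inv_left, ?_⟩
    rcases a2 with a2 | a2
    · exact Or.inl (back a2)
    · right
      apply back
      rw [cj2, cf a1, a2, mul_assoc, hl, mul_one]

theorem mem_S2 {l f t : G} {hl : l * l = 1} :
    t ∈ S2 l f hl ↔ Commute t l ∧ (t * f * t⁻¹ = f ∨ t * f * t⁻¹ = f * l) := Iff.rfl

theorem card_le_two [Finite G] {T T0 : Subgroup G} {u : G} (h : ∀ t ∈ T, t ∈ T0 ∨ u * t ∈ T0) :
    Nat.card T ≤ 2 * Nat.card T0 := by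
  have h1 : (T : Set G) ⊆ (T0 : Set G) ∪ (fun x => u⁻¹ * x) '' (T0 : Set G) := fun t ht =>
    (h t ht).imp id fun a => ⟨u * t, a, by simp⟩
  have h2 := (Set.ncard_le_ncard h1).trans (Set.ncard_union_le _ _)
  have h3 := Set.ncard_image_le (f := fun x => u⁻¹ * x) (s := (T0 : Set G))
  change (T : Set G).ncard ≤ 2 * (T0 : Set G).ncard
  omega

/-- orbit-stabiliser for conjugation -/
theorem orb (H : Subgroup G) (z : G) :
    Nat.card (Ce z ⊓ H : Subgroup G) * {w | ∃ x ∈ H, x * z * x⁻¹ = w}.ncard = Nat.card H := by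
  let inst : MulAction H G := MulAction.compHom G ((MulAut.conj (G := G)).comp H.subtype)
  have h1 := @MulAction.index_stabilizer H G _ inst z
  have h2 : @MulAction.stabilizer H G _ inst z = (Ce z).subgroupOf H := by
    ext x
    rw [mem_subgroupOf, mCe]
    exact ⟨fun h => cm h, fun h => cf h⟩
  have h3 : @MulAction.orbit H G inst.toSMul z = {w | ∃ x ∈ H, x * z * x⁻¹ = w} := by
    ext w
    exact ⟨fun ⟨x, hx⟩ => ⟨x, x.2, hx⟩, fun ⟨x, hx, e⟩ => ⟨⟨x, hx⟩, e⟩⟩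
  rw [h2, h3] at h1
  rw [← h1, ← ((Ce z).subgroupOf H).card_mul_index, ← inf_subgroupOf_right,
    Nat.card_congr (subgroupOfEquivOfLe (inf_le_right : Ce z ⊓ H ≤ H)).toEquiv]

theorem main [Finite G] {D : Subgroup G} {y z v l f g m : G} (zz : z * z = 1) (vv : v * v = 1) (ll : l * l = 1)
    (ff : f * f = 1) (zv : Commute z v) (zl : Commute z l) (zf : Commute z f) (vl : Commute v l) (vf : Commute v f)
    (lf : Commute l f) (n1 : v ≠ 1) (n2 : v * l * f ≠ 1) (n3 : v * f ≠ 1) (n4 : l * f ≠ 1) (n5 : f ≠ 1) (n6 : l ≠ 1)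
    (gy : Commute g y) (g1 : g * z * g⁻¹ = z * v) (g2 : Commute g v) (g3 : Commute g l) (g4 : g * f * g⁻¹ = f * v)
    (my : Commute m y) (m1 : Commute m z) (m2 : Commute m (v * l)) (m3 : m * l * m⁻¹ = f) (m4 : m * f * m⁻¹ = f * l)
    (dy : ∀ d ∈ D, Commute d y) (d1 : ∀ d ∈ D, Commute d z) (d2 : ∀ d ∈ D, Commute d v) (d3 : D ≤ S2 l f ll) :
    4 * Nat.card D ∣ Nat.card 𝒩(closure ({y, z, v, l, f} : Set G)) ∧ D ≤ 𝒩(closure ({y, z, v, l, f} : Set G)) := by
  have r1 : ∀ t, v * (z * t) = z * (v * t) := fun t => by rw [← mul_assoc, ← zv.eq, mul_assoc]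
  have r2 : ∀ t, l * (z * t) = z * (l * t) := fun t => by rw [← mul_assoc, ← zl.eq, mul_assoc]
  have r3 : ∀ t, f * (z * t) = z * (f * t) := fun t => by rw [← mul_assoc, ← zf.eq, mul_assoc]
  have r4 : ∀ t, l * (v * t) = v * (l * t) := fun t => by rw [← mul_assoc, ← vl.eq, mul_assoc]
  have r5 : ∀ t, f * (v * t) = v * (f * t) := fun t => by rw [← mul_assoc, ← vf.eq, mul_assoc]
  have r6 : ∀ t, f * (l * t) = l * (f * t) := fun t => by rw [← mul_assoc, ← lf.eq, mul_assoc]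
  have s1 : ∀ t, z * (z * t) = t := fun t => by rw [← mul_assoc, zz, one_mul]
  have s2 : ∀ t, v * (v * t) = t := fun t => by rw [← mul_assoc, vv, one_mul]
  have s3 : ∀ t, l * (l * t) = t := fun t => by rw [← mul_assoc, ll, one_mul]
  have s4 : ∀ t, f * (f * t) = t := fun t => by rw [← mul_assoc, ff, one_mul]
  have q1 := zv.eq.symm
  have q2 := zl.eq.symm
  have q3 := zf.eq.symm
  have q4 := vl.eq.symm
  have q5 := vf.eq.symm
  have q6 := lf.eq.symm
  have m2' : m * v * m⁻¹ = v * l * f := by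
    have : v = v * l * l := by rw [mul_assoc, ll, mul_one]
    rw [this, cj2, cf m2, m3, ← this]
  set X : Set G := {z, z * v, z * v * l * f, z * v * f} with hX
  have xf : X.Finite := Set.toFinite _
  have key : ∀ x : G, x * z * x⁻¹ ∈ X → x * (z * v) * x⁻¹ ∈ X → x * (z * v * l * f) * x⁻¹ ∈ X →
      x * (z * v * f) * x⁻¹ ∈ X → x ∈ normalizer X := by
    intro x a b c d
    refine mem_normalizer_fintype fun n hn => ?_
    rcases hn with rfl | rfl | rfl | rfl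
    exacts [a, b, c, d]
  have e1 : z ∈ X := Or.inl rfl
  have e2 : z * v ∈ X := Or.inr (Or.inl rfl)
  have e3 : z * v * l * f ∈ X := Or.inr (Or.inr (Or.inl rfl))
  have e4 : z * v * f ∈ X := Or.inr (Or.inr (Or.inr rfl))
  have a2 : m * (z * v) * m⁻¹ = z * v * l * f := by
    rw [cj2, cf m1, m2']; simp only [mul_assoc]
  have a3 : m * (z * v * l * f) * m⁻¹ = z * v * f := by
    simp only [cj2, cf m1, m2', m3, m4]
    simp only [mul_assoc, r1, r2, r3, r4, r5, r6, s1, s2, s3, s4, q1, q2, q3, q4, q5, q6, zz, vv, ll, ff, mul_one]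
  have a4 : m * (z * v * f) * m⁻¹ = z * v := by
    simp only [cj2, cf m1, m2', m3, m4]
    simp only [mul_assoc, r1, r2, r3, r4, r5, r6, s1, s2, s3, s4, q1, q2, q3, q4, q5, q6, zz, vv, ll, ff, mul_one]
  have mX : m ∈ normalizer X := key m (by rw [cf m1]; exact e1) (by rw [a2]; exact e3) (by rw [a3]; exact e4)
    (by rw [a4]; exact e2)
  have b2 : g * (z * v) * g⁻¹ = z := by rw [cj2, g1, cf g2, mul_assoc, vv, mul_one]
  have b3 : g * (z * v * l * f) * g⁻¹ = z * v * l * f := by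
    simp only [cj2, g1, cf g2, cf g3, g4]
    simp only [mul_assoc, r1, r2, r3, r4, r5, r6, s1, s2, s3, s4, q1, q2, q3, q4, q5, q6, zz, vv, ll, ff, mul_one]
  have b4 : g * (z * v * f) * g⁻¹ = z * v * f := by
    simp only [cj2, g1, cf g2, cf g3, g4]
    simp only [mul_assoc, r1, r2, r3, r4, r5, r6, s1, s2, s3, s4, q1, q2, q3, q4, q5, q6, zz, vv, ll, ff, mul_one]
  have gX : g ∈ normalizer X := key g (by rw [g1]; exact e2) (by rw [b2]; exact e1) (by rw [b3]; exact e3)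
    (by rw [b4]; exact e4)
  have dX : ∀ d ∈ D, d ∈ normalizer X := by
    intro d hd
    obtain ⟨c1, c2⟩ := d3 hd
    have c3 : d * (z * v) * d⁻¹ = z * v := cf ((d1 d hd).mul_right (d2 d hd))
    have c4 : z * v * l * (f * l) = z * v * f := by
      simp only [mul_assoc, r1, r2, r3, r4, r5, r6, s1, s2, s3, s4, q1, q2, q3, q4, q5, q6, zz, vv, ll, ff, mul_one]
    have c5 : z * v * (f * l) = z * v * l * f := by
      simp only [mul_assoc, r1, r2, r3, r4, r5, r6, s1, s2, s3, s4, q1, q2, q3, q4, q5, q6, zz, vv, ll, ff, mul_one]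
    refine key d (by rw [cf (d1 d hd)]; exact e1) (by rw [c3]; exact e2) ?_ ?_
    · rw [cj2, cj2 d (z * v), c3, cf c1]
      rcases c2 with c2 | c2 <;> rw [c2]
      · exact e3
      · rw [c4]; exact e4
    · rw [cj2, c3]
      rcases c2 with c2 | c2 <;> rw [c2]
      · exact e4
      · rw [c5]; exact e3
  set N : Subgroup G := Ce y ⊓ normalizer X with hN
  set A : Subgroup G := closure ({y, z, v, l, f} : Set G) with hA
  have yA : y ∈ A := subset_closure (by simp)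
  have zA : z ∈ A := subset_closure (by simp)
  have vA : v ∈ A := subset_closure (by simp)
  have lA : l ∈ A := subset_closure (by simp)
  have fA : f ∈ A := subset_closure (by simp)
  have XA : ∀ e ∈ X, e ∈ A := by
    rintro e (rfl | rfl | rfl | rfl)
    exacts [zA, mul_mem zA vA, mul_mem (mul_mem (mul_mem zA vA) lA) fA, mul_mem (mul_mem zA vA) fA]
  have NA : N ≤ 𝒩(A) := by
    intro x hx
    obtain ⟨x1, x2⟩ := mem_inf.1 hx
    have x3 : ∀ e ∈ X, e ∈ A.comap (MulAut.conj x).toMonoidHom := fun e he =>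
      XA (x * e * x⁻¹) ((mem_set_normalizer_iff.1 x2 e).1 he)
    have x4 : A ≤ A.comap (MulAut.conj x).toMonoidHom := by
      refine (closure_le _).2 ?_
      rintro e (rfl | rfl | rfl | rfl | rfl)
      · change x * e * x⁻¹ ∈ A
        rw [cf (mCe.1 x1)]; exact yA
      · exact x3 _ e1
      · have := mul_mem (x3 _ e1) (x3 _ e2)
        rwa [s1] at this
      · have := mul_mem (x3 _ e3) (x3 _ e4)
        simp only [mul_assoc, r1, r2, r3, r4, r5, r6, s1, s2, s3, s4, q1, q2, q3, q4, q5, q6, zz, vv, ll, ff,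
          mul_one] at this
        exact this
      · have := mul_mem (x3 _ e2) (x3 _ e4)
        simp only [mul_assoc, r1, r2, r3, r4, r5, r6, s1, s2, s3, s4, q1, q2, q3, q4, q5, q6, zz, vv, ll, ff,
          mul_one] at this
        exact this
    exact mem_normalizer_fintype fun n hn => x4 hn
  have DN : D ≤ N := fun d hd => mem_inf.2 ⟨mCe.2 (dy d hd), dX d hd⟩
  refine ⟨?_, DN.trans NA⟩
  have gN : g ∈ N := mem_inf.2 ⟨mCe.2 gy, gX⟩
  have mN : m ∈ N := mem_inf.2 ⟨mCe.2 my, mX⟩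
  have o1 : {w | ∃ x ∈ N, x * z * x⁻¹ = w} = X := by
    ext w
    constructor
    · rintro ⟨x, hx, rfl⟩
      exact (mem_set_normalizer_iff.1 (mem_inf.1 hx).2 z).1 e1
    · have t3 : m * g * z * (m * g)⁻¹ = z * v * l * f := by rw [← a2, ← g1]; group
      have t4 : m * (m * g) * z * (m * (m * g))⁻¹ = z * v * f := by rw [← a3, ← t3]; group
      rintro (rfl | rfl | rfl | rfl)
      · exact ⟨1, one_mem _, by group⟩
      · exact ⟨g, gN, g1⟩
      · exact ⟨m * g, mul_mem mN gN, t3⟩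
      · exact ⟨m * (m * g), mul_mem mN (mul_mem mN gN), t4⟩
  have o2 : X.ncard = 4 := by
    refine Set.ncard_eq_four.2 ⟨z, z * v, z * v * l * f, z * v * f, ?_, ?_, ?_, ?_, ?_, ?_, rfl⟩
    · exact fun e => n1 (by simpa using e)
    · exact fun e => n2 (by simpa [mul_assoc] using e)
    · exact fun e => n3 (by simpa [mul_assoc] using e)
    · exact fun e => n4 (by simpa [mul_assoc] using e)
    · exact fun e => n5 (by simpa using e)
    · exact fun e => n6 (by simpa using e)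
  have o3 := orb N z
  rw [o1, o2] at o3
  have o4 : Nat.card D ∣ Nat.card (Ce z ⊓ N : Subgroup G) :=
    card_dvd_of_le fun d hd => mem_inf.2 ⟨mCe.2 (d1 d hd), DN hd⟩
  refine Dvd.dvd.trans ?_ (card_dvd_of_le NA)
  rw [← o3, mul_comm]
  exact Nat.mul_dvd_mul_right o4 4

end AA6x

open AA6x in
theorem aa6 : AA6.{u} := by
  intro G _ _ T L K z y g h l f₁ f₂ n m v S
  have a := S.a6
  have Lz : ∀ x ∈ L, Commute z x := fun x hx => (mCe.1 (S.cL.1.le hx)).symm
  have UD : T ⊓ L ≤ T ⊓ Ce y := fun x hx => mem_inf.2 ⟨(mem_inf.1 hx).1, mCe.2 (cm_of S.yL (mem_inf.1 hx).2).symm⟩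
  have lL := a.UL a.lU
  have f1L := a.UL a.f1U
  have fL := a.UL a.f2U
  have vl : Commute v l := cm_of S.vD (UD a.lU)
  have vf : Commute v f₂ := cm_of S.vD (UD a.f2U)
  have CS : ∀ c ∈ 𝒞(L), c ∈ S2 l f₂ a.il.1 := fun c hc => ⟨cm_of hc lL, Or.inl (cf (cm_of hc fL))⟩
  have vS : v ∈ S2 l f₂ a.il.1 := ⟨vl, Or.inl (cf vf)⟩
  have lS : l ∈ S2 l f₂ a.il.1 := ⟨Commute.refl l, Or.inl (cf a.c2)⟩
  have f1S : f₁ ∈ S2 l f₂ a.il.1 := ⟨a.c1.symm, Or.inr (by rw [a.i1.inv_eq]; exact a.c12)⟩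
  have f2S : f₂ ∈ S2 l f₂ a.il.1 := ⟨a.c2.symm, Or.inl (cf (Commute.refl f₂))⟩
  have US : ∀ x ∈ T ⊓ L, x ∈ S2 l f₂ a.il.1 := by
    intro x hx
    rcases a.el x hx with rfl | rfl | rfl | rfl | rfl | rfl | rfl | rfl
    exacts [one_mem _, lS, f1S, mul_mem f1S lS, f2S, mul_mem f2S lS, mul_mem f1S f2S, mul_mem f2S f1S]
  refine main S.iz.1 S.iv.1 a.il.1 a.i2.1 (mCe.1 (S.zc S.vT)).symm (Lz l lL) (Lz f₂ fL) vl vf a.c2 S.iv.2
    ?_ ?_ ?_ a.i2.2 a.il.2 (mCe.1 (S.cK.1.le S.gK)) S.zv S.gv S.gl' S.gf (mCe.1 (S.cK.1.le (S.le a.mL)))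
    (Lz m a.mL).symm S.vm.symm a.m1 a.m2 (fun d hd => mCe.1 (mem_inf.1 hd).2)
    (fun d hd => mCe.1 (S.zc (mem_inf.1 hd).1)) (fun d hd => (cm_of S.vD hd).symm) ?_
  · intro e
    rw [mul_assoc] at e
    exact S.vL (by rw [eq_inv_of_mul_eq_one_left e]; exact inv_mem (mul_mem lL fL))
  · intro e
    exact S.vL (by rw [eq_inv_of_mul_eq_one_left e]; exact inv_mem fL)
  · intro e
    have e1 : l = f₂ := by rw [eq_inv_of_mul_eq_one_left e, a.i2.inv_eq]
    have e2 := a.m2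
    rw [← e1, a.il.1] at e2
    exact (a.il.conj m).2 e2
  · intro d hd
    obtain ⟨c, hc, x, hx, e | e⟩ := S.dec d (mem_inf.1 hd).1 (S.fD d hd) <;> rw [e]
    · exact mul_mem (CS c (mem_inf.1 hc).2) (US x hx)
    · exact mul_mem (mul_mem (CS c (mem_inf.1 hc).2) (US x hx)) vS

open AA6x in
theorem aa7 : AA7.{u} := by
  intro G _ _ T L K z y g h l f₁ f₂ n m v S
  by_contra hn
  have a := S.a6
  have ll := a.il.1
  have hT := S.up.hT
  have hl : Commute h l := mCe.1 (S.lT hT)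
  have zN : Ce z ≤ 𝒩(L) := S.nrm z 1 S.iz (by rw [cj_one]; exact S.zc) L S.cL
  set D : Subgroup G := T ⊓ Ce y with hD
  set T0 : Subgroup G := T ⊓ S2 l f₁ ll with hT0
  have mk : ∀ t ∈ T, (t * f₁ * t⁻¹ = f₁ ∨ t * f₁ * t⁻¹ = f₁ * l) → t ∈ T0 := fun t ht e =>
    mem_inf.2 ⟨ht, mem_S2.2 ⟨mCe.1 (S.lT ht), e⟩⟩
  have DT : D ≤ T0 := fun d hd => mk d (mem_inf.1 hd).1 (S.fD d hd)
  have hT0' : h ∉ T0 := fun k => hn (mem_S2.1 (mem_inf.1 k).2).2
  have h2 := (S.fT h hT).resolve_left hn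
  have h3 : ∀ w, (w = f₂ ∨ w = f₂ * l) → h⁻¹ * w * h⁻¹⁻¹ = f₁ ∨ h⁻¹ * w * h⁻¹⁻¹ = f₁ * l := by
    rintro w (rfl | rfl) <;> rcases h2 with e | e
    · exact Or.inl (back e)
    · exact Or.inr (back (by rw [cj2, e, cf hl, mul_assoc, ll, mul_one]))
    · exact Or.inr (back (by rw [cj2, e, cf hl]))
    · exact Or.inl (back e)
  have c1 : Nat.card T ≤ 2 * Nat.card T0 := by
    refine card_le_two (u := h⁻¹) fun t ht => (S.fT t ht).imp (mk t ht) fun e => mk _ (mul_mem (inv_mem hT) ht) ?_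
    rw [show h⁻¹ * t * f₁ * (h⁻¹ * t)⁻¹ = h⁻¹ * (t * f₁ * t⁻¹) * h⁻¹⁻¹ by group]
    exact h3 _ e
  have c2 : D = T0 := by
    by_contra ne
    obtain ⟨x, hx, xD⟩ := SetLike.exists_of_lt
      (lt_inf_normalizer_of_isPGroup (S.syl.isPGroup.to_le (inf_le_left : T0 ≤ T)) (lt_of_le_of_ne DT ne))
    obtain ⟨x0, xN⟩ := mem_inf.1 hx
    have xT : x ∈ T := (mem_inf.1 x0).1
    have yD : y ∈ D := mem_inf.2 ⟨S.yT, mCe.2 (Commute.refl y)⟩
    have y1 : x * y * x⁻¹ ∈ D := (mem_normalizer_iff.1 xN y).1 yD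
    have y2 : x * y * x⁻¹ ∈ 𝒞(L) := (mem_normalizer_iff.1 (norm_cent (zN (S.zc xT))) y).1 S.yL
    rcases S.A0 _ y1 y2 with e | e | e | e
    · exact (S.iy.conj x).2 e
    · exact xD (mem_inf.2 ⟨xT, mCe.2 (cm e)⟩)
    · have e2 := back e
      rw [cf (mCe.1 (S.zc xT)).inv_left] at e2
      exact S.bad (e2 ▸ S.cL)
    · rw [← S.hy] at e
      have e2 : h⁻¹ * x ∈ D := mem_inf.2 ⟨mul_mem (inv_mem hT) xT, mCe.2 (cm (by
        rw [show h⁻¹ * x * y * (h⁻¹ * x)⁻¹ = h⁻¹ * (x * y * x⁻¹) * h by group, e]; group))⟩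
      refine hT0' ?_
      have := mul_mem x0 (inv_mem (DT e2))
      rwa [show x * (h⁻¹ * x)⁻¹ = h by group] at this
  rw [← c2] at c1
  obtain ⟨k, hk⟩ := IsPGroup.iff_card.1 (S.syl.isPGroup.to_le (inf_le_left : D ≤ T))
  have c3 : 2 ^ (k + 2) ∣ Nat.card (⊤ : Subgroup G) := by
    have := S.big.trans (card_dvd_of_le le_top)
    rwa [hk, show 4 * 2 ^ k = 2 ^ (k + 2) by ring] at this
  have c4 := (Nat.Prime.pow_dvd_iff_le_factorization Nat.prime_two Nat.card_pos.ne').1 c3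
  have c5 := Nat.pow_le_pow_right (by norm_num : 0 < 2) c4
  rw [← S.syl.card_eq_pow] at c5
  rw [hk] at c1
  have : 0 < 2 ^ k := by positivity
  rw [pow_add] at c5
  omega

end CL.Q49
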