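/-
Q49 (helper38): the element `k` of `C_T(L)` in the case `A₆`.
-/
import Cfsg.Agent.Q49.Defs

set_option autoImplicit false

namespace CL.Q49

open Cfsg Subgroup CL.Even CL.Grp CL.Loc CL.Ags CL.Q16

universe u

namespace AA8x

theorem mCe {G : Type*} [Group G] {x y : G} : y ∈ Ce x ↔ Commute y x :=
  Subgroup.mem_centralizer_singleton_iff

theorem nrm_conj {G : Type*} [Group G] {H : Subgroup G} {g x : G} (hg : g ∈ 𝒩(H)) (hx : x ∈ H) :
    g * x * g⁻¹ ∈ H := (Subgroup.mem_normalizer_iff.1 hg x).1 hx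

end AA8x

open AA8x in
theorem aa8 : AA8.{u} := by
  intro G _ _ T L K z y g h l f₁ f₂ n m v H hf
  obtain ⟨k, hk, x, hx, hd⟩ := H.dec h H.up.hT hf
  have zz : z * z = 1 := H.iz.1
  have yy : y * y = 1 := H.iy.1
  have z1 : z ≠ 1 := H.iz.2
  have CN : Ce z ≤ 𝒩(L) := H.nrm z 1 H.iz (by rw [cj_one]; exact H.zc) L H.cL
  have cTz : ∀ t ∈ T, Commute t z := fun t ht => mCe.1 (H.zc ht)
  have yz : Commute y z := cTz y H.yT
  have vD : v ∈ T ⊓ Ce y := ⟨H.vT, H.cK.le H.vK⟩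
  have xD : x ∈ T ⊓ Ce y := ⟨hx.1, mCe.2 (cm_of H.yL hx.2).symm⟩
  obtain ⟨d, dD, e⟩ : ∃ d ∈ T ⊓ Ce y, h = k * d := by
    rcases hd with e | e
    · exact ⟨x, xD, e⟩
    · exact ⟨x * v, mul_mem xD vD, by rw [e, mul_assoc]⟩
  have kN : k ∈ 𝒩(T ⊓ Ce y) := by
    have : k = h * d⁻¹ := by rw [e, mul_inv_cancel_right]
    rw [this]
    exact mul_mem H.up.hN (inv_mem (le_normalizer dD))
  have ky : k * y * k⁻¹ = y * z := by
    have dy : d * y * d⁻¹ = y := by rw [(mCe.1 dD.2).eq, mul_inv_cancel_right]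
    rw [← H.hy, e]
    conv_lhs => rw [← dy]
    group
  have kz : k * z * k⁻¹ = z := by rw [(cTz k hk.1).eq, mul_inv_cancel_right]
  have kyz : k * (y * z) * k⁻¹ = y := by
    calc k * (y * z) * k⁻¹ = (k * y * k⁻¹) * (k * z * k⁻¹) := by group
      _ = y := by rw [ky, kz, mul_assoc, zz, mul_one]
  have kkD : k * k ∈ T ⊓ Ce y := by
    refine ⟨mul_mem hk.1 hk.1, mCe.2 ?_⟩
    have : k * k * y * (k * k)⁻¹ = y := by
      calc k * k * y * (k * k)⁻¹ = k * (k * y * k⁻¹) * k⁻¹ := by group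
        _ = y := by rw [ky, kyz]
    exact mul_inv_eq_iff_eq_mul.1 this
  have kkk : k * (k * k) * k⁻¹ = k * k := by group
  have hkk : k * k = 1 ∨ k * k = z := by
    rcases H.A0 _ kkD (mul_mem hk.2 hk.2) with e | e | e | e
    · exact .inl e
    · rw [e, ky] at kkk
      exact absurd (mul_eq_left.1 kkk) z1
    · exact .inr e
    · rw [e, kyz] at kkk
      exact absurd (mul_eq_left.1 kkk.symm) z1
  refine ⟨k, hk.1, hk.2, kN, ky, ?_, hkk⟩
  have vN : v ∈ 𝒩(L) := CN (H.zc H.vT)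
  have wC : v⁻¹ * (k * v * k⁻¹) ∈ 𝒞(L) := by
    have h1 : v⁻¹ * k * v⁻¹⁻¹ ∈ 𝒞(L) := nrm_conj (norm_cent (inv_mem vN)) hk.2
    have : v⁻¹ * (k * v * k⁻¹) = v⁻¹ * k * v⁻¹⁻¹ * k⁻¹ := by group
    rw [this]
    exact mul_mem h1 (inv_mem hk.2)
  have wD : v⁻¹ * (k * v * k⁻¹) ∈ T ⊓ Ce y := mul_mem (inv_mem vD) (nrm_conj kN vD)
  have ckk : Commute v (k * k) := cm_of H.vD kkD
  have key : ∀ w, v⁻¹ * (k * v * k⁻¹) = w → w * (k * w * k⁻¹) = 1 := by
    rintro _ rfl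
    calc v⁻¹ * (k * v * k⁻¹) * (k * (v⁻¹ * (k * v * k⁻¹)) * k⁻¹)
        = v⁻¹ * (k * k * v) * (k * k)⁻¹ := by group
      _ = 1 := by rw [← ckk.eq]; group
  rcases H.A0 _ wD wC with e | e | e | e
  · exfalso
    have kv : k * v * k⁻¹ = v := (inv_mul_eq_one.1 e).symm
    have gy : g⁻¹ * y * g = y := by
      rw [mul_assoc, ← (mCe.1 (H.cK.le H.gK)).eq, inv_mul_cancel_left]
    have gz : g⁻¹ * z * g = z * v := by
      have h2 : g * g * z * (g * g)⁻¹ = z := by rw [(cTz _ H.g2).eq, mul_inv_cancel_right]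
      rw [← H.zv]
      conv_lhs => rw [← h2]
      group
    have k'z : g⁻¹ * k * g ∈ Ce z := by
      have h1 : k * (g * z * g⁻¹) * k⁻¹ = g * z * g⁻¹ := by
        rw [H.zv]
        calc k * (z * v) * k⁻¹ = (k * z * k⁻¹) * (k * v * k⁻¹) := by group
          _ = z * v := by rw [kz, kv]
      refine mCe.2 ?_
      change g⁻¹ * k * g * z = z * (g⁻¹ * k * g)
      calc g⁻¹ * k * g * z = g⁻¹ * (k * (g * z * g⁻¹) * k⁻¹) * k * g := by group
        _ = z * (g⁻¹ * k * g) := by rw [h1]; group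
    have h3 : g⁻¹ * k * g * y * (g⁻¹ * k * g)⁻¹ ∈ 𝒞(L) := nrm_conj (norm_cent (CN k'z)) H.yL
    have h4 : g⁻¹ * k * g * y * (g⁻¹ * k * g)⁻¹ = y * (z * v) := by
      have gy' : g * y * g⁻¹ = y := by rw [(mCe.1 (H.cK.le H.gK)).eq, mul_inv_cancel_right]
      calc g⁻¹ * k * g * y * (g⁻¹ * k * g)⁻¹ = g⁻¹ * (k * (g * y * g⁻¹) * k⁻¹) * g := by group
        _ = (g⁻¹ * y * g) * (g⁻¹ * z * g) := by rw [gy', ky]; group
        _ = y * (z * v) := by rw [gy, gz]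
    rw [h4] at h3
    have zL : z ∈ 𝒞(L) := mc_iff.2 fun a ha => (mCe.1 (H.cL.le ha)).symm
    exact H.vC ((mul_mem_cancel_left zL).1 ((mul_mem_cancel_left H.yL).1 h3))
  · have := key _ e
    rw [ky, ← mul_assoc, yy, one_mul] at this
    exact absurd this z1
  · rw [← e, mul_inv_cancel_left]
  · have := key _ e
    rw [kyz, yz.eq, mul_assoc, yy, mul_one] at this
    exact absurd this z1

end CL.Q49
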