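/-
Project Q49, job AA9 (helper60): the element `k` of `C_T(L)` does not exist.
-/
import Cfsg.Agent.Q49.Defs

set_option autoImplicit false
set_option linter.unusedSectionVars false

namespace CL.Q49

open Cfsg Subgroup CL.Even CL.Grp CL.Loc CL.Ags CL.Q16

universe u

namespace AA9x

variable {G : Type u} [Group G] [Finite G]

theorem mC {x y : G} : y ∈ Ce x ↔ y * x = x * y := mem_centralizer_singleton_iff

theorem card_le_two {T T0 : Subgroup G} {u : G} (h : ∀ t ∈ T, t ∈ T0 ∨ u * t ∈ T0) :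
    Nat.card T ≤ 2 * Nat.card T0 := by
  have h1 : (T : Set G) ⊆ (T0 : Set G) ∪ (fun x => u⁻¹ * x) '' (T0 : Set G) := fun t ht =>
    (h t ht).imp id fun a => ⟨u * t, a, by simp⟩
  have h2 := (Set.ncard_le_ncard h1).trans (Set.ncard_union_le _ _)
  have h3 := Set.ncard_image_le (f := fun x => u⁻¹ * x) (s := (T0 : Set G))
  change (T : Set G).ncard ≤ 2 * (T0 : Set G).ncard
  omega

/-- `D ⟨k⟩` -/
def ext {D : Subgroup G} {k : G} (hn : k ∈ 𝒩(D)) (h2 : k * k ∈ D) : Subgroup G where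
  carrier := {x | x ∈ D ∨ k * x ∈ D}
  one_mem' := .inl D.one_mem
  mul_mem' := by
    rintro a b (ha | ha) (hb | hb)
    · exact .inl (D.mul_mem ha hb)
    · exact .inr (by simpa [mul_assoc] using D.mul_mem (conj_mem hn ha) hb)
    · exact .inr (by simpa [mul_assoc] using D.mul_mem ha hb)
    · exact .inl (by simpa [mul_assoc] using D.mul_mem (D.mul_mem (conj_mem' hn ha) (D.inv_mem h2)) hb)
  inv_mem' := by
    rintro a (ha | ha)
    · exact .inl (D.inv_mem ha)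
    · exact .inr (by simpa [mul_assoc] using D.mul_mem (conj_mem hn (D.inv_mem ha)) h2)

theorem exists_sq {A B : Subgroup G} (hB : IsPGroup 2 B) {p : G} (hp : p ∈ B) (hA : p ∉ A) :
    ∃ q ∈ zpowers p, q ∉ A ∧ q * q ∈ A := by
  obtain ⟨n, hn⟩ := isPGroup_iff_forall.1 hB p hp
  by_contra h
  push Not at h
  have k : ∀ i : ℕ, p ^ 2 ^ i ∉ A := fun i => by
    induction i with
    | zero => simpa using hA
    | succ i ih =>
      rw [pow_succ, pow_mul, pow_two]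
      exact h _ (pow_mem (mem_zpowers p) _) ih
  exact k n (hn ▸ A.one_mem)

end AA9x

open AA9x

theorem aa9 : AA9.{u} := by
  intro G _ _ T L K z y g h l f₁ f₂ n m v H k kT kL kN ky kv kk
  have := Fact.mk Nat.prime_two
  have a := H.a6
  have zC : z ∈ 𝒞(T) := fun t ht => mC.1 (H.zc ht)
  have lC : l ∈ 𝒞(T) := fun t ht => mC.1 (H.lT ht)
  have zL : Ce z ≤ 𝒩(L) := H.nrm z 1 H.iz (by rw [cj_one]; exact H.zc) L H.cL
  have yz : y ≠ z := fun e => H.bad (e ▸ H.cL)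
  have yD : y ∈ T ⊓ Ce y := ⟨H.yT, mC.2 rfl⟩
  have zD : z ∈ T ⊓ Ce y := ⟨H.zT, mC.2 (zC y H.yT).symm⟩
  have vD : v ∈ T ⊓ Ce y := ⟨H.vT, mC.2 (H.vD y yD).symm⟩
  have UD : T ⊓ L ≤ T ⊓ Ce y := fun x hx => ⟨hx.1, mC.2 (H.yL x hx.2)⟩
  have AD : closure ({y, z, v, l, f₂} : Set G) ≤ T ⊓ Ce y := (closure_le _).2 <| by
    rintro x (rfl | rfl | rfl | rfl | rfl)
    exacts [yD, zD, vD, UD a.lU, UD a.f2U]
  have kC : k * k ∈ 𝒞(T) := kk.elim (fun e => e ▸ one_mem _) fun e => e ▸ zC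
  have kD : k * k ∈ T ⊓ Ce y := kk.elim (fun e => e ▸ one_mem _) fun e => e ▸ zD
  have kz : k * z * k⁻¹ = z := mul_inv_eq_iff_eq_mul.2 (zC k kT)
  have hD : IsPGroup 2 T := H.syl.isPGroup
  let D1 := ext kN kD
  have m1 : ∀ {x}, x ∈ D1 ↔ x ∈ T ⊓ Ce y ∨ k * x ∈ T ⊓ Ce y := Iff.rfl
  have le1 : ∀ {X : Subgroup G}, T ⊓ Ce y ≤ X → k ∈ X → D1 ≤ X := fun h1 h2 x hx =>
    (m1.1 hx).elim (fun e => h1 e) fun e => (mul_mem_cancel_left h2).1 (h1 e)
  have DD : T ⊓ Ce y ≤ D1 := fun x hx => m1.2 (.inl hx)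
  have kD1 : k ∈ D1 := m1.2 (.inr kD)
  have D1T : D1 ≤ T := le1 inf_le_left kT
  have kA : k ∈ 𝒩(closure ({y, z, v, l, f₂} : Set G)) := mem_norm_of_cj_le (cj_le_iff.2 ((closure_le _).2 <| by
    have s : ∀ x ∈ ({y, z, v, l, f₂} : Set G), x ∈ closure ({y, z, v, l, f₂} : Set G) := fun x hx => subset_closure hx
    intro x hx
    refine mem_cj.2 ?_
    rw [inv_inv]
    rcases hx with rfl | rfl | rfl | rfl | rfl
    · rw [ky]; exact mul_mem (s _ (by simp)) (s _ (by simp))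
    · rw [kz]; exact s _ (by simp)
    · rw [kv]; exact mul_mem (s _ (by simp)) (s _ (by simp))
    · rw [conj_eq_of_mem kL a.lU.2]; exact s _ (by simp)
    · rw [conj_eq_of_mem kL a.f2U.2]; exact s _ (by simp)))
  obtain ⟨P, hP, DP⟩ := exists_isSylowIn_ge (hD.to_le D1T) (le1 H.DA kA)
  have lt : D1 < P := lt_of_le_of_ne DP fun e => by
    obtain ⟨j, hj⟩ := IsPGroup.iff_card.1 (hD.to_le (inf_le_left : T ⊓ Ce y ≤ T))
    have h1 := H.big
    have h2 := card_le_two (T := D1) fun t ht => m1.1 ht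
    rw [hj, show 4 * 2 ^ j = 2 ^ (j + 2) by ring,
      Nat.prime_two.pow_dvd_iff_le_factorization Nat.card_pos.ne'] at h1
    rw [e, hP.card_eq_pow, hj, ← pow_succ'] at h2
    have := (Nat.pow_le_pow_iff_right one_lt_two).1 h2
    omega
  obtain ⟨p₀, hp₀, hp₁⟩ := SetLike.exists_of_lt (lt_inf_normalizer_of_isPGroup hP.isPGroup lt)
  obtain ⟨p, hp, pD, pp⟩ := exists_sq hP.isPGroup hp₀.1 hp₁
  replace hp : p ∈ P ⊓ 𝒩(D1) := zpowers_le.2 hp₀ hp
  have sqU : ∀ x ∈ T ⊓ L, x * x ∈ 𝒞(T) := fun x hx => by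
    have e1 : ∀ {f : G}, Inv f → Commute l f → f * l * (f * l) = 1 := fun {f} i c => by
      calc f * l * (f * l) = f * (l * f) * l := by group
        _ = (f * f) * (l * l) := by rw [c.eq]; group
        _ = 1 := by rw [i.1, a.il.1, one_mul]
    have e2 : ∀ {f f' : G}, Inv f' → Commute l f' → f * f' * f = f' * l → f * f' * (f * f') = l :=
      fun {f f'} i c e => by rw [← mul_assoc, e, ← c.eq, mul_assoc, i.1, mul_one]
    rcases a.el x hx with rfl | rfl | rfl | rfl | rfl | rfl | rfl | rfl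
    · exact mul_mem (one_mem _) (one_mem _)
    · exact mul_mem lC lC
    · rw [a.i1.1]; exact one_mem _
    · rw [e1 a.i1 a.c1]; exact one_mem _
    · rw [a.i2.1]; exact one_mem _
    · rw [e1 a.i2 a.c2]; exact one_mem _
    · rw [e2 a.i2 a.c2 a.c12]; exact lC
    · rw [e2 a.i1 a.c1 a.c21]; exact lC
  have sqD : ∀ d ∈ T ⊓ Ce y, d * d ∈ 𝒞(T) ∧ ∃ e ∈ 𝒞(T), k * d * k⁻¹ = d * e := fun d hd => by
    obtain ⟨c, hc, x, hx, e⟩ := H.dec d hd.1 (H.fD d hd)
    have cD : c ∈ T ⊓ Ce y := by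
      rcases e with rfl | rfl
      · exact (mul_mem_cancel_right (UD hx)).1 hd
      · exact (mul_mem_cancel_right (UD hx)).1 ((mul_mem_cancel_right vD).1 hd)
    have hc' : c * c = 1 ∧ ∃ e ∈ 𝒞(T), k * c * k⁻¹ = c * e := by
      rcases H.A0 c cD hc.2 with rfl | rfl | rfl | rfl
      · exact ⟨one_mul _, 1, one_mem _, by group⟩
      · exact ⟨H.iy.1, z, zC, ky⟩
      · exact ⟨H.iz.1, 1, one_mem _, by rw [kz, mul_one]⟩
      · refine ⟨?_, z, zC, ?_⟩
        · calc y * z * (y * z) = y * (z * y) * z := by group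
            _ = (y * y) * (z * z) := by rw [← zC y H.yT]; group
            _ = 1 := by rw [H.iy.1, H.iz.1, one_mul]
        · calc k * (y * z) * k⁻¹ = k * y * k⁻¹ * (k * z * k⁻¹) := by group
            _ = _ := by rw [ky, kz]
    obtain ⟨c2, e₁, he₁, kc⟩ := hc'
    have kx : k * x * k⁻¹ = x := conj_eq_of_mem kL hx.2
    have s1 : c * x * (c * x) = x * x := by
      calc c * x * (c * x) = c * (x * c) * x := by group
        _ = (c * c) * (x * x) := by rw [hc.2 x hx.2]; group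
        _ = _ := by rw [c2, one_mul]
    have k1 : k * (c * x) * k⁻¹ = c * x * e₁ := by
      calc k * (c * x) * k⁻¹ = k * c * k⁻¹ * (k * x * k⁻¹) := by group
        _ = _ := by rw [kc, kx, mul_assoc, ← he₁ x hx.1, mul_assoc]
    rcases e with rfl | rfl
    · exact ⟨s1 ▸ sqU x hx, e₁, he₁, k1⟩
    · refine ⟨?_, e₁ * z, mul_mem he₁ zC, ?_⟩
      · have : c * x * v * (c * x * v) = x * x := by
          calc c * x * v * (c * x * v) = c * x * (v * (c * x)) * v := by group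
            _ = c * x * (c * x) * (v * v) := by rw [← H.vD _ (mul_mem cD (UD hx))]; group
            _ = _ := by rw [s1, H.iv.1, mul_one]
        exact this ▸ sqU x hx
      · calc k * (c * x * v) * k⁻¹ = k * (c * x) * k⁻¹ * (k * v * k⁻¹) := by group
          _ = c * x * (e₁ * v) * z := by rw [k1, kv]; group
          _ = _ := by rw [← he₁ v H.vT]; group
  have sq1 : ∀ x ∈ D1, x * x ∈ 𝒞(T) := fun x hx => by
    rcases m1.1 hx with hx | hx
    · exact (sqD x hx).1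
    · obtain ⟨h1, e, he, h2⟩ := sqD _ hx
      have : x * x = (k * k)⁻¹ * (k * x * (k * x) * e) := by
        rw [mul_assoc (k * x), he _ hx.1, ← mul_assoc (k * x), ← h2]; group
      rw [this]
      exact mul_mem (inv_mem kC) (mul_mem h1 he)
  have zsq : ∃ s ∈ D1, s * s = z := by
    rcases kk with e | e
    · refine ⟨k * y, mul_mem kD1 (DD yD), ?_⟩
      calc k * y * (k * y) = k * y * k⁻¹ * (k * k) * y := by group
        _ = z := by rw [ky, e, mul_one, zC y H.yT, mul_assoc, H.iy.1, mul_one]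
    · exact ⟨k, kD1, e⟩
  obtain ⟨s, hs, sz⟩ := zsq
  have wC : p * z * p⁻¹ ∈ 𝒞(T) := by
    have := sq1 _ (conj_mem hp.2 hs)
    rwa [show p * s * p⁻¹ * (p * s * p⁻¹) = p * (s * s) * p⁻¹ by group, sz] at this
  by_cases wz : p * z * p⁻¹ = z
  · have pL : p ∈ 𝒩(L) := zL (mC.2 (mul_inv_eq_iff_eq_mul.1 wz))
    have key : ∀ q ∈ P, q ∈ 𝒩(L) → q * y * q⁻¹ = y → q ∈ D1 := fun q h1 h2 h3 =>
      DD ((H.sD.eq_of_le (hP.isPGroup.to_le (inf_le_left : P ⊓ (𝒩(L) ⊓ Ce y) ≤ P)) (le_inf (DD.trans DP) H.sD.le)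
        inf_le_right).le ⟨h1, h2, mC.2 (mul_inv_eq_iff_eq_mul.1 h3)⟩)
    rcases H.A0 _ (AD (conj_mem (hP.le hp.1) (subset_closure (by simp : y ∈ ({y, z, v, l, f₂} : Set G)))))
      (conj_mem (norm_cent pL) H.yL) with e | e | e | e
    · exact H.iy.2 (by simpa using e)
    · exact pD (key p hp.1 pL e)
    · exact yz (by simpa using e.trans wz.symm)
    · refine pD ((mul_mem_cancel_left (inv_mem kD1)).1 (key _ (mul_mem (inv_mem (DP kD1)) hp.1)
        (mul_mem (inv_mem (zL (H.zc kT))) pL) ?_))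
      calc k⁻¹ * p * y * (k⁻¹ * p)⁻¹ = k⁻¹ * (p * y * p⁻¹) * k := by group
        _ = y := by rw [e, ← ky]; group
  · have TC : T ≤ Ce z ⊓ Ce (p * z * p⁻¹) := fun t ht => ⟨H.zc ht, mC.2 (wC t ht)⟩
    have p2 : p * p * z = z * (p * p) := zC _ (D1T pp)
    have pN : p ∈ 𝒩(Ce z ⊓ Ce (p * z * p⁻¹)) := mem_norm_of_cj_le <| by
      rintro _ ⟨x, hx, rfl⟩
      have h1 := mC.1 hx.1
      have h2 := mC.1 hx.2
      refine ⟨mC.2 ?_, mC.2 ?_⟩
      · show p * x * p⁻¹ * z = z * (p * x * p⁻¹)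
        calc p * x * p⁻¹ * z = p * x * p⁻¹ * (z * (p * p)) * (p * p)⁻¹ := by group
          _ = p * (x * (p * z * p⁻¹)) * p⁻¹ := by rw [← p2]; group
          _ = (p * p * z) * p⁻¹ * x * p⁻¹ := by rw [h2]; group
          _ = _ := by rw [p2]; group
      · show p * x * p⁻¹ * (p * z * p⁻¹) = p * z * p⁻¹ * (p * x * p⁻¹)
        calc _ = p * (x * z) * p⁻¹ := by group
          _ = _ := by rw [h1]; group
    obtain ⟨x, hx, e⟩ := syl_conj_le (H.syl.of_le (TC.trans le_normalizer) le_top)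
      (hP.isPGroup.to_le (zpowers_le.2 hp.1)) (zpowers_le.2 pN)
    have := conj_mem' hx (TC (e (conj_mem_cj x (mem_zpowers p))))
    rw [show x⁻¹ * (x * p * x⁻¹) * x = p by group] at this
    exact wz (mul_inv_eq_iff_eq_mul.2 (mC.1 this.1))

end CL.Q49
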