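/-
Project Q49, tables for `L₃(4)`, `G₂(4)`, `M₂₂` and their covers: the facts about the three simple groups.
-/
import Cfsg.Agent.Q16.Defs

set_option autoImplicit false

namespace CL.Q49c

open Cfsg Subgroup CL.Even CL.Grp CL.Q16

universe u

/-- the fixed points of an involutory automorphism have no normal nonabelian simple subgroup -/
def NoJ (X : Type*) [Group X] : Prop := ∀ α : MulAut X, α * α = 1 → α ≠ 1 → ∀ J : Subgroup X, IsSimpleGroup J →
  ¬ IsMulCommutative J → J ≤ fixA α → fixA α ≤ 𝒩(J) → False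

def NoM22 : Prop := NoJ ↥Spor.M22

/-- `L₃(4)`: involution centralisers are 2-groups -/
def L34Cit : Prop := ∀ (F : Type) [Field F] [Fintype F], Fintype.card F = 4 →
  ∀ t : Matrix.ProjectiveSpecialLinearGroup (Fin 3) F, orderOf t = 2 →
    IsPGroup 2 (centralizer ({t} : Set (Matrix.ProjectiveSpecialLinearGroup (Fin 3) F)))

/-- `L₃(4)`: an outer involutory automorphism has fewer than sixteen fixed points in a 2-group -/
def L34Fix : Prop := ∀ (F : Type) [Field F] [Fintype F], Fintype.card F = 4 →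
  ∀ α : MulAut (Matrix.ProjectiveSpecialLinearGroup (Fin 3) F), α * α = 1 →
    (∃ k, α = MulAut.conj k) ∨ ¬ 16 ∣ Nat.card (fixA α)

/-- covers of `L₃(4)` with elementary centre: elementary abelian subgroups have large centralisers -/
def L34El : Prop := ∀ (F : Type) [Field F] [Fintype F], Fintype.card F = 4 →
  ∀ (K : Type u) [Group K] [Finite K] (ψ : K →* Matrix.ProjectiveSpecialLinearGroup (Fin 3) F),
    Function.Surjective ψ → ψ.ker = center K → (∀ c ∈ center K, c * c = 1) →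
    ∀ E : Subgroup K, (∀ a ∈ E, a * a = 1) → 16 ∣ Nat.card ((𝒞(E)).map ψ)

/-- an invariant `E₁₆` of conjugate involutions, not centralised, with a fixed element of order 3 acting freely on it -/
def GD {X : Type*} [Group X] (α : MulAut X) : Prop := ∃ (Q : Subgroup X) (l : X), (∀ a ∈ Q, a * a = 1) ∧ Nat.card Q = 16 ∧
  (∀ a ∈ Q, a ≠ 1 → ∀ b ∈ Q, b ≠ 1 → IsConj a b) ∧ (∀ a ∈ Q, α a ∈ Q) ∧ (∃ a ∈ Q, α a ≠ a) ∧
  α l = l ∧ l ^ 3 = 1 ∧ l ∈ 𝒩(Q) ∧ ∀ a ∈ Q, l * a = a * l → a = 1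

/-- a normal nonabelian simple subgroup contains all elements of order 3 and has one class of involutions -/
def JF (Y : Type*) [Group Y] : Prop := ∀ J : Subgroup Y, J.Normal → IsSimpleGroup J → ¬ IsMulCommutative J →
  (∀ l : Y, l ^ 3 = 1 → l ∈ J) ∧ ∀ a ∈ J, ∀ b ∈ J, orderOf a = 2 → orderOf b = 2 → ∃ g ∈ J, g * a * g⁻¹ = b

/-- `G₂(4)`: the field automorphism -/
def G2A : Prop := ∀ (F : Type) [Field F] [Fintype F], Fintype.card F = 4 →
  ∃ φ : MulAut ↥(Lie.chevG2.group F), Lie.chevG2.IsFieldAut φ ∧ orderOf φ = 2 ∧ GD φ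

/-- `G₂(2)` -/
def G2B : Prop := ∀ (F : Type) [Field F] [Fintype F], Fintype.card F = 2 →
  Nat.card ↥(Lie.chevG2.group F) = 12096 ∧ JF ↥(Lie.chevG2.group F) ∧
    ∃ J : Subgroup ↥(Lie.chevG2.group F), J.Normal ∧ IsSimpleGroup J ∧ ¬ IsMulCommutative J

/-- `G₂(4)`: all involutory automorphisms -/
def G2All : Prop := ∀ (F : Type) [Field F] [Fintype F], Fintype.card F = 4 →
  ∀ α : MulAut ↥(Lie.chevG2.group F), α * α = 1 → α ≠ 1 →
    IsCharP 2 (fixA α) ∨ (Nat.card (fixA α) = 12096 ∧ JF (fixA α) ∧ GD α)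

def G2C : Prop := G2A → G2B → G2All

end CL.Q49c
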