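/-
Project Q49: the field automorphism of `G₂(4)`.
-/
import Cfsg.Agent.Q49.CovDefs
import Cfsg.Agent.Chev.RealAut
import Cfsg.Agent.Chev.RealAll

set_option autoImplicit false

namespace CL.Q49c

open Cfsg Subgroup CL.Even CL.Grp CL.Q16

namespace G2Aux

variable {G : Type*} [Group G] {F : Type} [Field F]

/-- a natural module `A B` for the group generated by `P`, `M` -/
structure Nm (A B P M : F → G) : Prop where
  A_add : ∀ s t, A (s + t) = A s * A t
  B_add : ∀ s t, B (s + t) = B s * B t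
  AB : ∀ s t, B t * A s = A s * B t
  PA : ∀ u s, P u * A s * (P u)⁻¹ = A s * B (u * s)
  PB : ∀ u s, P u * B s * (P u)⁻¹ = B s
  MB : ∀ u s, M u * B s * (M u)⁻¹ = A (u * s) * B s
  MA : ∀ u s, M u * A s * (M u)⁻¹ = A s
  A1 : ∀ s, A s = 1 ↔ s = 0
  B1 : ∀ s, B s = 1 ↔ s = 0
  l3 : (P 1 * M 1) ^ 3 = 1

variable {A B P M : F → G}

theorem Nm.mul (h : Nm A B P M) (s t s' t' : F) : A s * B t * (A s' * B t') = A (s + s') * B (t + t') := by
  rw [h.A_add, h.B_add, mul_assoc, ← mul_assoc (B t), h.AB]; group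

theorem Nm.cP (h : Nm A B P M) (u s t : F) : P u * (A s * B t) * (P u)⁻¹ = A s * B (u * s + t) := by
  rw [h.B_add, ← mul_assoc (A s), ← h.PA]
  nth_rewrite 2 [← h.PB u t]
  group

theorem Nm.cM (h : Nm A B P M) (u s t : F) : M u * (A s * B t) * (M u)⁻¹ = A (s + u * t) * B t := by
  rw [h.A_add, mul_assoc (A s), ← h.MB]
  nth_rewrite 2 [← h.MA u s]
  group

theorem Nm.eq_one (h : Nm A B P M) {s t : F} (e : A s * B t = 1) : s = 0 ∧ t = 0 := by
  have k := h.cP 1 s t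
  rw [e, mul_one, mul_inv_cancel, one_mul, add_comm, h.B_add, ← mul_assoc, e, one_mul] at k
  have hs := (h.B1 s).1 k.symm
  rw [hs, (h.A1 0).2 rfl, one_mul] at e
  exact ⟨hs, (h.B1 t).1 e⟩

/-- the module as a homomorphic image -/
def Nm.hom (h : Nm A B P M) : Multiplicative (F × F) →* G :=
  MonoidHom.mk' (fun c => A c.toAdd.1 * B c.toAdd.2) fun _ _ => (h.mul _ _ _ _).symm

theorem Nm.mem (h : Nm A B P M) {g : G} : g ∈ h.hom.range ↔ ∃ s t, g = A s * B t :=
  ⟨fun ⟨_, e⟩ => ⟨_, _, e.symm⟩, fun ⟨s, t, e⟩ => ⟨Multiplicative.ofAdd (s, t), e.symm⟩⟩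

theorem Nm.inj (h : Nm A B P M) : Function.Injective h.hom :=
  (injective_iff_map_eq_one _).2 fun c e => by
    obtain ⟨h1, h2⟩ := h.eq_one e
    exact Multiplicative.toAdd.injective (Prod.ext h1 h2)

theorem Nm.conj1 [CharP F 2] (h : Nm A B P M) (s : F) {t : F} (ht : t ≠ 0) : IsConj (A s * B t) (A 1 * B 0) := by
  have e1 := h.cM ((s + 1) / t) s t
  rw [div_mul_cancel₀ _ ht, ← add_assoc, CharTwo.add_self_eq_zero, zero_add] at e1
  have e2 := h.cP t 1 t
  rw [mul_one, CharTwo.add_self_eq_zero] at e2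
  exact (isConj_iff.2 ⟨_, e1⟩).trans (isConj_iff.2 ⟨_, e2⟩)

theorem Nm.conj [CharP F 2] (h : Nm A B P M) {s t : F} (e : A s * B t ≠ 1) : IsConj (A s * B t) (A 1 * B 0) := by
  by_cases ht : t = 0
  · have hs : s ≠ 0 := by
      rintro rfl
      exact e (by rw [ht, (h.A1 0).2 rfl, (h.B1 0).2 rfl, one_mul])
    refine (isConj_iff.2 ⟨_, h.cP 1 s t⟩).trans (h.conj1 s ?_)
    rwa [ht, one_mul, add_zero]
  · exact h.conj1 s ht

theorem Nm.gd [Fintype F] [CharP F 2] (h : Nm A B P M) (hF : Fintype.card F = 4) (α : MulAut G) (σ : F → F)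
    (hA : ∀ s, α (A s) = A (σ s)) (hB : ∀ s, α (B s) = B (σ s)) (hP : α (P 1) = P 1) (hM : α (M 1) = M 1)
    (hσ : ∃ w, σ w ≠ w) : GD α := by
  have hc : Nat.card h.hom.range = 16 := by
    rw [← Nat.card_congr (h.hom.ofInjective h.inj).toEquiv, Nat.card_congr Multiplicative.toAdd, Nat.card_prod,
      Nat.card_eq_fintype_card, hF]
  have hl : ∀ s t, P 1 * M 1 * (A s * B t) * (P 1 * M 1)⁻¹ = A (s + t) * B s := fun s t => by
    have e : P 1 * M 1 * (A s * B t) * (P 1 * M 1)⁻¹ = P 1 * (M 1 * (A s * B t) * (M 1)⁻¹) * (P 1)⁻¹ := by group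
    rw [e, h.cM, h.cP, one_mul, one_mul, add_assoc, CharTwo.add_self_eq_zero, add_zero]
  have : Finite h.hom.range := Nat.finite_of_card_ne_zero (by rw [hc]; norm_num)
  refine ⟨h.hom.range, P 1 * M 1, fun a ha => ?_, hc, fun a ha a1 b hb b1 => ?_, fun a ha => ?_, ?_, ?_, h.l3, ?_,
    fun a ha e => ?_⟩
  · obtain ⟨s, t, rfl⟩ := h.mem.1 ha
    rw [h.mul, CharTwo.add_self_eq_zero, CharTwo.add_self_eq_zero, (h.A1 0).2 rfl, (h.B1 0).2 rfl, one_mul]
  · obtain ⟨s, t, rfl⟩ := h.mem.1 ha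
    obtain ⟨s', t', rfl⟩ := h.mem.1 hb
    exact (h.conj a1).trans (h.conj b1).symm
  · obtain ⟨s, t, rfl⟩ := h.mem.1 ha
    exact h.mem.2 ⟨_, _, by rw [map_mul, hA, hB]⟩
  · obtain ⟨w, hw⟩ := hσ
    refine ⟨A w, h.mem.2 ⟨w, 0, by rw [(h.B1 0).2 rfl, mul_one]⟩, fun e => hw ?_⟩
    rw [hA] at e
    have k : A (σ w + w) = 1 := by
      rw [h.A_add, e, ← h.A_add, CharTwo.add_self_eq_zero, (h.A1 0).2 rfl]
    rw [eq_neg_of_add_eq_zero_left ((h.A1 _).1 k), CharTwo.neg_eq]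
  · rw [map_mul, hP, hM]
  · refine Subgroup.mem_normalizer_fintype (S := (h.hom.range : Set G)) fun a ha => ?_
    obtain ⟨s, t, rfl⟩ := h.mem.1 ha
    exact h.mem.2 ⟨_, _, hl s t⟩
  · obtain ⟨s, t, rfl⟩ := h.mem.1 ha
    have k := hl s t
    rw [e, mul_inv_cancel_right] at k
    have k2 : A (s + (s + t)) * B (t + s) = 1 := by
      rw [← h.mul, ← k, h.mul, CharTwo.add_self_eq_zero, CharTwo.add_self_eq_zero, (h.A1 0).2 rfl, (h.B1 0).2 rfl,
        one_mul]
    obtain ⟨h1, h2⟩ := h.eq_one k2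
    rw [← add_assoc, CharTwo.add_self_eq_zero, zero_add] at h1
    rw [h1, zero_add] at h2
    rw [h1, h2, (h.A1 0).2 rfl, (h.B1 0).2 rfl, one_mul]

open CL.Chev Cfsg.Lie

def i5 : Fin chevG2.nroots := ⟨5, by decide⟩
def i6 : Fin chevG2.nroots := ⟨6, by decide⟩
def i10 : Fin chevG2.nroots := ⟨10, by decide⟩
def i11 : Fin chevG2.nroots := ⟨11, by decide⟩

theorem ne_neg {r s : Fin chevG2.nroots} (h : (s : ℕ) ≠ chevG2.neg r) : s ≠ realG2.R.neg r :=
  fun e => h ((realG2.eq_neg_iff r s).1 e)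

theorem nm (F : Type) [Field F] [CharP F 2] :
    Nm ((realG2.Sg F).x i10) ((realG2.Sg F).x i11) ((realG2.Sg F).x i6) ((realG2.Sg F).x i5) := by
  have hc := realG2.Sg_commFormula F
  have hf := (realG2.full F).faithful
  set S := realG2.Sg F
  have c0 : ∀ r s : Fin chevG2.nroots, s ≠ r → (s : ℕ) ≠ chevG2.neg r → datT chevG2 r s = [] → ∀ t u,
      S.x s u * S.x r t = S.x r t * S.x s u := fun r s h1 h2 h3 t u => by
    simpa [h3] using hc r s t u h1 (ne_neg h2)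
  have c1 : ∀ r s k : Fin chevG2.nroots, s ≠ r → (s : ℕ) ≠ chevG2.neg r → datT chevG2 r s = [(k, 1, 1, 1)] → ∀ t u,
      S.x s u * S.x r t = S.x r t * S.x s u * S.x k (t * u) := fun r s k h1 h2 h3 t u => by
    simpa [h3, CharTwo.neg_eq] using hc r s t u h1 (ne_neg h2)
  have sq : ∀ r t, S.x r t * S.x r t = 1 := fun r t => by rw [← S.x_add, CharTwo.add_self_eq_zero, S.x_zero]
  have ab := c0 i10 i11 (by decide) (by decide) (by decide)
  have pb := c0 i6 i11 (by decide) (by decide) (by decide)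
  have ma := c0 i5 i10 (by decide) (by decide) (by decide)
  have pa := c1 i6 i10 i11 (by decide) (by decide) (by decide)
  have mb := c1 i5 i11 i10 (by decide) (by decide) (by decide)
  refine ⟨S.x_add _, S.x_add _, fun s t => ab s t, fun u s => ?_, fun u s => ?_, fun u s => ?_, fun u s => ?_,
    fun s => hf.x_eq_one_iff, fun s => hf.x_eq_one_iff, ?_⟩
  · rw [mul_inv_eq_iff_eq_mul, mul_assoc, pb, ← mul_assoc, pa, mul_assoc, sq, mul_one]
  · rw [← pb, mul_inv_cancel_right]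
  · rw [mul_inv_eq_iff_eq_mul, ← ab, mul_assoc, ma, ← mul_assoc, mb, mul_assoc, sq, mul_one]
  · rw [← ma, mul_inv_cancel_right]
  · have k := S.conj_n' i6 i6 1 1 one_ne_zero
    have e : realG2.R.neg i6 = i5 := ((realG2.eq_neg_iff i6 i5).2 (by decide)).symm
    rw [RS.refl_self, S.η_self, e] at k
    simp only [inv_one, CharTwo.neg_eq, one_zpow, mul_one, Int.cast_neg, Int.cast_one] at k
    have i1 : (S.x i6 1)⁻¹ = S.x i6 1 := inv_eq_of_mul_eq_one_right (sq _ _)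
    have i2 : (S.x i5 1)⁻¹ = S.x i5 1 := inv_eq_of_mul_eq_one_right (sq _ _)
    rw [mul_inv_rev, mul_inv_rev, i1, i2] at k
    calc (S.x i6 1 * S.x i5 1) ^ 3
        = S.x i6 1 * S.x i5 1 * (S.x i6 1 * S.x i6 1) * (S.x i6 1 * (S.x i5 1 * S.x i6 1)) * S.x i5 1 := by
          rw [sq, pow_succ, pow_two]; group
      _ = (S.x i6 1 * S.x i5 1 * S.x i6 1 * S.x i6 1 * (S.x i6 1 * (S.x i5 1 * S.x i6 1))) * S.x i5 1 := by group
      _ = 1 := by rw [k, sq]

end G2Aux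

open CL.Chev in
theorem g2A : G2A := by
  intro F _ _ hF
  have : CharP F 2 := ringChar.of_eq (FiniteField.even_card_iff_char_two.2 (by rw [hF]))
  let σ : F ≃+* F := frobeniusEquiv F 2
  have hσ : ∀ t, σ t = t ^ 2 := fun _ => rfl
  have hw : ∃ w, σ w ≠ w := by
    obtain ⟨w, h0, h1⟩ : ∃ w : F, w ≠ 0 ∧ w ≠ 1 := by
      classical
      by_contra hn
      have hu : (Finset.univ : Finset F) ⊆ {0, 1} := fun x _ => by
        by_contra hx
        exact hn ⟨x, fun e => hx (by simp [e]), fun e => hx (by simp [e])⟩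
      have := (Finset.card_le_card hu).trans Finset.card_le_two
      rw [Finset.card_univ, hF] at this
      omega
    refine ⟨w, fun e => h1 ?_⟩
    rw [hσ, pow_two] at e
    exact mul_left_cancel₀ h0 (e.trans (mul_one w).symm)
  have hg := (G2Aux.nm F).gd hF ((realG2.full F).fieldHom σ) σ (fun s => (realG2.full F).fieldHom_x σ _ s)
    (fun s => (realG2.full F).fieldHom_x σ _ s) (by rw [StSys.Full.fieldHom_x, map_one])
    (by rw [StSys.Full.fieldHom_x, map_one]) hw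
  refine ⟨(realG2.full F).fieldHom σ, (realG2.isFieldAut_iff _).2 ⟨σ, rfl⟩, ?_, hg⟩
  refine orderOf_eq_prime ?_ fun e => ?_
  · have k : σ ^ 2 = 1 := RingEquiv.ext fun t => by
      have := FiniteField.pow_card t
      rw [hF] at this
      rw [pow_two, RingAut.mul_apply, hσ, hσ, ← pow_mul]
      exact this
    rw [← map_pow, k, map_one]
  · obtain ⟨Q, l, -, -, -, -, ⟨a, -, ha⟩, -⟩ := hg
    exact ha (by rw [e]; rfl)

end CL.Q49c
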