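/-
Project Q49, tables for covers of `L₃(4)`: involution centralisers and elementary abelian subgroups.
-/
import Cfsg.Agent.Q49.CovDefs
import Cfsg.Agent.Known.L34Cov

set_option autoImplicit false

namespace CL.Q49c

open Cfsg Subgroup CL.Even CL.Grp CL.L34Cov Matrix
open scoped MatrixGroups

universe u

namespace L34ElJ

theorem pow4 {L : Type*} [Group L] (h : ∀ g : L, g ^ 3 = 1 ∨ g ^ 4 = 1 ∨ g ^ 5 = 1 ∨ g ^ 7 = 1) {t x : L}
    (ht : orderOf t = 2) (hx : Commute x t) : x ^ 4 = 1 := by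
  have k : ∀ g : L, g ^ 4 = 1 ∨ g ^ 105 = 1 := fun g => by
    rcases h g with e | e | e | e
    · exact Or.inr (by rw [show 105 = 3 * 35 from rfl, pow_mul, e, one_pow])
    · exact Or.inl e
    · exact Or.inr (by rw [show 105 = 5 * 21 from rfl, pow_mul, e, one_pow])
    · exact Or.inr (by rw [show 105 = 7 * 15 from rfl, pow_mul, e, one_pow])
  rcases k x with e | e
  · exact e
  rcases k (x * t) with e' | e'
  · rwa [hx.mul_pow, (orderOf_dvd_iff_pow_eq_one (x := t) (n := 4)).1 (by rw [ht]; decide), mul_one] at e'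
  · rw [hx.mul_pow, e, one_mul, ← orderOf_dvd_iff_pow_eq_one, ht] at e'
    exact absurd e' (by decide)

variable {F : Type} [Field F] [Fintype F]

theorem le_or (hF : Fintype.card F = 4) {E : Subgroup PSL(3, F)} (hE : E ≤ A F ⊔ B F) (h : ∀ x ∈ E, x * x = 1) :
    E ≤ A F ∨ E ≤ B F := by
  have h2 := (CL.Cls.exists_omega_of_card_four hF).1
  have k : ∀ a b c : F, u a b c ∈ E → a = 0 ∨ b = 0 := fun a b c hx => by
    have := h _ hx
    rw [u_mul, u_eq_one] at this
    exact mul_eq_zero.1 (by linear_combination this.2.2 - c * h2)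
  by_cases h1 : E ≤ A F
  · exact Or.inl h1
  refine Or.inr fun y hy => ?_
  obtain ⟨x, hx, hn⟩ := SetLike.not_le_iff_exists.1 h1
  obtain ⟨a, b, c, rfl⟩ := mem_sup (hE hx)
  obtain ⟨a', b', c', rfl⟩ := mem_sup (hE hy)
  have ha : a ≠ 0 := fun e => hn ⟨b, c, by rw [e]⟩
  have hb := (k a b c hx).resolve_left ha
  by_cases hb' : b' = 0
  · exact ⟨a', c', by rw [hb']⟩
  have ha' := (k a' b' c' hy).resolve_right hb'
  have e := mul_mem hx hy
  rw [u_mul, ha', hb, add_zero, zero_add] at e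
  exact ((k _ _ _ e).elim ha hb').elim

variable {K : Type u} [Group K] [Finite K]

theorem of_le (hF : Fintype.card F = 4) (hZ : ∀ c ∈ center K, c * c = 1) {ψ : K →* PSL(3, F)}
    (hs : Function.Surjective ψ) (hk : ψ.ker = center K) {E : Subgroup K} (hE : E.map ψ ≤ A F) :
    16 ∣ Nat.card ((𝒞(E)).map ψ) := by
  have hA := ea_A hF (elem_iff.2 ⟨fun x hx y _ => mem_center_iff.1 hx y, fun x hx => by rw [_root_.sq, hZ x hx]⟩) hs hk
  have h1 : A F ≤ (𝒞(E)).map ψ := fun a ha => by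
    obtain ⟨x, rfl⟩ := hs a
    exact mem_map_of_mem ψ (centralizer_le (map_le_iff_le_comap.1 hE) (elem_le_cent hA ha))
  have := card_dvd_of_le h1
  rwa [card_A, hF] at this

theorem card_aut (ψ : K →* PSL(3, F)) (θ : MulAut PSL(3, F)) (H : Subgroup K) :
    Nat.card (H.map (θ.toMonoidHom.comp ψ)) = Nat.card (H.map ψ) := by
  rw [← Subgroup.map_map, card_map_of_injective θ.injective]

end L34ElJ

open L34ElJ

theorem l34Cit : L34Cit := fun _ _ _ hF _ ht x => ⟨2, Subtype.ext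
  (pow4 (CL.Cls.pow_eq_one_PSL3_four hF) ht (mem_centralizer_singleton_iff.1 x.2))⟩

theorem l34El : L34El.{u} := by
  intro F _ _ hF K _ _ ψ hs hk hZ E hE
  have : CharP F 2 := CharTwo.of_one_ne_zero_of_two_eq_zero one_ne_zero (CL.Cls.exists_omega_of_card_four hF).1
  have hP : IsPGroup 2 E := fun x => ⟨1, Subtype.ext (by simpa [_root_.sq] using hE x x.2)⟩
  have ker : ∀ θ : MulAut PSL(3, F), (θ.toMonoidHom.comp ψ).ker = center K := fun θ => by rw [← hk]; ext x; simp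
  obtain ⟨g, -, hg⟩ := syl_conj_le (syl (F := F)) (hP.map ψ) le_top
  have hT : E.map ((MulAut.conj g).toMonoidHom.comp ψ) ≤ A F ⊔ B F := by
    rintro _ ⟨x, hx, rfl⟩; exact hg ⟨_, ⟨x, hx, rfl⟩, rfl⟩
  rcases le_or hF hT (by rintro _ ⟨x, hx, rfl⟩; rw [← map_mul, hE x hx, map_one]) with h | h
  · rw [← card_aut ψ (MulAut.conj g)]
    exact of_le hF hZ ((MulAut.conj g).surjective.comp hs) (ker _) h
  · obtain ⟨θ, hθ⟩ := exists_aut (F := F)
    rw [← card_aut ψ (θ * MulAut.conj g)]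
    refine of_le hF hZ ((θ * MulAut.conj g).surjective.comp hs) (ker _) ?_
    rintro _ ⟨x, hx, rfl⟩
    obtain ⟨a, c, e⟩ := h ⟨x, hx, rfl⟩
    exact ⟨_, _, (congrArg θ e).trans (hθ a 0 c)⟩

end CL.Q49c
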