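/-
Project Q49: fixed points of the outer involutory automorphisms of `L₃(4)`.
-/
import Cfsg.Agent.Q49.CovDefs
import Cfsg.Agent.Known.GLAut7
import Cfsg.Agent.Cls.UniGroup
import Cfsg.Agent.Cls.SpMatrix2
import Cfsg.Agent.Cls.SLnCard
import Cfsg.Agent.S0265

set_option autoImplicit false

namespace CL.Q49c

open Cfsg Subgroup CL.Even CL.Grp CL.Q16

namespace L34Fixx

open Matrix CL.GLn

variable {F : Type} [Field F]

theorem conj_inj {k : ProjectiveSpecialLinearGroup (Fin 3) F} (hk : MulAut.conj k = 1) : k = 1 := by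
  obtain ⟨s, rfl⟩ := QuotientGroup.mk_surjective k
  have h : diagAut (Fin 3) F (SpecialLinearGroup.toGL s) = 1 := by rw [diagAut_toGL, hk]
  rw [QuotientGroup.eq_one_iff, Subgroup.mem_center_iff]
  intro t
  apply SpecialLinearGroup.toGL_injective
  rw [map_mul, map_mul, Subgroup.mem_center_iff.1 (diagAut_eq_one_iff.1 h)]

/-- the fixed points embed into the centraliser in the inner-diagonal group -/
theorem card_fix_dvd (α : MulAut (ProjectiveSpecialLinearGroup (Fin 3) F)) :
    Nat.card (fixA α) ∣ Nat.card ↥(inndiagPSL 3 F ⊓ Subgroup.centralizer {α}) := by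
  let f : fixA α →* MulAut (ProjectiveSpecialLinearGroup (Fin 3) F) := MulAut.conj.comp (fixA α).subtype
  have hf : ∀ k, f k ∈ inndiagPSL 3 F ⊓ Subgroup.centralizer {α} := by
    rintro ⟨k, hk⟩
    refine Subgroup.mem_inf.2 ⟨?_, ?_⟩
    · obtain ⟨s, rfl⟩ := QuotientGroup.mk_surjective k
      exact mem_inndiagPSL.2 ⟨SpecialLinearGroup.toGL s, diagAut_toGL s⟩
    · rw [Subgroup.mem_centralizer_singleton_iff]
      have hk' : α k = k := mem_fixA.1 hk
      ext x
      show k * α x * k⁻¹ = α (k * x * k⁻¹)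
      rw [map_mul, map_mul, map_inv, hk']
  refine Subgroup.card_dvd_of_injective (f.codRestrict _ hf) ((injective_iff_map_eq_one _).2 fun k hk => ?_)
  exact Subtype.ext (conj_inj (congrArg Subtype.val hk))

theorem card_conj [Finite F] {x y : MulAut (ProjectiveSpecialLinearGroup (Fin 3) F)}
    (h : IsConjUnder (inndiagPSL 3 F) x y) :
    Nat.card ↥(inndiagPSL 3 F ⊓ Subgroup.centralizer {y}) = Nat.card ↥(inndiagPSL 3 F ⊓ Subgroup.centralizer {x}) := by
  obtain ⟨k, -, rfl⟩ := h
  have := inndiagPSL_normal (F := F) (n := 3) (by norm_num)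
  exact (Nat.card_congr (infCentralizerConj (inndiagPSL 3 F) k x).toEquiv).symm

theorem card_fixed [Fintype F] (hF : Fintype.card F = 4) {σ : F ≃+* F} (hσ : orderOf σ = 2) :
    Nat.card (fixedFld σ) = 2 := by
  have h := card_fixedFld_pow σ
  rw [hσ, Nat.card_eq_fintype_card (α := F), hF] at h
  exact Nat.pow_left_injective two_ne_zero (show _ ^ 2 = 2 ^ 2 from h)

theorem two_eq_zero [Fintype F] (hF : Fintype.card F = 4) : (2 : F) = 0 := by
  have h := FiniteField.cast_card_eq_zero F
  rw [hF] at h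
  have h2 : (2 : F) ^ 2 = 0 := by rw [← h]; norm_num
  exact pow_eq_zero_iff two_ne_zero |>.1 h2

theorem inner_of_diag [Fintype F] (hF : Fintype.card F = 4) (g : GL (Fin 3) F)
    (h : diagAut (Fin 3) F g * diagAut (Fin 3) F g = 1) : ∃ k, diagAut (Fin 3) F g = MulAut.conj k := by
  have h3 : diagAut (Fin 3) F (g ^ 3) = diagAut (Fin 3) F g := by
    rw [map_pow, pow_succ, pow_two, h, one_mul]
  have hd : ((g ^ 3 : GL (Fin 3) F) : Matrix (Fin 3) (Fin 3) F).det = 1 := by
    rw [Units.val_pow_eq_pow_val, det_pow]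
    have := FiniteField.pow_card_sub_one_eq_one _ (Matrix.isUnits_det_units g).ne_zero
    rwa [hF] at this
  let s : SpecialLinearGroup (Fin 3) F := ⟨_, hd⟩
  have hs : SpecialLinearGroup.toGL s = g ^ 3 := Units.ext rfl
  exact ⟨QuotientGroup.mk s, by rw [← diagAut_toGL, hs, h3]⟩

end L34Fixx

open L34Fixx CL.GLn in
theorem l34Fix : L34Fix := by
  intro F _ _ hF α hα
  obtain ⟨π, hπ, hπf, hπg⟩ := exists_outHom_three (F := F) (n := 3) le_rfl
  have hπd : ∀ g, π (diagAut (Fin 3) F g) = 1 := fun g => by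
    rw [← MonoidHom.mem_ker, hπ]; exact diagAut_mem_inndiagPSL g
  have hsq : π α * π α = 1 := by rw [← map_mul, hα, map_one]
  have hord : ∀ σ : F ≃+* F, σ * σ = 1 → σ ≠ 1 → orderOf σ = 2 := fun σ h1 h2 =>
    orderOf_eq_prime (by rw [pow_two, h1]) h2
  obtain ⟨g, σ, h | ⟨-, h⟩⟩ := aut_psl_fin (by norm_num : 2 ≤ 3) α
  · have hσ2 : σ * σ = 1 := by
      rw [h, map_mul, hπd, hπf, one_mul] at hsq
      exact congrArg Prod.fst hsq
    by_cases hσ : σ = 1
    · left
      rw [hσ, map_one, mul_one] at h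
      rw [h] at hα ⊢
      exact inner_of_diag hF g hα
    · right
      intro h16
      have ho := hord σ hσ2 hσ
      have h1 := h16.trans (card_fix_dvd α)
      rw [h, card_conj (isConjUnder_fieldAut σ g (by rw [ho, pow_two, ← h, hα]))] at h1
      obtain ⟨e⟩ := centralizer_fieldAut_equiv (n := 3) σ
      have := Fintype.ofFinite (fixedFld σ)
      have h2 : Fintype.card (fixedFld σ) = 2 := by rw [← Nat.card_eq_fintype_card, card_fixed hF ho]
      rw [Nat.card_congr e.toEquiv, Cfsg.Agent.S0265.result, CL.SLn.card_SL_three, h2] at h1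
      norm_num at h1
  · right
    intro h16
    have hσ2 : σ * σ = 1 := by
      rw [h, map_mul, map_mul, hπd, hπf, hπg, one_mul] at hsq
      simpa using congrArg Prod.fst hsq
    have h1 := h16.trans (card_fix_dvd α)
    by_cases hσ : σ = 1
    · have hg : α = grAut g⁻¹ := by rw [h, hσ, map_one, mul_one, grAut, inv_inv]
      rw [hg] at hα h1
      have hG := bform_isSymm_iff.2 (symm_of_odd (ι := Fin 3) (by simp; decide) ((grAut_mul_self_eq_one_iff _).1 hα))
      obtain ⟨e⟩ := centralizer_grAut_two_odd (two_eq_zero hF) (m := 1) (n := 3) rfl hG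
      rw [Nat.card_congr e.toEquiv, CL.Sp.card_symplecticGroup, Nat.card_eq_fintype_card, hF] at h1
      norm_num at h1
    · have ho := hord σ hσ2 hσ
      rw [mul_assoc] at h
      rw [h, card_conj (isConjUnder_gf ho g (by rw [pow_two, ← h, hα]))] at h1
      obtain ⟨e⟩ := centralizer_gf_equiv (n := 3) ho
      rw [Nat.card_congr e.toEquiv, card_fixed hF ho] at h1
      have h2 := h1.trans (Subgroup.card_quotient_dvd_card _)
      rw [CL.Uni.card_GU (q := 2) (by rw [hF]; norm_num)] at h2
      revert h2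
      decide

end CL.Q49c
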