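/-
Project Q49: involutory automorphisms of `M₂₂`.
-/
import Cfsg.Agent.Q49.CovDefs
import Cfsg.Agent.Spor.J4A3
import Cfsg.Agent.Cls.SLnCard
import Cfsg.Agent.Char.Burnside
import Cfsg.Agent.S5394
import Cfsg.Agent.S5607
import Cfsg.Agent.S5425
import Cfsg.Agent.S5604

set_option autoImplicit false

namespace CL.Q49c

open Cfsg Subgroup CL.Even CL.Grp CL.Q16 CL.Spor MulAction
open scoped Pointwise

namespace CovM22

theorem card_le (H : Subgroup M24) (x : GolayPt) (U : Finset GolayPt) (h : ∀ g ∈ H, g • x ∈ U) :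
    Nat.card H ≤ U.card * Nat.card (H ⊓ stabilizer M24 x : Subgroup M24) := by
  rw [card_eq_ncard_orbit_mul H x, ← Set.ncard_coe_finset]
  refine Nat.mul_le_mul_right _ (Set.ncard_le_ncard ?_ U.finite_toSet)
  rintro _ ⟨g, rfl⟩
  exact h g g.2

theorem hF : (fixS duad0 : Subgroup M24) = stabilizer M24 (none : GolayPt) ⊓ stabilizer M24 (some 0 : GolayPt) := by
  ext g
  rw [mem_fixS, show duad0 = {none, some 0} by decide +kernel]
  simp [mem_stabilizer_iff]

theorem big {s : M24} (hD : s ∈ stabilizer M24 duad0)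
    (ho : (Finset.univ.filter fun p : GolayPt => (s : Equiv.Perm GolayPt) p = p) ∈ octads) {Q : Subgroup M24}
    (hQ : Q ≤ centralizer {s}) (hc : Nat.card Q = 128) : 2 < Nat.card (Q ⊓ fixS duad0 : Subgroup M24) := by
  have cm : ∀ g ∈ Q, ∀ x : GolayPt, s • g • x = g • s • x := fun g hg x => by
    rw [← mul_smul, ← mul_smul, mem_centralizer_singleton_iff.1 (hQ hg)]
  have mD : ∀ x : GolayPt, x = none ∨ x = some 0 → s • x = none ∨ s • x = some 0 := fun x hx => by
    have := Finset.smul_mem_smul_finset (a := s) (show x ∈ duad0 by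
      rw [show duad0 = {none, some 0} by decide +kernel]; simpa using hx)
    rw [mem_stabilizer_iff.1 hD, show duad0 = {none, some 0} by decide +kernel] at this
    simpa using this
  rw [hF, ← inf_assoc]
  rcases mD none (.inl rfl) with e | e
  · have e' : s • (some 0 : GolayPt) = some 0 := (mD _ (.inr rfl)).resolve_left fun k => by
      simpa using smul_left_cancel s (k.trans e.symm)
    have mU : ∀ g ∈ Q, ∀ x : GolayPt, s • x = x →
        g • x ∈ Finset.univ.filter fun p : GolayPt => (s : Equiv.Perm GolayPt) p = p := fun g hg x hx =>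
      Finset.mem_filter.2 ⟨Finset.mem_univ _, (cm g hg x).trans (by rw [hx])⟩
    have k1 := card_le Q none _ fun g hg => mU g hg _ e
    have k2 := card_le (Q ⊓ stabilizer M24 (none : GolayPt)) (some 0) _ fun g hg =>
      Finset.mem_erase.2 ⟨fun k => by simpa using smul_left_cancel g (k.trans (Eq.symm hg.2)), mU g hg.1 _ e'⟩
    rw [Finset.card_erase_of_mem (by simpa using mU 1 (one_mem _) _ e)] at k2
    rw [(mem_octads.1 ho).2] at k1 k2
    omega
  · have k1 := card_le Q none Finset.univ fun _ _ => Finset.mem_univ _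
    rw [Finset.card_univ, card_golayPt] at k1
    rw [inf_eq_left.2 fun g hg => mem_stabilizer_iff.2 (by rw [← e, ← cm g hg.1, mem_stabilizer_iff.1 hg.2])]
    omega

theorem core {s : M24} (hs : orderOf s = 2) (hD : s ∈ stabilizer M24 duad0) {J : Subgroup M24} [IsSimpleGroup J]
    (hJ : ¬ IsMulCommutative J) (h1 : J ≤ fixS duad0 ⊓ centralizer {s}) (h2 : fixS duad0 ⊓ centralizer {s} ≤ 𝒩(J)) :
    False := by
  have ns : ∀ {p q : ℕ}, p.Prime → q.Prime → ¬ ∀ r : ℕ, r.Prime → r ∣ Nat.card J → r = p ∨ r = q :=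
    fun hp hq h => hJ ⟨⟨IsSimpleGroup.comm_iff_isSolvable.2 (CL.Char.isSolvable_of_two_primes hp hq h)⟩⟩
  have hs' : orderOf (s : Equiv.Perm GolayPt) = 2 := by rw [orderOf_coe, hs]
  rcases Agent.S5394.result.1 s s.2 hs' with ho | h0
  · obtain ⟨-, cQ, -, -, K, hK, d, e, ⟨eK⟩⟩ := Agent.S5425.result s hs ho _ rfl
    rw [core_def] at cQ d e
    obtain ⟨Q, hQ⟩ : ∃ Q, pCoreOf 2 (centralizer ({s} : Set M24)) = Q := ⟨_, rfl⟩
    have nQ : centralizer ({s} : Set M24) ≤ 𝒩(Q) := hQ ▸ self_le_norm_core _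
    have lQ : Q ≤ centralizer ({s} : Set M24) := hQ ▸ core_le _
    rw [hQ] at cQ d e
    have cC : Nat.card (centralizer ({s} : Set M24)) = 2 ^ 10 * 3 * 7 := by
      rw [← e, sup_comm, card_sup_of_inf_eq_bot (hK.trans nQ) (by rwa [inf_comm]), cQ, Nat.card_congr eK.toEquiv,
        CL.SLn.card_SL_three, ZMod.card 2]
      rfl
    have h7 : 7 ∣ Nat.card J := by
      by_contra h7
      refine ns Nat.prime_two Nat.prime_three fun r hr hd => ?_
      have k := hd.trans (card_dvd_of_le (h1.trans inf_le_right))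
      rw [cC, hr.dvd_mul, hr.dvd_mul] at k
      rcases k with (k | k) | k
      · exact .inl ((Nat.prime_dvd_prime_iff_eq hr Nat.prime_two).1 (hr.dvd_of_dvd_pow k))
      · exact .inr ((Nat.prime_dvd_prime_iff_eq hr Nat.prime_three).1 k)
      · exact absurd ((Nat.prime_dvd_prime_iff_eq hr (by norm_num)).1 k ▸ hd) h7
    have : Fact (Nat.Prime 7) := ⟨by norm_num⟩
    obtain ⟨x, hx⟩ := exists_prime_orderOf_dvd_card' 7 h7
    have nE : J ≤ 𝒩(Q ⊓ fixS duad0) :=
      le_norm_inf (h1.trans (inf_le_right.trans nQ)) (le_norm_of_le (h1.trans inf_le_left))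
    have c128 : Nat.card (Q ⊓ fixS duad0 : Subgroup M24) ∣ 128 := (card_dvd_of_le inf_le_left).trans (by rw [cQ]; rfl)
    have k1 : (Q ⊓ fixS duad0).subgroupOf J = ⊥ :=
      ((normal_subgroupOf_of_le_normalizer nE).eq_bot_or_eq_top).resolve_right fun k => by
        have := h7.trans ((card_dvd_of_le (subgroupOf_eq_top.1 k)).trans c128)
        omega
    have k2 : ⁅Q ⊓ fixS duad0, J⁆ = ⊥ := le_bot_iff.1 ((le_inf (commutator_le_of_le_norm nE)
      (commutator_le_of_le_norm' ((le_inf inf_le_right (inf_le_left.trans lQ)).trans h2))).trans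
      (subgroupOf_eq_bot.1 k1).le_bot)
    have k3 := card_dvd_of_le ((commutator_eq_bot_iff_le_centralizer.1 k2).trans
      (cent_mono (zpowers_le.2 x.2)))
    rw [(Agent.S5604.result _ (by rw [Nat.card_zpowers, orderOf_coe, hx])).2.1] at k3
    have k4 := Nat.le_of_dvd two_pos (Nat.dvd_gcd k3 c128)
    exact absurd (big hD ho lQ cQ) k4.not_gt
  · obtain ⟨c1, tr, -⟩ := Agent.S5607.result s s.2 hs' h0
    have cC : Nat.card (centralizer ({s} : Set M24)) = 7680 := c1 ▸ Nat.card_congr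
      ⟨fun c => ⟨c.1.1, c.1.2, congrArg Subtype.val (mem_centralizer_singleton_iff.1 c.2)⟩,
        fun c => ⟨⟨c.1, c.2.1⟩, mem_centralizer_singleton_iff.2 (Subtype.ext c.2.2)⟩, fun _ => rfl, fun _ => rfl⟩
    rw [card_eq_ncard_orbit_mul _ (none : GolayPt), orbit_eq_of_trans (U := Set.univ) (fun _ _ => trivial) fun y _ =>
      let ⟨c, hc, e1, e2⟩ := tr none y; ⟨⟨c, hc⟩, mem_centralizer_singleton_iff.2 (Subtype.ext e1), e2⟩,
      Set.ncard_univ, Nat.card_eq_fintype_card, card_golayPt] at cC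
    refine ns Nat.prime_two Nat.prime_five fun r hr hd => ?_
    have k := hd.trans (card_dvd_of_le (le_inf (h1.trans inf_le_right)
      (h1.trans (inf_le_left.trans (hF.le.trans inf_le_left)))))
    rw [show Nat.card (centralizer ({s} : Set M24) ⊓ stabilizer M24 (none : GolayPt) : Subgroup M24) = 2 ^ 6 * 5 by
      omega, hr.dvd_mul] at k
    exact k.imp (fun k => (Nat.prime_dvd_prime_iff_eq hr Nat.prime_two).1 (hr.dvd_of_dvd_pow k))
      (Nat.prime_dvd_prime_iff_eq hr Nat.prime_five).1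

end CovM22

theorem noM22 : NoM22 := by
  intro α h2 h1 J hs hc hJ hN
  obtain ⟨g, rfl⟩ := J4.autD.surjective α
  let ι : Spor.M22 →* M24 := (fixS duad0 : Subgroup M24).subtype.comp J4.eqv22.symm.toMonoidHom
  have inj : Function.Injective ι := Subtype.val_injective.comp J4.eqv22.symm.injective
  have e : ∀ x, ι (J4.autD g x) = g * ι x * (g : M24)⁻¹ := fun x => by
    simp [ι, J4.autD, J4.conjD_apply]
  have m : ∀ x, x ∈ fixA (J4.autD g) ↔ ι x ∈ centralizer ({(g : M24)} : Set M24) := fun x => by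
    rw [mem_fixA, ← inj.eq_iff, e, mul_inv_eq_iff_eq_mul, mem_centralizer_singleton_iff, eq_comm]
  have o : orderOf (g : M24) = 2 := by
    rw [orderOf_coe, ← J4.autD.orderOf_eq]
    exact orderOf_eq_prime (by rwa [pow_two]) h1
  have eJ := J.equivMapOfInjective ι inj
  have := eJ.symm.isSimpleGroup
  refine CovM22.core o g.2 (J := J.map ι) (fun k => hc ⟨⟨fun a b => eJ.injective ?_⟩⟩) ?_ fun y hy => ?_
  · rw [map_mul, map_mul]
    exact k.is_comm.comm _ _
  · rintro _ ⟨x, hx, rfl⟩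
    exact ⟨(J4.eqv22.symm x).2, (m x).1 (hJ hx)⟩
  · obtain ⟨x, rfl⟩ : ∃ x, ι x = y := ⟨J4.eqv22 ⟨y, hy.1⟩, by simp [ι]⟩
    exact le_normalizer_map ι (mem_map_of_mem ι (hN ((m x).2 hy.2)))

end CL.Q49c
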