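/-
Project Q49 (S1849): lifting lemmas. From data modulo the centre of `K` to exact equations `r z r⁻¹ = z a`.
-/
import Cfsg.Agent.Even.Amb2

set_option autoImplicit false
set_option linter.unusedSectionVars false
open Cfsg Subgroup CL.Even CL.Grp

namespace CL.Q49.Lift

universe u
variable {G : Type u} [Group G]

/-- if `a = s ^ n` and `s` commutes with `q` modulo the centre of `K`, of exponent dividing `n`, then `q` centralises `a` -/
theorem comm_of_pow {K : Subgroup G} {n : ℕ} (hn : ∀ c ∈ K ⊓ 𝒞(K), c ^ n = 1) {a s q : G} (hs : s ∈ K) (hq : q ∈ K)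
    (ha : (s ^ n)⁻¹ * a ∈ 𝒞(K)) (hsq : s⁻¹ * (q * s * q⁻¹) ∈ 𝒞(K)) : q * a = a * q := by
  have hd : s⁻¹ * (q * s * q⁻¹) ∈ K ⊓ 𝒞(K) :=
    ⟨K.mul_mem (K.inv_mem hs) (K.mul_mem (K.mul_mem hq hs) (K.inv_mem hq)), hsq⟩
  set d := s⁻¹ * (q * s * q⁻¹) with hd'
  have e1 : q * s * q⁻¹ = s * d := by rw [hd']; group
  have hc : Commute s d := comm_of_mem hsq hs
  have e2 : q * s ^ n * q⁻¹ = s ^ n := by rw [← conj_pow, e1, hc.mul_pow, hn d hd, mul_one]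
  set c := (s ^ n)⁻¹ * a with hc'
  have e3 : a = s ^ n * c := by rw [hc']; group
  have e4 : q * c = c * q := comm_of_mem ha hq
  calc q * a = (q * s ^ n * q⁻¹) * (q * c) := by rw [e3]; group
    _ = s ^ n * (c * q) := by rw [e2, e4]
    _ = a * q := by rw [e3]; group

/-- the core computation: `v = z q z q⁻¹` centralises `z`, `a = v⁻¹ v^lam` is centralised by `q` and `q^lam` -/
theorem core {z q lam : G} (hz : z * z = 1) (hl : lam * z = z * lam) {v a : G} (hv : v = z * q * z * q⁻¹)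
    (ha : a = v⁻¹ * (lam * v * lam⁻¹)) (h1 : q * a = a * q) (h2 : lam * q * lam⁻¹ * a = a * (lam * q * lam⁻¹)) :
    (q⁻¹ * (lam * q * lam⁻¹)) * a = a * (q⁻¹ * (lam * q * lam⁻¹)) ∧
      (q⁻¹ * (lam * q * lam⁻¹)) * z * (q⁻¹ * (lam * q * lam⁻¹))⁻¹ = z * a := by
  have h1' : q⁻¹ * a = a * q⁻¹ := by
    calc q⁻¹ * a = q⁻¹ * (a * q) * q⁻¹ := by group
      _ = a * q⁻¹ := by rw [← h1]; group
  have e0 : q * z * q⁻¹ = z * v := by
    rw [hv]; simp only [← mul_assoc]; rw [hz, one_mul]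
  have el : lam⁻¹ * z * lam = z := by rw [mul_assoc, ← hl]; group
  have el' : lam * z * lam⁻¹ = z := by rw [hl]; group
  refine ⟨?_, ?_⟩
  · calc q⁻¹ * (lam * q * lam⁻¹) * a = q⁻¹ * (lam * q * lam⁻¹ * a) := by group
      _ = (q⁻¹ * a) * (lam * q * lam⁻¹) := by rw [h2]; group
      _ = _ := by rw [h1']; group
  · calc q⁻¹ * (lam * q * lam⁻¹) * z * (q⁻¹ * (lam * q * lam⁻¹))⁻¹
        = q⁻¹ * (lam * (q * (lam⁻¹ * z * lam) * q⁻¹) * lam⁻¹) * q := by group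
      _ = q⁻¹ * ((lam * z * lam⁻¹) * (lam * v * lam⁻¹)) * q := by rw [el, e0]; group
      _ = q⁻¹ * ((z * v) * a) * q := by rw [el', ha]; group
      _ = z * (q⁻¹ * a * q) := by rw [← e0]; group
      _ = z * a := by rw [h1']; group

theorem sq_of_conj {z a r : G} (hz : z * z = 1) (hza : a * z = z * a) (h : r * z * r⁻¹ = z * a) : a * a = 1 := by
  have : (z * a) * (z * a) = 1 := by
    rw [← h]
    calc r * z * r⁻¹ * (r * z * r⁻¹) = r * (z * z) * r⁻¹ := by group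
      _ = 1 := by rw [hz]; group
  calc a * a = (z * z) * a * a := by rw [hz, one_mul]
    _ = z * ((z * a) * a) := by group
    _ = z * ((a * z) * a) := by rw [hza]
    _ = 1 := by rw [← this]; group

/-- **LIFT0.** `z` an involution normalising `K` and centralising `L ≤ K`, `C_K(z) ≤ N(L)`; `q ∈ K`, `lam ∈ L` of odd
order, `v = z q z q⁻¹` with `v²` central in `K`, and `a = v⁻¹ v^lam ≠ 1` centralised by `q` and `q^lam`.  Then either
`z ~ z a` by an element of `C_K(a)`, `a ∈ L - Z(L)` an involution, or `z ~ z c` with `1 ≠ c ∈ Z(K)`, by the element `v`. -/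
theorem lift0 {K L : Subgroup G} {z : G} (hz : z * z = 1) (hzK : z ∈ 𝒩(K)) (hLK : L ≤ K)
    (hLz : L ≤ centralizer ({z} : Set G)) (hN : K ⊓ centralizer ({z} : Set G) ≤ 𝒩(L)) {q lam v a : G} (hq : q ∈ K)
    (hl : lam ∈ L) (hodd : Odd (orderOf lam)) (hv : v = z * q * z * q⁻¹) (hv2 : v * v ∈ 𝒞(K))
    (ha : a = v⁻¹ * (lam * v * lam⁻¹)) (ha1 : a ≠ 1) (h1 : q * a = a * q)
    (h2 : lam * q * lam⁻¹ * a = a * (lam * q * lam⁻¹)) :
    (a ∈ L ∧ a ∉ 𝒞(L) ∧ a ≠ 1 ∧ a * a = 1 ∧ ∃ r ∈ K, r * a = a * r ∧ r * z * r⁻¹ = z * a) ∨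
      (v ∈ K ∧ ∃ c ∈ K ⊓ 𝒞(K), c ≠ 1 ∧ v * z * v⁻¹ = z * c) := by
  have hzi : z⁻¹ = z := inv_eq_of_mul_eq_one_right hz
  have hvK : v ∈ K := by
    have := K.mul_mem (conj_mem hzK hq) (K.inv_mem hq)
    rwa [hzi, ← hv] at this
  have hzv : z * v * z = v⁻¹ := by
    rw [hv]
    calc z * (z * q * z * q⁻¹) * z = (z * z) * (q * z * q⁻¹ * z) := by group
      _ = q * z⁻¹ * q⁻¹ * z⁻¹ := by rw [hz, hzi, one_mul]
      _ = _ := by group
  have hlz : lam * z = z * lam := mem_centralizer_singleton_iff.1 (hLz hl)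
  by_cases hvv : v * v = 1
  · left
    have hvz : v * z = z * v := by
      have : v⁻¹ = v := inv_eq_of_mul_eq_one_right hvv
      calc v * z = (z * v * z) * z := by rw [hzv, this]
        _ = z * v * (z * z) := by group
        _ = z * v := by rw [hz, mul_one]
    have hvN : v ∈ 𝒩(L) := hN ⟨hvK, mem_centralizer_singleton_iff.2 hvz⟩
    have haL : a ∈ L := by
      have := L.mul_mem (conj_mem' hvN hl) (L.inv_mem hl)
      rw [ha]; convert this using 1; group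
    obtain ⟨e1, e2⟩ := core hz hlz hv ha h1 h2
    have haa : a * a = 1 := sq_of_conj hz (mem_centralizer_singleton_iff.1 (hLz haL)) e2
    refine ⟨haL, fun hc => ha1 ?_, ha1, haa, _, K.mul_mem (K.inv_mem hq)
      (K.mul_mem (K.mul_mem (hLK hl) hq) (K.inv_mem (hLK hl))), e1, e2⟩
    have hc' : Commute a lam := (comm_of_mem hc hl).symm
    have e3 : v⁻¹ * lam * v⁻¹⁻¹ = a * lam := by rw [ha]; group
    have e4 : a ^ orderOf lam = 1 := by
      have : (a * lam) ^ orderOf lam = 1 := by rw [← e3, conj_pow, pow_orderOf_eq_one]; group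
      rwa [hc'.mul_pow, pow_orderOf_eq_one, mul_one] at this
    obtain ⟨k, hk⟩ := hodd
    rwa [hk, pow_succ, pow_mul, pow_two, haa, one_pow, one_mul] at e4
  · right
    refine ⟨hvK, (v * v)⁻¹, ⟨K.inv_mem (K.mul_mem hvK hvK), Subgroup.inv_mem _ hv2⟩, fun h => hvv (inv_eq_one.1 h), ?_⟩
    calc v * z * v⁻¹ = (z * z) * v * z * v⁻¹ := by rw [hz, one_mul]
      _ = z * ((z * v * z) * v⁻¹) := by group
      _ = z * (v * v)⁻¹ := by rw [hzv]; group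

/-- **LIFT0 in the quotient.** `π : K → X` with kernel the centre of `K` (of exponent dividing `n`), `α` the map induced by
`z`.  All hypotheses on `q`, `s`, `s'` are equations in `X`. -/
theorem lift0_quot {K L : Subgroup G} {z : G} (hz : z * z = 1) (hzK : z ∈ 𝒩(K)) (hLK : L ≤ K)
    (hLz : L ≤ centralizer ({z} : Set G)) (hN : K ⊓ centralizer ({z} : Set G) ≤ 𝒩(L)) {n : ℕ}
    (hn : ∀ c ∈ K ⊓ 𝒞(K), c ^ n = 1) {X : Type*} [Group X] (π : K →* X) (hπ : Function.Surjective π)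
    (hker : ∀ k : K, π k = 1 ↔ (k : G) ∈ 𝒞(K)) (α : X → X)
    (hα : ∀ k k' : K, (k' : G) = z * k * z⁻¹ → π k' = α (π k)) {lam : K} (hl : (lam : G) ∈ L)
    (hodd : Odd (orderOf (lam : G))) {q s s' v a : X} (hv : v = α q * q⁻¹) (hv2 : v * v = 1)
    (ha : a = v⁻¹ * (π lam * v * (π lam)⁻¹)) (ha1 : a ≠ 1) (hs : s ^ n = a) (hs' : s' ^ n = a)
    (hsq : q * s = s * q) (hsq' : π lam * q * (π lam)⁻¹ * s' = s' * (π lam * q * (π lam)⁻¹)) :
    (∃ a' : K, π a' = a ∧ (a' : G) ∈ L ∧ (a' : G) ∉ 𝒞(L) ∧ (a' : G) ≠ 1 ∧ (a' : G) * a' = 1 ∧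
        ∃ r ∈ K, r * a' = a' * r ∧ r * z * r⁻¹ = z * a') ∨
      (∃ v' : K, π v' = v ∧ ∃ c ∈ K ⊓ 𝒞(K), c ≠ 1 ∧ v' * z * (v' : G)⁻¹ = z * c) := by
  have hzi : z⁻¹ = z := inv_eq_of_mul_eq_one_right hz
  obtain ⟨q, rfl⟩ := hπ q
  obtain ⟨s, rfl⟩ := hπ s
  obtain ⟨s', rfl⟩ := hπ s'
  let qz : K := ⟨z * q * z⁻¹, conj_mem hzK q.2⟩
  let v' : K := qz * q⁻¹
  have hv' : π v' = v := by rw [hv, map_mul, map_inv, hα q qz rfl]
  let a' : K := v'⁻¹ * (lam * v' * lam⁻¹)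
  have ha' : π a' = a := by rw [ha, ← hv']; simp [a']
  have hvG : (v' : G) = z * q * z * (q : G)⁻¹ := by simp [v', qz, hzi]
  have haG : (a' : G) = (v' : G)⁻¹ * (lam * v' * (lam : G)⁻¹) := by simp [a']
  have c1 : (q : G) * a' = a' * q := by
    refine comm_of_pow hn s.2 q.2 ?_ ?_
    · have := (hker ((s ^ n)⁻¹ * a')).1 (by rw [map_mul, map_inv, map_pow, hs, ha', inv_mul_cancel])
      simpa using this
    · have := (hker (s⁻¹ * (q * s * q⁻¹))).1 (by simp only [map_mul, map_inv]; rw [hsq]; group)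
      simpa using this
  have c2 : (lam : G) * q * (lam : G)⁻¹ * a' = a' * (lam * q * (lam : G)⁻¹) := by
    refine comm_of_pow hn s'.2 (lam * q * lam⁻¹).2 ?_ ?_
    · have := (hker ((s' ^ n)⁻¹ * a')).1 (by rw [map_mul, map_inv, map_pow, hs', ha', inv_mul_cancel])
      simpa using this
    · have := (hker (s'⁻¹ * ((lam * q * lam⁻¹) * s' * (lam * q * lam⁻¹)⁻¹))).1 (by
        rw [map_mul, map_mul, map_mul, map_inv, map_inv, map_mul, map_mul, map_inv, hsq']; group)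
      simpa using this
  have c3 : (v' : G) * v' ∈ 𝒞(K) := by
    have := (hker (v' * v')).1 (by rw [map_mul, hv', hv2])
    simpa using this
  have c4 : (a' : G) ≠ 1 := fun h => ha1 (by rw [← ha', show a' = 1 from Subtype.ext h, map_one])
  rcases lift0 hz hzK hLK hLz hN q.2 hl hodd hvG c3 haG c4 c1 c2 with h | h
  · exact Or.inl ⟨a', ha', h⟩
  · exact Or.inr ⟨v', hv', h.2⟩

/-- **Soft existence of `q`.** `F ≤ C(z)`, `H` Sylow in `C_K(z) ∩ C(F)` but not in `C_K(F)`: there is `q ∈ C_K(F)` with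
`q z q⁻¹ = z v`, `v` an involution in the centre of `H`. -/
theorem exists_q [Finite G] {K F H : Subgroup G} {z : G} (hz : z * z = 1) (hzK : z ∈ 𝒩(K)) (hzF : z ∈ 𝒞(F))
    (hH : IsSylowIn 2 H (K ⊓ 𝒞(F) ⊓ centralizer ({z} : Set G))) (hns : ¬ IsSylowIn 2 H (K ⊓ 𝒞(F))) :
    ∃ q ∈ K ⊓ 𝒞(F), ∃ v ∈ H ⊓ 𝒞(H), v ≠ 1 ∧ v * v = 1 ∧ q * z * q⁻¹ = z * v ∧ q ∈ 𝒩(H) ∧ ∃ k, q ^ 2 ^ k = 1 := by
  haveI : Fact (Nat.Prime 2) := ⟨Nat.prime_two⟩
  set M := K ⊓ 𝒞(F) with hM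
  have hzi : z⁻¹ = z := inv_eq_of_mul_eq_one_right hz
  have hzM : zpowers z ≤ 𝒩(M) :=
    le_norm_inf (zpowers_le.2 hzK) (zpowers_le.2 (norm_le_norm_cent F (cent_le_norm F hzF)))
  have hzH : z ∈ 𝒞(H) := fun h hh => mem_centralizer_singleton_iff.1 (hH.1 hh).2
  have hz2 : IsPGroup 2 (zpowers z) := isPGroup_zpowers (k := 1) (by rw [pow_one, pow_two, hz])
  have hP : IsPGroup 2 (H ⊔ zpowers z : Subgroup G) := isPGroup_sup' hH.2.1 hz2 (zpowers_le.2 (cent_le_norm H hzH))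
  have hHM : H ≤ M := hH.1.trans inf_le_left
  obtain ⟨S, hS, hPS⟩ := exists_isSylowIn_ge hP (sup_le_sup_right hHM (zpowers z))
  have hS0 : IsSylowIn 2 (S ⊓ M) M :=
    hS.inf_of_normalized le_sup_left (sup_le (le_norm_of_le le_rfl) hzM)
  have hPz : H ⊔ zpowers z ≤ centralizer ({z} : Set G) :=
    sup_le (hH.1.trans inf_le_right) (zpowers_le.2 (mem_centralizer_singleton_iff.2 rfl))
  have hE : S ⊓ M ⊓ centralizer ({z} : Set G) = H :=
    hH.eq_of_le (hS.2.1.to_le (inf_le_left.trans inf_le_left))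
      (le_inf (le_inf (le_sup_left.trans hPS) hHM) (le_sup_left.trans hPz))
      (inf_le_inf_right _ inf_le_right)
  have hlt : H ⊔ zpowers z < S := by
    refine lt_of_le_of_ne hPS fun e => hns ?_
    have : S ⊓ M = H := by
      rw [← hE]; exact (inf_eq_left.2 (inf_le_left.trans (e ▸ hPz))).symm
    rwa [this] at hS0
  obtain ⟨q0, ⟨hq0S, hq0N⟩, hq0P⟩ := SetLike.exists_of_lt (lt_inf_normalizer_of_isPGroup hS.2.1 hlt)
  obtain ⟨q, hqM, y, hy, rfl⟩ := (mem_sup_nl hzM).1 (hS.1 hq0S)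
  have hyP : y ∈ H ⊔ zpowers z := mem_sup_right hy
  have hqS : q ∈ S := by simpa using S.mul_mem hq0S (S.inv_mem (hPS hyP))
  have hqN : q ∈ 𝒩(H ⊔ zpowers z) := by
    simpa using Subgroup.mul_mem _ hq0N (Subgroup.inv_mem _ (le_norm_of_le le_rfl hyP))
  have hqP : q ∉ H ⊔ zpowers z := fun h => hq0P (Subgroup.mul_mem _ h hyP)
  have hzP : z ∈ H ⊔ zpowers z := mem_sup_right (mem_zpowers z)
  have hPM : (H ⊔ zpowers z) ⊓ M = H := by
    refine le_antisymm ?_ (le_inf le_sup_left hHM)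
    rw [← hE]
    exact le_inf (inf_le_inf_right _ (by rw [hE]; exact hPS)) (inf_le_left.trans (by rw [hE]; exact hPz))
  have hqH : q ∈ 𝒩(H) := by
    rw [← hPM]
    exact zpowers_le.1 (le_norm_inf (zpowers_le.2 hqN) (zpowers_le.2 (le_norm_of_le le_rfl hqM)))
  have hvP : z * (q * z * q⁻¹) ∈ H ⊔ zpowers z := Subgroup.mul_mem _ hzP (conj_mem hqN hzP)
  have hvM : z * (q * z * q⁻¹) ∈ M := by
    have := M.mul_mem (conj_mem (hzM (mem_zpowers z)) hqM) (M.inv_mem hqM)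
    rw [hzi] at this
    convert this using 1; group
  have hvH : z * (q * z * q⁻¹) ∈ H := by rw [← hPM]; exact ⟨hvP, hvM⟩
  have hvC : z * (q * z * q⁻¹) ∈ 𝒞(H) :=
    Subgroup.mul_mem _ hzH (conj_mem (norm_le_norm_cent H hqH) hzH)
  have e0 : q * z * q⁻¹ = z * (z * (q * z * q⁻¹)) := by rw [← mul_assoc, hz, one_mul]
  refine ⟨q, hqM, _, ⟨hvH, hvC⟩, fun h => hqP ?_,
    sq_of_conj hz (mem_centralizer_singleton_iff.1 (hPz hvP)) e0, e0, hqH, isPGroup_iff_forall.1 hS.2.1 q hqS⟩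
  rw [h, mul_one] at e0
  refine mem_sup_left ?_
  rw [← hE]
  exact ⟨⟨hqS, hqM⟩, mem_centralizer_singleton_iff.2 (by rw [← mul_inv_eq_iff_eq_mul, e0])⟩

/-- **Soft lifting lemma.** `F ≤ L` with every non-trivial element of `F` moved by `N_L(F)`; `H` Sylow in `C_K(z) ∩ C(F)`
but not in `C_K(F)`, every involution of `Z(H)` in `F C(L)`.  Then `z ~ z a` by an element of `C_K(a)` with `a ∈ F - Z(L)`,
or `z ~ z e` by an element of `C_K(F)` with `e` an involution of `C_K(L)`. -/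
theorem soft [Finite G] {K L F H : Subgroup G} {z : G} (hz : z * z = 1) (hzK : z ∈ 𝒩(K)) (hLK : L ≤ K)
    (hLz : L ≤ centralizer ({z} : Set G)) (hFL : F ≤ L)
    (hF : ∀ f ∈ F, f ≠ 1 → ∃ lam ∈ L ⊓ 𝒩(F), lam * f ≠ f * lam)
    (hH : IsSylowIn 2 H (K ⊓ 𝒞(F) ⊓ centralizer ({z} : Set G))) (hns : ¬ IsSylowIn 2 H (K ⊓ 𝒞(F)))
    (hZ : ∀ v ∈ H ⊓ 𝒞(H), v * v = 1 → ∃ f ∈ F, ∃ e ∈ 𝒞(L), v = f * e) :
    (∃ a ∈ F, a ∉ 𝒞(L) ∧ a ≠ 1 ∧ a * a = 1 ∧ ∃ r ∈ K ⊓ 𝒞(F), r * a = a * r ∧ r * z * r⁻¹ = z * a) ∨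
      (∃ q ∈ K ⊓ 𝒞(F), ∃ e ∈ H ⊓ 𝒞(H) ⊓ 𝒞(L), e ≠ 1 ∧ e * e = 1 ∧ q * z * q⁻¹ = z * e) := by
  have hzF : z ∈ 𝒞(F) := fun f hf => mem_centralizer_singleton_iff.1 (hLz (hFL hf))
  obtain ⟨q, hq, v, hv, hv1, hvv, e0, -, -⟩ := exists_q hz hzK hzF hH hns
  obtain ⟨f, hf, e, he, rfl⟩ := hZ v hv hvv
  by_cases hf1 : f = 1
  · right
    subst hf1
    rw [one_mul] at hv hv1 hvv e0
    exact ⟨q, hq, e, ⟨hv, he⟩, hv1, hvv, e0⟩
  left
  obtain ⟨lam, ⟨hl, hlF⟩, hne⟩ := hF f hf hf1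
  have hlz : lam * z = z * lam := mem_centralizer_singleton_iff.1 (hLz hl)
  have hle : lam * e = e * lam := comm_of_mem he hl
  have hg : f⁻¹ * (lam * f * lam⁻¹) ∈ F := F.mul_mem (F.inv_mem hf) (conj_mem hlF hf)
  have ha : f⁻¹ * (lam * f * lam⁻¹) = (f * e)⁻¹ * (lam * (f * e) * lam⁻¹) := by
    have h1 := comm_of_mem he (hFL hg)
    calc f⁻¹ * (lam * f * lam⁻¹) = e⁻¹ * (e * (f⁻¹ * (lam * f * lam⁻¹))) := by group
      _ = e⁻¹ * (f⁻¹ * (lam * f * lam⁻¹) * e) := by rw [h1]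
      _ = (f * e)⁻¹ * (lam * f * lam⁻¹ * (e * lam) * lam⁻¹) := by group
      _ = _ := by rw [← hle]; group
  have hq' : lam * q * lam⁻¹ ∈ K ⊓ 𝒞(F) :=
    ⟨K.mul_mem (K.mul_mem (hLK hl) hq.1) (K.inv_mem (hLK hl)), conj_mem (norm_le_norm_cent F hlF) hq.2⟩
  have hv' : f * e = z * q * z * q⁻¹ := by
    calc f * e = z * (z * (f * e)) := by rw [← mul_assoc, hz, one_mul]
      _ = _ := by rw [← e0]; group
  obtain ⟨e1, e2⟩ := core hz hlz hv' ha (comm_of_mem hq.2 hg).symm (comm_of_mem hq'.2 hg).symm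
  have ha1 : f⁻¹ * (lam * f * lam⁻¹) ≠ 1 := fun h => hne (by
    have : lam * f * lam⁻¹ = f := (inv_mul_eq_one.1 h).symm
    rw [← mul_inv_eq_iff_eq_mul, this])
  obtain ⟨mu, hmu, hne'⟩ := hF _ hg ha1
  exact ⟨_, hg, fun hc => hne' (comm_of_mem hc hmu.1), ha1,
    sq_of_conj hz (mem_centralizer_singleton_iff.1 (hLz (hFL hg))) e2, _,
    Subgroup.mul_mem _ (Subgroup.inv_mem _ hq) hq', e1, e2⟩

end CL.Q49.Lift
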