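/-
Project Q49, cover tables: passing to the simple quotient.
-/
import Cfsg.Agent.Q49.Defs
import Cfsg.Agent.Q49.Lift0
import Cfsg.Agent.Q49.CovDefs
import Cfsg.Agent.Q16.Core0
import Cfsg.Agent.K.Inv0

set_option autoImplicit false
set_option linter.unusedSectionVars false

namespace CL.Q49c

open Cfsg Subgroup CL.Even CL.Grp CL.Loc CL.Ags CL.Q16 CL.Q49
open scoped commutatorElement

universe u

variable {G : Type u} [Group G] [Finite G] {K L : Subgroup G} {z : G} {X : Type*} [Group X] [Finite X]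

/-- the map onto the simple quotient and the induced automorphism -/
structure Pa (K : Subgroup G) (z : G) (π : K →* X) (α : MulAut X) : Prop where
  sj : Function.Surjective π
  ker : ∀ k : K, π k = 1 ↔ (k : G) ∈ 𝒞(K)
  cz : ∀ k k' : K, (k' : G) = z * k * z⁻¹ → π k' = α (π k)

theorem exists_pa (f : (K ⧸ center K) ≃* X) (hn : z ∈ 𝒩(K)) : ∃ (π : K →* X) (α : MulAut X), Pa K z π α := by
  let ψ : MulAut K := K.normalizerMonoidHom ⟨z, hn⟩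
  have hψ : (center K).map (ψ : K →* K) = center K := (characteristic_iff_map_eq.1 inferInstance) ψ
  refine ⟨f.toMonoidHom.comp (QuotientGroup.mk' _), (f.symm.trans (QuotientGroup.congr _ _ ψ hψ)).trans f,
    f.surjective.comp (QuotientGroup.mk'_surjective _), fun x => ?_, fun x x' hx => ?_⟩
  · have : (f.toMonoidHom.comp (QuotientGroup.mk' (center K))) x = 1 ↔ x ∈ center K := by simp
    rw [this, mem_center_iff]
    exact ⟨fun k y hy => congrArg Subtype.val (k ⟨y, hy⟩), fun k y => Subtype.ext (k y y.2)⟩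
  · obtain rfl : x' = ψ x := Subtype.ext hx
    simp

variable {π : K →* X} {α : MulAut X}

theorem Pa.kerc (h : Pa K z π α) : π.ker = center K := by
  ext x
  rw [MonoidHom.mem_ker, h.ker, mem_center_iff]
  exact ⟨fun k y => Subtype.ext (k y y.2), fun k y hy => congrArg Subtype.val (k ⟨y, hy⟩)⟩

theorem Pa.sq (h : Pa K z π α) (hz : z * z = 1) (hn : z ∈ 𝒩(K)) : α * α = 1 := MulEquiv.ext fun x => by
  obtain ⟨r, rfl⟩ := h.sj x
  have k1 := h.cz r ⟨_, conj_mem hn r.2⟩ rfl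
  have k2 := h.cz ⟨_, conj_mem hn r.2⟩ r (by
    show _ = z * (z * r * z⁻¹) * z⁻¹
    rw [inv_eq_of_mul_eq_one_right hz, ← mul_assoc, ← mul_assoc, hz, one_mul, mul_assoc, hz, mul_one])
  rw [k1] at k2
  exact k2.symm

theorem Pa.fix (h : Pa K z π α) (r : K) (hr : (r : G) ∈ Ce z) : π r ∈ fixA α :=
  (h.cz r r (by rw [eq_mul_inv_iff_mul_eq]; exact mem_centralizer_singleton_iff.1 hr)).symm

theorem Pa.fus (h : Pa K z π α) (hz : z * z = 1) (hn : z ∈ 𝒩(K)) (r : K) (hr : π r ∈ fixA α) :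
    ∃ c ∈ K, c ∈ 𝒞(K) ∧ r * z * (r : G)⁻¹ = z * c := by
  have hzi : z⁻¹ = z := inv_eq_of_mul_eq_one_right hz
  let k : K := ⟨z * r * z⁻¹, conj_mem hn r.2⟩
  refine ⟨(k * r⁻¹ : K), (k * r⁻¹).2, (h.ker _).1 (by
    rw [map_mul, map_inv, h.cz r k rfl, mem_fixA.1 hr, mul_inv_cancel]), ?_⟩
  show _ = z * (z * r * z⁻¹ * (r : G)⁻¹)
  rw [hzi, ← mul_assoc, ← mul_assoc, ← mul_assoc, hz, one_mul]

theorem Pa.fix' (h : Pa K z π α) (hz : z * z = 1) (hn : z ∈ 𝒩(K)) (r : K) {c : G} (hc : c ∈ 𝒞(K))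
    (e : r * z * (r : G)⁻¹ = z * c) : π r ∈ fixA α := by
  have hzi : z⁻¹ = z := inv_eq_of_mul_eq_one_right hz
  let k : K := ⟨z * r * z⁻¹, conj_mem hn r.2⟩
  have e1 : ((k * r⁻¹ : K) : G) = c := by
    show z * r * z⁻¹ * (r : G)⁻¹ = c
    calc z * r * z⁻¹ * (r : G)⁻¹ = z * (r * z * (r : G)⁻¹) := by rw [hzi]; group
      _ = c := by rw [e, ← mul_assoc, hz, one_mul]
  have := (h.ker (k * r⁻¹)).2 (e1 ▸ hc)
  rw [map_mul, map_inv, h.cz r k rfl, mul_inv_eq_one] at this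
  exact this

theorem Pa.nC (h : Pa K z π α) (hz : z * z = 1) (hn : z ∈ 𝒩(K)) (r : K) (hr : π r ∈ fixA α) :
    (r : G) ∈ 𝒩(K ⊓ Ce z) := by
  obtain ⟨c, -, hc, e⟩ := h.fus hz hn r⁻¹ (by rw [map_inv]; exact inv_mem hr)
  refine mem_norm_of_cj_le ?_
  rintro _ ⟨x, hx, rfl⟩
  refine ⟨K.mul_mem (K.mul_mem r.2 hx.1) (K.inv_mem r.2), mem_centralizer_singleton_iff.2 ?_⟩
  have e1 : x * z = z * x := mem_centralizer_singleton_iff.1 hx.2
  have e2 : x * c = c * x := comm_of_mem hc hx.1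
  rw [coe_inv, inv_inv] at e
  show r * x * (r : G)⁻¹ * z = z * (r * x * (r : G)⁻¹)
  calc r * x * (r : G)⁻¹ * z = r * (x * ((r : G)⁻¹ * z * r)) * (r : G)⁻¹ := by group
    _ = r * (((r : G)⁻¹ * z * r) * x) * (r : G)⁻¹ := by rw [e, ← mul_assoc x, e1, mul_assoc z, e2, mul_assoc z]
    _ = _ := by group

/-- the image of a subgroup -/
def im (π : K →* X) (L : Subgroup G) : Subgroup X := (L.subgroupOf K).map π

theorem mem_im {x : K} (hx : (x : G) ∈ L) : π x ∈ im π L := ⟨x, hx, rfl⟩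

theorem Pa.inj (h : Pa K z π α) (hL : L ⊓ 𝒞(L) = ⊥) (hLK : L ≤ K) {x y : K} (hx : (x : G) ∈ L) (hy : (y : G) ∈ L)
    (e : π x = π y) : x = y := by
  have := (h.ker (x⁻¹ * y)).1 (by rw [map_mul, map_inv, e, inv_mul_cancel])
  have k := mem_bot.1 (hL.le ⟨L.mul_mem (L.inv_mem hx) hy, centralizer_le hLK this⟩)
  exact Subtype.ext (inv_mul_eq_one.1 k)

theorem Pa.iso (h : Pa K z π α) (hL : L ⊓ 𝒞(L) = ⊥) (hLK : L ≤ K) : Nonempty (L ≃* im π L) := by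
  let ρ : L →* X := π.comp (inclusion hLK)
  have hρ : Function.Injective ρ := fun x y e =>
    Subtype.ext (congrArg (fun t : K => (t : G)) (h.inj hL hLK (x := inclusion hLK x) (y := inclusion hLK y) x.2 y.2 e))
  have : ρ.range = im π L := le_antisymm (by rintro _ ⟨x, rfl⟩; exact mem_im (x := inclusion hLK x) x.2)
    (by rintro _ ⟨x, hx, rfl⟩; exact ⟨⟨x, hx⟩, rfl⟩)
  exact ⟨(MonoidHom.ofInjective hρ).trans (MulEquiv.subgroupCongr this)⟩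

theorem simple_of (hq : IsQuasisimple L) (hL : L ⊓ 𝒞(L) = ⊥) : IsSimpleGroup L ∧ ¬ IsMulCommutative L := by
  have hc : center L = ⊥ := eq_bot_iff.2 fun x hx => Subtype.ext (mem_bot.1 (hL.le ⟨x.2, fun y hy =>
    congrArg Subtype.val (mem_center_iff.1 hx ⟨y, hy⟩)⟩))
  have hs : IsSimpleGroup L :=
    have := hq.2
    ((QuotientGroup.quotientMulEquivOfEq hc).trans QuotientGroup.quotientBot).symm.isSimpleGroup
  refine ⟨hs, fun k => ?_⟩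
  have : center L = ⊤ := eq_top_iff.2 fun x _ => mem_center_iff.2 fun y => k.1.1 _ _
  exact absurd (hc.symm.trans this) bot_ne_top

theorem Pa.simple (h : Pa K z π α) (p : Pr K L z) (hL : L ⊓ 𝒞(L) = ⊥) :
    IsSimpleGroup (im π L) ∧ ¬ IsMulCommutative (im π L) := by
  obtain ⟨ε⟩ := h.iso hL (p.cmp.le.trans inf_le_left)
  obtain ⟨h1, h2⟩ := simple_of p.cmp.2 hL
  exact ⟨ε.symm.isSimpleGroup, fun k => h2 ⟨⟨fun a b => ε.injective (by rw [map_mul, map_mul]; exact k.1.1 _ _)⟩⟩⟩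

theorem Pa.le (h : Pa K z π α) (hL : L ≤ Ce z) : im π L ≤ fixA α := by
  rintro _ ⟨x, hx, rfl⟩
  exact h.fix x (hL hx)

theorem Pa.cmp (h : Pa K z π α) (p : Pr K L z) (hL : L ⊓ 𝒞(L) = ⊥) : IsCompIn (im π L) (fixA α) := by
  have hLK : L ≤ K := p.cmp.le.trans inf_le_left
  have hP : SubnIn ((K ⊓ Ce z).subgroupOf K) ((fixA α).comap π) :=
    .of_le_normalizer (fun x hx => h.fix x hx.2) (le_normalizer_iff.2 fun r hr c hc =>
      conj_mem (H := K ⊓ Ce z) (h.nC p.iz.1 p.zn r hr) hc)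
  have hJ : IsCompIn (L.subgroupOf K) ((fixA α).comap π) :=
    ⟨(p.cmp.1.comap K.subtype).trans hP, (isQuasisimple_subgroupOf_iff hLK).2 p.cmp.2⟩
  have := hJ.map π fun e => by
    have k := (h.simple p hL).1.toNontrivial
    rw [im, e] at k
    exact not_nontrivial _ k
  rwa [map_comap_eq_self_of_surjective h.sj] at this

theorem Pa.not_char (h : Pa K z π α) (p : Pr K L z) (hL : L ⊓ 𝒞(L) = ⊥) : ¬ IsCharP 2 (fixA α) := fun c =>
  Core0.not_charP (h.cmp p hL).2 (c.of_subnIn (h.cmp p hL).1)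

theorem Pa.nrm (h : Pa K z π α) (p : Pr K L z) (hL : L ⊓ 𝒞(L) = ⊥)
    (nc : ∀ q : ℕ, q.Prime → q ≠ 2 → q ≠ 3 → ¬ q * q ∣ Nat.card (fixA α)) (r : K) (hr : π r ∈ fixA α) :
    (r : G) ∈ 𝒩(L) := by
  have hLK : L ≤ K := p.cmp.le.trans inf_le_left
  have hc : IsCompIn (cj (r : G) L) (K ⊓ Ce z) := p.cmp.conj_smul_of_mem_normalizer (h.nC p.iz.1 p.zn r hr)
  rcases hc.eq_or_commutator_eq_bot p.cmp with e | e
  · exact cj_eq_iff_mem.1 e
  exfalso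
  have e1 : cj (r : G) L ≤ 𝒞(L) := commutator_eq_bot_iff_le_centralizer.1 e
  have e2 : cj (π r) (im π L) ≤ 𝒞(im π L) := by
    rintro _ ⟨_, ⟨x, hx, rfl⟩, rfl⟩ _ ⟨y, hy, rfl⟩
    have := e1 (conj_mem_cj (r : G) hx) y hy
    show π y * (π r * π x * (π r)⁻¹) = π r * π x * (π r)⁻¹ * π y
    rw [← map_inv, ← map_mul, ← map_mul, ← map_mul, ← map_mul]
    exact congrArg π (Subtype.ext this)
  obtain ⟨s1, s2⟩ := h.simple p hL
  have e3 : cj (π r) (im π L) ⊓ im π L = ⊥ := eq_bot_iff.2 fun x hx => by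
    have : (⟨x, hx.2⟩ : im π L) ∈ center (im π L) := mem_center_iff.2 fun y => Subtype.ext (e2 hx.1 y y.2)
    rcases s1.eq_bot_or_eq_top_of_normal (center (im π L)) inferInstance with k | k
    · rw [k] at this
      exact congrArg Subtype.val (mem_bot.1 this)
    · exact absurd ⟨⟨fun a b => mem_center_iff.1 (k ▸ mem_top b) a⟩⟩ s2
  obtain ⟨q, hq, hd, q2, q3⟩ := CL.IV.exists_big_prime (IsQuasisimple.not_isSolvable (h.cmp p hL).2)
  refine nc q hq q2 q3 ((mul_dvd_mul (card_cj (π r) (im π L) ▸ hd) hd).trans ?_)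
  rw [← card_sup_of_inf_eq_bot (e2.trans (cent_le_norm _)) e3]
  refine card_dvd_of_le (sup_le ?_ (h.cmp p hL).le)
  rintro _ ⟨x, hx, rfl⟩
  exact mul_mem (mul_mem hr ((h.cmp p hL).le hx)) (inv_mem hr)

theorem Pa.ne_one (h : Pa K z π α) (p : Pr K L z) : α ≠ 1 := by
  rintro rfl
  have hLK : L ≤ K := p.cmp.le.trans inf_le_left
  have k1 : K ≤ 𝒩(K ⊓ Ce z) := fun x hx => h.nC p.iz.1 p.zn ⟨x, hx⟩ rfl
  have k2 : IsCompIn L K := p.cmp.trans (.of_le_normalizer inf_le_left k1)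
  exact p.ne (k2.eq_of_le p.qs hLK le_rfl)

theorem Pa.zc (h : Pa K z π α) (p : Pr K L z) (hL : L ⊓ 𝒞(L) = ⊥)
    (nc : ∀ q : ℕ, q.Prime → q ≠ 2 → q ≠ 3 → ¬ q * q ∣ Nat.card (fixA α)) {r c : G} (hr : r ∈ K) (hc : c ∈ K ⊓ 𝒞(K))
    (c1 : c ≠ 1) (e : r * z * r⁻¹ = z * c) : ZC K L z :=
  ⟨r, hr, h.nrm p hL nc ⟨r, hr⟩ (h.fix' p.iz.1 p.zn ⟨r, hr⟩ hc.2 e), c, hc.1, hc.2, c1, e⟩

/-- from the output of the lifting lemma to the table -/
theorem Pa.fin (h : Pa K z π α) (p : Pr K L z) (hL : L ⊓ 𝒞(L) = ⊥)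
    (nc : ∀ q : ℕ, q.Prime → q ≠ 2 → q ≠ 3 → ¬ q * q ∣ Nat.card (fixA α))
    (one : ∀ a ∈ L, ∀ b ∈ L, Inv a → Inv b → ∃ l ∈ L, l * a * l⁻¹ = b) {v a : G}
    (k : (a ∈ L ∧ a ∉ 𝒞(L) ∧ a ≠ 1 ∧ a * a = 1 ∧ ∃ r ∈ K, r * a = a * r ∧ r * z * r⁻¹ = z * a) ∨
      (v ∈ K ∧ ∃ c ∈ K ⊓ 𝒞(K), c ≠ 1 ∧ v * z * v⁻¹ = z * c)) : SW K L z ∨ ZC K L z := by
  rcases k with ⟨k1, k2, k3, k4, k5⟩ | ⟨k1, c, k2, k3, k4⟩
  · refine .inl ⟨a, k1, ⟨k4, k3⟩, k2, k5, fun x hx => ?_⟩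
    obtain ⟨l, hl, e⟩ := one a k1 _ (conj_mem hx k1) ⟨k4, k3⟩ ⟨by rw [conj_mul, k4]; group, by simpa using k3⟩
    exact ⟨l, hl, e.symm⟩
  · exact .inr (h.zc p hL nc k1 k2 k3 k4)

end CL.Q49c
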