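/-
Project Q49 (S1849): the simple quotient of a listed component, and transfer of the automorphism facts (job Q49-INOF,
helper27).
-/
import Cfsg.Agent.Q49.Defs
import Cfsg.Agent.Q16.Trans
import Cfsg.Agent.Cls.SLnBasic

set_option autoImplicit false

namespace CL.Q49

open Cfsg Subgroup CL.Even CL.Grp CL.Loc CL.Ags CL.Q16
open scoped commutatorElement

universe u

theorem evS_congr {X Y : Type*} [Group X] [Group Y] (e : X ≃* Y) (h : EvS X) : EvS Y := by
  have k : ∀ (W : Type) [Group W], Nonempty (X ≃* W) ↔ Nonempty (Y ≃* W) := fun W _ =>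
    ⟨fun ⟨a⟩ => ⟨e.symm.trans a⟩, fun ⟨a⟩ => ⟨e.trans a⟩⟩
  simpa only [EvS, IsChevSimple, IsLieTypeChar, IsPSLChar, IsPSpChar, IsPSUChar, IsPOmegaOddChar,
    IsPOmegaPlusChar, IsPOmegaMinusChar, IsExceptionalChevChar, IsTwistedE6D4Char, Lie.IsoSuzuki, Lie.Iso2F4,
    Lie.IsoRee, Lie.IsoTits, Spor.IsoM11, Spor.IsoM12, Spor.IsoM22, Spor.IsoM23, Spor.IsoM24, Spor.IsoJ2, Spor.IsoJ4,
    Spor.IsoHS, Spor.IsoRu, ne_eq, k] using h

namespace InOfx

variable {K : Type u} [Group K]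

theorem core_eq [Finite K] (hq : IsQuasisimple K) (hZ : IsPGroup 2 (center K)) : pCore 2 K = center K := by
  refine le_antisymm ((IsQuasisimple.normal_eq_top_or_le_center hq (pCore 2 K)).resolve_left fun h => ?_)
    (le_pCore_of inferInstance hZ)
  have h2 : IsPGroup 2 K := ((h ▸ pCore_isP : IsPGroup 2 (⊤ : Subgroup K))).of_equiv topEquiv
  haveI := h2.isNilpotent
  exact IsQuasisimple.not_isSolvable hq inferInstance

noncomputable def quo (h : center K = ⊥) : K ⧸ center K ≃* K :=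
  (QuotientGroup.quotientMulEquivOfEq h).trans QuotientGroup.quotientBot

theorem psl {F : Type} [Field F] {n : ℕ} (hq : IsQuasisimple K)
    (f : K ≃* Matrix.ProjectiveSpecialLinearGroup (Fin (n + 2)) F) : center K = ⊥ := by
  haveI : IsSimpleGroup (Matrix.ProjectiveSpecialLinearGroup (Fin (n + 2)) F) :=
    MulAction.IwasawaStructure.isSimpleGroup (IsQuasisimple.of_mulEquiv hq f).1.commutator_eq_top CL.SLn.iwasawa
      inferInstance
  haveI : IsSimpleGroup K := f.isSimpleGroup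
  exact (IsSimpleGroup.eq_bot_or_eq_top_of_normal (center K) inferInstance).resolve_right
    (IsQuasisimple.center_ne_top hq)

end InOfx

open InOfx in
theorem evOf : EvOf.{u} := by
  intro K _ _ hq hZ h
  have e := QuotientGroup.quotientMulEquivOfEq (core_eq hq hZ)
  rcases h with ⟨h, -⟩ | (⟨F, _, _, hF, ⟨f⟩⟩ | ⟨F, _, _, hF, ⟨f⟩⟩) | h
  · exact evS_congr e (.inl h)
  · exact .inr (.inl ⟨F, _, _, hF, ⟨(quo (psl (n := 1) hq f)).trans f⟩⟩)
  · exact .inr (.inr (.inl ⟨F, _, _, hF, ⟨(quo (psl (n := 0) hq f)).trans f⟩⟩))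
  · exact evS_congr e (.inr (.inr (.inr h)))

open InOfx Tr0 in
theorem inOf (h1 : I1A.{u}) (h2 : OAA.{u}) : InOf.{u} := by
  intro G _ _ L hq hZ h
  have hc : center L = ⊥ := eq_bot_iff.2 fun x hx => Subtype.ext (hZ.le
    ⟨x.2, mem_centralizer_iff.2 fun y hy => congrArg Subtype.val (mem_center_iff.1 hx ⟨y, hy⟩)⟩)
  have hs := IsQuasisimple.isSimpleGroup_of_center_eq_bot hq hc
  have hn : ¬ IsMulCommutative L := fun hm => IsQuasisimple.not_isSolvable hq (isSolvable_of_comm hm.1.1)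
  have ev := evS_congr (quo hc) (evOf L hq (hc ▸ IsPGroup.of_bot) h)
  refine ⟨(h1 L hs hn ev).imp_left fun t U hU w hw w2 hU' => ?_, fun D hD hN => commutator_le.2 fun a ha b hb => ?_⟩
  · obtain ⟨k, e⟩ := t _ (sq hw w2) _ (syl hU) fun s hs' => Subtype.ext (conj_eq_of_mem hU' hs')
    exact mem e
  · obtain ⟨k, e⟩ := h2 L hs hn ev ((D.subgroupOf 𝒩(L)).map L.normalizerMonoidHom) (hD.comap_subtype.map _)
      _ ⟨⟨a, hN ha⟩, ha, rfl⟩ _ ⟨⟨b, hN hb⟩, hb, rfl⟩
    rw [← map_commutatorElement] at e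
    exact mem e

end CL.Q49
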