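/-
Project Q49: the table for `L₃(4)` and its covers with elementary abelian centre.
-/
import Cfsg.Agent.Q49.CovRed
import Cfsg.Agent.Q49.CovL34El
import Cfsg.Agent.Q49.CovL34Fix
import Cfsg.Agent.Q49.InOf
import Cfsg.Agent.Grp.PNilpFrob
import Cfsg.Agent.Grp.Frob2
import Cfsg.Agent.Grp.ZJ
import Cfsg.Agent.Transfer.Control
import Cfsg.Agent.Odd.FT
import Cfsg.Agent.Gold.C2Eight
import Cfsg.Agent.S0364

set_option autoImplicit false
set_option linter.unusedSectionVars false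

namespace CL.Q49c

open Cfsg Subgroup CL.Even CL.Grp CL.Loc CL.Ags CL.Q16 CL.Q49
open scoped commutatorElement

universe u

namespace TL

section abs
variable {Y : Type*} [Group Y] [Finite Y]

theorem ic (P : Subgroup Y) : IC (P ⊓ 𝒞(P)) := fun a ha _ hb _ _ => hb.2 a ha.1

/-- an element of odd prime order and a maximal invariant elementary abelian 2-subgroup -/
theorem exists_F (hs : ¬ Group.IsSolvable Y) : ∃ (F : Subgroup Y) (h : Y), (orderOf h).Prime ∧ orderOf h ≠ 2 ∧ F ≠ ⊥ ∧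
    (∀ a ∈ F, a * a = 1) ∧ h ∈ 𝒩(F) ∧ ∀ E : Subgroup Y, F ≤ E → (∀ a ∈ E, a * a = 1) → h ∈ 𝒩(E) → E ≤ F := by
  have : Fact (Nat.Prime 2) := ⟨Nat.prime_two⟩
  obtain ⟨P⟩ : Nonempty (Sylow 2 Y) := inferInstance
  have hn : ¬ HasNormalPComplement 2 Y := by
    rintro ⟨P', N, hN, hc⟩
    have h1 : Group.IsSolvable N := CL.Odd.feit_thompson (by
      rw [← hc.index_eq_card, ← Nat.not_even_iff_odd, even_iff_two_dvd]; exact P'.not_dvd_index)
    have h2 := P'.isPGroup'.isNilpotent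
    have h3 : Group.IsSolvable (Y ⧸ N) :=
      Group.isSolvable_of_surjective (f := hc.symm.QuotientMulEquiv.symm.toMonoidHom)
        hc.symm.QuotientMulEquiv.symm.surjective
    exact hs ((Group.isSolvable_iff_subgroup_quotient N).2 ⟨h1, h3⟩)
  obtain ⟨Q, hQP, q, k, g0, hq', hq2, ho, hgN, hgC⟩ := exists_primePow_not_mem_centralizer P hn
  have hQ : Q ≠ ⊥ := by
    rintro rfl
    exact hgC fun y hy => by rw [mem_bot.1 hy, one_mul, mul_one]
  obtain ⟨k, rfl⟩ : ∃ k', k = k' + 1 := Nat.exists_eq_succ_of_ne_zero (by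
    rintro rfl
    rw [pow_zero, orderOf_eq_one_iff] at ho
    exact hgC (ho ▸ one_mem _))
  have hho : orderOf (g0 ^ q ^ k) = q := by
    rw [orderOf_pow' _ (pow_ne_zero _ hq'.ne_zero), ho, Nat.gcd_eq_right (pow_dvd_pow q k.le_succ), pow_succ,
      Nat.mul_div_cancel_left _ (pow_pos hq'.pos k)]
  have hhN := pow_mem hgN (q ^ k)
  generalize g0 ^ q ^ k = h at hho hhN
  have hQ2 := P.isPGroup'.to_le hQP
  obtain ⟨y, hy, iy⟩ := exists_inv_of_isP (hQ2.to_le inf_le_left) (self_inf_centralizer_ne_bot_of_isPGroup hQ2 hQ)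
  obtain ⟨F, ⟨f1, f2, f3⟩, hm⟩ := (wellFounded_gt (α := Subgroup Y)).has_min
    {E | E ≠ ⊥ ∧ (∀ a ∈ E, a * a = 1) ∧ h ∈ 𝒩(E)} ⟨Om (Q ⊓ 𝒞(Q)), fun e => iy.2 (mem_bot.1 (e ▸ mem_Om hy iy.1)),
      fun a ha => ((ic Q).mem_Om.1 ha).2,
      norm_Om (zpowers_le.1 (le_norm_inf (zpowers_le.2 hhN) (zpowers_le.2 (norm_le_norm_cent Q hhN))))⟩
  exact ⟨F, h, hho ▸ hq', hho ▸ hq2, f1, f2, f3, fun E e1 e2 e3 =>
    (eq_of_le_of_not_lt e1 (hm E ⟨fun e => f1 (le_bot_iff.1 (e ▸ e1)), e2, e3⟩)).ge⟩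

theorem eq_one {g h : Y} (hp : (orderOf h).Prime) (h2 : orderOf h ≠ 2) (hg : g ∈ zpowers h) (t : Two g) : g = 1 := by
  obtain ⟨k, hk⟩ := t
  exact orderOf_eq_one_iff.1 (Nat.Coprime.eq_one_of_dvd
    ((((Nat.coprime_primes hp Nat.prime_two).2 h2).pow_right k).coprime_dvd_left (orderOf_dvd_of_mem_zpowers hg))
    (orderOf_dvd_of_pow_eq_one hk))

/-- one class of involutions -/
theorem one (hs : IsSimpleGroup Y) (hc : ¬ IsMulCommutative Y) (cit : ∀ t g : Y, Inv t → g * t = t * g → Two g)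
    (h16 : ¬ 16 ∣ Nat.card Y) {F : Subgroup Y} {h : Y} (hp : (orderOf h).Prime) (h2 : orderOf h ≠ 2) (f1 : F ≠ ⊥)
    (f2 : ∀ a ∈ F, a * a = 1) (f3 : h ∈ 𝒩(F)) (a b : Y) (ia : Inv a) (ib : Inv b) : ∃ l, l * a * l⁻¹ = b := by
  have : Fact (Nat.Prime 2) := ⟨Nat.prime_two⟩
  have fp : ∀ g ∈ zpowers h, ∀ x ∈ F, x ≠ 1 → g * x = x * g → g = 1 := fun g hg x hx x1 e =>
    eq_one hp h2 hg (cit x g ⟨f2 x hx, x1⟩ e)
  have hd := card_dvd_card_sub_one_of_fpf (zpowers_le.2 f3) fun g hg g1 => eq_bot_iff.2 fun x hx => by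
    by_contra x1
    exact g1 (fp g hg x hx.1 x1 (mem_centralizer_singleton_iff.1 hx.2).symm)
  rw [Nat.card_zpowers] at hd
  have hF : IsPGroup 2 F := isP_of_two fun x hx => two_of_sq (f2 x hx)
  obtain ⟨S, hS⟩ := hF.exists_le_sylow
  obtain ⟨m, hm⟩ := IsPGroup.iff_card.1 hF
  obtain ⟨n, hn⟩ := IsPGroup.iff_card.1 S.isPGroup'
  have n3 : n ≤ 3 := by
    by_contra k
    exact h16 ((pow_dvd_pow 2 (show 4 ≤ n by omega)).trans (hn ▸ card_subgroup_dvd_card (S : Subgroup Y)))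
  have mn : m ≤ n := (Nat.pow_dvd_pow_iff_le_right (by omega)).1 (hm ▸ hn ▸ card_dvd_of_le hS)
  have m0 : m ≠ 0 := by
    rintro rfl
    exact f1 (card_eq_one.1 hm)
  have hi := card_mul_relIndex hS
  have key : orderOf h = Nat.card F - 1 ∧ (F.relIndex S = 1 ∨ F.relIndex S = 2) := by
    rw [hm] at hd hi ⊢
    rw [hn] at hi
    have m3 : m ≤ 3 := mn.trans n3
    interval_cases m
    · exact absurd rfl m0
    · exact absurd (Nat.dvd_one.1 hd) hp.ne_one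
    · exact ⟨(Nat.prime_dvd_prime_iff_eq hp (by norm_num)).1 hd, by interval_cases n <;> omega⟩
    · exact ⟨(Nat.prime_dvd_prime_iff_eq hp (by norm_num)).1 hd, by interval_cases n; omega⟩
  have into : ∀ u : Y, Inv u → ∃ g, g * u * g⁻¹ ∈ F := fun u iu => by
    rcases key.2 with k | k
    · obtain ⟨g, hg⟩ := exists_conj_le_sylow S iu.two.isP
      exact ⟨g, relIndex_eq_one.1 k (hg (smul_mem_pointwise_smul u (MulAut.conj g) _ (mem_zpowers u)))⟩
    by_contra k1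
    obtain ⟨N, hN, k2, -⟩ := CL.Transfer.thompson_transfer (S : Subgroup Y) F
      (Nat.not_even_iff_odd.1 fun e => S.not_dvd_index (even_iff_two_dvd.1 e)) k u (by rw [pow_two, iu.1])
      fun g hg => k1 ⟨g, hg⟩
    rcases hs.eq_bot_or_eq_top_of_normal N hN with rfl | rfl
    · rw [index_bot] at k2
      have := isCyclic_of_prime_card k2
      exact hc inferInstance
    · rw [index_top] at k2
      omega
  have tr : ∀ x ∈ F, x ≠ 1 → ∀ y ∈ F, y ≠ 1 → ∃ l, l * x * l⁻¹ = y := fun x hx x1 y hy y1 => by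
    have e : (fun g : Y => g * x * g⁻¹) '' (zpowers h : Set Y) = (F : Set Y) \ {1} := by
      refine Set.eq_of_subset_of_ncard_le ?_ ?_ (Set.toFinite _)
      · rintro _ ⟨g, hg, rfl⟩
        exact ⟨conj_mem (zpowers_le.2 f3 hg) hx, by simpa using x1⟩
      · rw [Set.InjOn.ncard_image fun g hg g' hg' e => ?_, Set.ncard_sdiff_singleton_of_mem (one_mem F),
          ← Nat.card_coe_set_eq, ← Nat.card_coe_set_eq]
        · exact (key.1.symm.trans (Nat.card_zpowers h).symm).le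
        · refine (inv_mul_eq_one.1 (fp _ (mul_mem (inv_mem hg') hg) x hx x1 ?_)).symm
          have e' : g * x * g⁻¹ = g' * x * g'⁻¹ := e
          calc g'⁻¹ * g * x = g'⁻¹ * (g * x * g⁻¹) * g := by group
            _ = _ := by rw [e']; group
    obtain ⟨l, -, hl⟩ := e.ge (⟨hy, y1⟩ : y ∈ (F : Set Y) \ {1})
    exact ⟨l, hl⟩
  obtain ⟨g, hg⟩ := into a ia
  obtain ⟨g', hg'⟩ := into b ib
  obtain ⟨l, hl⟩ := tr _ hg (ia.conj g).2 _ hg' (ib.conj g').2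
  refine ⟨g'⁻¹ * l * g, ?_⟩
  calc g'⁻¹ * l * g * a * (g'⁻¹ * l * g)⁻¹ = g'⁻¹ * (l * (g * a * g⁻¹) * l⁻¹) * g' := by group
    _ = b := by rw [hl]; group

end abs

variable {G : Type u} [Group G] [Finite G] {K L : Subgroup G} {z : G} {X : Type*} [Group X] [Finite X]
  {π : K →* X} {α : MulAut X}

theorem main (h : Pa K z π α) (p : Pr K L z) (hL : L ⊓ 𝒞(L) = ⊥) (hZ : ∀ c ∈ center K, c * c = 1)
    (cit : ∀ t : X, orderOf t = 2 → IsPGroup 2 (centralizer ({t} : Set X))) (h16 : ¬ 16 ∣ Nat.card (fixA α))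
    (nc : ∀ q : ℕ, q.Prime → q ≠ 2 → q ≠ 3 → ¬ q * q ∣ Nat.card (fixA α))
    (el : ∀ E : Subgroup K, (∀ a ∈ E, a * a = 1) → 16 ∣ Nat.card ((𝒞(E)).map π)) : SW K L z ∨ ZC K L z := by
  have : Fact (Nat.Prime 2) := ⟨Nat.prime_two⟩
  have hz := p.iz.1
  have hLK : L ≤ K := p.cmp.le.trans inf_le_left
  have hLz : L ≤ Ce z := p.cmp.le.trans inf_le_right
  have cit1 : ∀ t ∈ K, t * t = 1 → t ∉ 𝒞(K) → ∀ g ∈ K, g * t = t * g → Two g := fun t ht t2 tK g hg e => by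
    obtain ⟨k, hk⟩ := Two.of_mem (x := π ⟨g, hg⟩) (cit (π ⟨t, ht⟩) (inv_iff.1 ⟨by
      rw [← map_mul, show (⟨t, ht⟩ * ⟨t, ht⟩ : K) = 1 from Subtype.ext t2, map_one], fun e => tK ((h.ker _).1 e)⟩))
      (mem_centralizer_singleton_iff.2 (by rw [← map_mul, ← map_mul]; exact congrArg π (Subtype.ext e)))
    have := hZ (⟨g, hg⟩ ^ 2 ^ k) (h.kerc ▸ (by rw [MonoidHom.mem_ker, map_pow, hk]))
    exact ⟨k + 1, by rw [pow_succ, pow_mul, pow_two]; exact congrArg Subtype.val this⟩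
  have nC : ∀ t ∈ L, t ≠ 1 → t ∉ 𝒞(K) := fun t ht t1 c => t1 (mem_bot.1 (hL.le ⟨ht, centralizer_le hLK c⟩))
  obtain ⟨s1, s2⟩ := simple_of p.cmp.2 hL
  obtain ⟨F₀, lam, l1, l2, f1, f2, f3, f4⟩ := exists_F (IsQuasisimple.not_isSolvable p.cmp.2)
  have one : ∀ a ∈ L, ∀ b ∈ L, Inv a → Inv b → ∃ l ∈ L, l * a * l⁻¹ = b := fun a ha b hb ia ib => by
    obtain ⟨ε⟩ := h.iso hL hLK
    obtain ⟨l, e⟩ := one s1 s2 (fun t g it e => by
        obtain ⟨k, hk⟩ := cit1 t (hLK t.2) (congrArg Subtype.val it.1) (nC t t.2 fun e => it.2 (Subtype.ext e)) g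
          (hLK g.2) (congrArg Subtype.val e)
        exact ⟨k, Subtype.ext hk⟩)
      (fun e => h16 (e.trans (Nat.card_congr ε.toEquiv ▸ card_dvd_of_le (h.le hLz)))) l1 l2 f1 f2 f3 ⟨a, ha⟩ ⟨b, hb⟩
      ⟨Subtype.ext ia.1, fun e => ia.2 (congrArg Subtype.val e)⟩ ⟨Subtype.ext ib.1, fun e => ib.2 (congrArg Subtype.val e)⟩
    exact ⟨l, l.2, congrArg Subtype.val e⟩
  have hFL : F₀.map L.subtype ≤ L := map_subtype_le _
  have g2 : ∀ a ∈ F₀.map L.subtype, a * a = 1 := by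
    rintro _ ⟨a, ha, rfl⟩
    exact congrArg Subtype.val (f2 a ha)
  have g3 : (lam : G) ∈ 𝒩(F₀.map L.subtype) := le_normalizer_map L.subtype (mem_map_of_mem _ f3)
  have g4 : ∀ E : Subgroup G, F₀.map L.subtype ≤ E → (∀ a ∈ E, a * a = 1) → (lam : G) ∈ 𝒩(E) →
      ∀ a ∈ L, a ∈ E → a ∈ F₀.map L.subtype := fun E e1 e2 e3 a ha ha' =>
    ⟨⟨a, ha⟩, f4 (E.subgroupOf L) (map_le_iff_le_comap.1 e1) (fun x hx => Subtype.ext (e2 _ hx))
      (le_normalizer_comap L.subtype e3) ha', rfl⟩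
  obtain ⟨f, hf, f0⟩ : ∃ f ∈ F₀.map L.subtype, f ≠ 1 := by
    obtain ⟨f, f0⟩ := ne_bot_iff_exists_ne_one.1 f1
    exact ⟨_, mem_map_of_mem _ f.2, fun e => f0 (Subtype.ext (Subtype.ext e))⟩
  generalize F₀.map L.subtype = F at hFL g2 g3 g4 hf
  have cm : F ≤ 𝒞(F) := fun y hy x hx => by
    have e1 := inv_eq_of_mul_eq_one_right (g2 x hx)
    have e2 := inv_eq_of_mul_eq_one_right (g2 y hy)
    have e3 := inv_eq_of_mul_eq_one_right (g2 _ (mul_mem hx hy))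
    rw [← e3, mul_inv_rev, e1, e2]
  have hM : IsPGroup 2 (K ⊓ 𝒞(F) : Subgroup G) := isP_of_two fun x hx =>
    cit1 f (hLK (hFL hf)) (g2 f hf) (nC f (hFL hf) f0) x hx.1 (hx.2 f hf).symm
  have hzF : z ∈ 𝒞(F) := fun f hf => mem_centralizer_singleton_iff.1 (hLz (hFL hf))
  obtain ⟨q, hq, v, hv, v1, v2, e0, -, -⟩ := Lift.exists_q (K := K) (F := F)
    (H := K ⊓ 𝒞(F) ⊓ centralizer ({z} : Set G)) hz p.zn hzF
    ⟨le_rfl, hM.to_le inf_le_left, by rw [relIndex_self]; omega⟩ fun hs => h16 ((el (F.subgroupOf K)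
      fun a ha => Subtype.ext (g2 _ ha)).trans (card_dvd_of_le (by
        rintro _ ⟨x, hx, rfl⟩
        refine h.fix x ((hs.eq_of_le hM inf_le_left le_rfl).le ⟨x.2, fun y hy => ?_⟩).2
        exact congrArg Subtype.val (hx ⟨y, hLK (hFL hy)⟩ hy))))
  have lz : (lam : G) ∈ Ce z := hLz lam.2
  have lF := norm_le_norm_cent F g3
  have lH : (lam : G) ∈ 𝒩(K ⊓ 𝒞(F) ⊓ centralizer ({z} : Set G)) := zpowers_le.1 (le_norm_inf (le_norm_inf
    (zpowers_le.2 (le_normalizer (hLK lam.2))) (zpowers_le.2 lF)) (zpowers_le.2 (le_normalizer lz)))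
  have FH : F ≤ K ⊓ 𝒞(F) ⊓ centralizer ({z} : Set G) := le_inf (le_inf (hFL.trans hLK) cm) (hFL.trans hLz)
  have FC : F ≤ 𝒞(K ⊓ 𝒞(F) ⊓ centralizer ({z} : Set G)) := fun y hy x hx => (hx.1.2 y hy).symm
  have vN : v ∈ 𝒩(L) := p.nrm ⟨hv.1.1.1, hv.1.2⟩
  have vK : v ∈ K := hv.1.1.1
  generalize K ⊓ 𝒞(F) ⊓ centralizer ({z} : Set G) = H at hv lH FH FC
  have lW : (lam : G) ∈ 𝒩(Om (H ⊓ 𝒞(H))) :=
    norm_Om (zpowers_le.1 (le_norm_inf (zpowers_le.2 lH) (zpowers_le.2 (norm_le_norm_cent H lH))))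
  have vW := mem_Om hv v2
  have aF : v⁻¹ * (lam * v * (lam : G)⁻¹) ∈ F := by
    refine g4 (Om (H ⊓ 𝒞(H))) (fun x hx => mem_Om ⟨FH hx, FC hx⟩ (g2 x hx)) (fun a ha => ((ic H).mem_Om.1 ha).2) lW _ ?_
      (mul_mem (inv_mem vW) (conj_mem lW vW))
    have := L.mul_mem (conj_mem' vN lam.2) (L.inv_mem lam.2)
    convert this using 1; group
  by_cases a1 : v⁻¹ * (lam * v * (lam : G)⁻¹) = 1
  · refine .inr (h.zc p hL nc hq.1 ⟨vK, ?_⟩ v1 e0)
    by_contra c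
    obtain ⟨k, hk⟩ := cit1 v vK v2 c lam (hLK lam.2) (mul_inv_eq_iff_eq_mul.1 (inv_mul_eq_one.1 a1).symm)
    exact l1.ne_one (orderOf_eq_one_iff.2 (eq_one l1 l2 (mem_zpowers lam) ⟨k, Subtype.ext hk⟩))
  refine h.fin p hL nc one (Lift.lift0 (q := q) (lam := lam) (v := v) hz p.zn hLK hLz p.nrm hq.1 lam.2
    (by rw [orderOf_coe]; exact l1.odd_of_ne_two l2) ?_ (v2 ▸ one_mem _) rfl a1 (hq.2 _ aF).symm
    (conj_mem lF hq.2 _ aF).symm)
  calc v = z * (z * v) := by rw [← mul_assoc, hz, one_mul]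
    _ = _ := by rw [← e0]; group

end TL

end CL.Q49c

namespace CL.Q49

open Cfsg Subgroup CL.Even CL.Grp CL.Loc CL.Ags CL.Q16 CL.Q49c

universe u

theorem tabL34 : Tab.{u} (fun X _ => IsoL34 X) := by
  intro G _ _ K L z p hL _ ⟨F, _, _, hF, ⟨f⟩⟩
  have : Finite (Matrix.ProjectiveSpecialLinearGroup (Fin 3) F) := Finite.of_equiv _ f.toEquiv
  obtain ⟨π, α, h⟩ := exists_pa f p.zn
  have cL : Nat.card (Matrix.ProjectiveSpecialLinearGroup (Fin 3) F) = 20160 := by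
    have := CL.Collapse.card_psl (F := F) 3
    rw [hF] at this
    simp only [Finset.prod_range_succ, Finset.range_zero, Finset.prod_empty, Nat.reduceSub, Nat.reduceGcd, Nat.reducePow,
      Nat.reduceMul, Nat.reduceAdd, Nat.reduceDiv] at this
    omega
  have hZ : ∀ c ∈ center K, c * c = 1 := by
    have ce := InOfx.core_eq p.qs p.z2
    have e := (QuotientGroup.quotientMulEquivOfEq ce).trans f
    have k : ∀ {W : Type} [Group W], (K ⧸ pCore 2 K) ≃* W → Nat.card W = 20160 := fun g =>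
      (Nat.card_congr (g.symm.trans e).toEquiv).trans cL
    rcases p.ev with ⟨-, -, -, k1⟩ | (⟨F', _, _, -, ⟨g⟩⟩ | ⟨F', _, _, -, ⟨g⟩⟩) |
      ⟨⟨g⟩⟩ | ⟨⟨g⟩⟩ | ⟨⟨g⟩⟩ | ⟨⟨g⟩⟩ | ⟨⟨g⟩⟩ | ⟨⟨g⟩⟩ | ⟨⟨g⟩⟩ | ⟨⟨g⟩⟩ | ⟨⟨g⟩⟩
    · intro c hc
      rw [← pow_two]
      exact (k1 ⟨F, _, _, hF, ⟨e⟩⟩).2 c (ce ▸ hc)
    · intro c hc
      rw [InOfx.psl (n := 1) p.qs g, mem_bot] at hc
      rw [hc, mul_one]
    · intro c hc
      rw [InOfx.psl (n := 0) p.qs g, mem_bot] at hc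
      rw [hc, mul_one]
    · exact absurd (CL.Spor.card_M11.symm.trans (k g)) (by norm_num)
    · exact absurd (CL.Spor.card_M12.symm.trans (k g)) (by norm_num)
    · exact absurd (CL.Spor.card_M22.symm.trans (k g)) (by norm_num)
    · exact absurd (CL.Spor.card_M23.symm.trans (k g)) (by norm_num)
    · exact absurd (Cfsg.Agent.S0364.result.symm.trans (k g)) (by norm_num)
    · exact absurd (CL.J2.card_J2.symm.trans (k g)) (by norm_num)
    · exact absurd (k g ▸ CL.J4Rep.dvd_card) (by norm_num)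
    · exact absurd (CL.Collapse.card_HS.symm.trans (k g)) (by norm_num)
    · exact absurd (CL.Ru.card_Ru.symm.trans (k g)) (by norm_num)
  refine TL.main h p hL hZ (l34Cit F hF) ((l34Fix F hF α (h.sq p.iz.1 p.zn)).resolve_left ?_) (fun q hq q2 q3 hd => ?_)
    (l34El F hF K π h.sj h.kerc hZ)
  · rintro ⟨k, rfl⟩
    have := p.qs.2
    have hs := f.symm.isSimpleGroup
    have k2 : k * k ∈ center _ := mem_center_iff.2 fun g => by
      have := DFunLike.congr_fun (h.sq p.iz.1 p.zn) g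
      rw [← map_mul, MulAut.conj_apply, MulAut.one_apply, mul_inv_eq_iff_eq_mul] at this
      exact this.symm
    have k3 : k * k = 1 := by
      rcases hs.eq_bot_or_eq_top_of_normal (center _) inferInstance with e | e
      · exact mem_bot.1 (e ▸ k2)
      · exact absurd ⟨⟨fun a b => f.injective (by
          rw [map_mul, map_mul]; exact mem_center_iff.1 (e ▸ mem_top (f b)) (f a))⟩⟩
          (IsQuasisimple.not_isMulCommutative_quotient p.qs)
    have k4 := l34Cit F hF k (inv_iff.1 ⟨k3, fun e => h.ne_one p (by rw [e, map_one])⟩)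
    have k5 := (k4.to_le (H := im π L) fun x hx => mem_centralizer_singleton_iff.2
      (mul_inv_eq_iff_eq_mul.1 (mem_fixA.1 ((h.cmp p hL).le hx))).symm).isNilpotent
    exact IsQuasisimple.not_isSolvable (h.cmp p hL).2 inferInstance
  · have hd' := hd.trans (card_subgroup_dvd_card _)
    rw [cL] at hd'
    have h1 : q ∣ 2 ^ 6 * 3 ^ 2 * 5 * 7 := (Dvd.intro _ rfl).trans hd'
    rcases (Nat.Prime.dvd_mul hq).1 h1 with k | k
    · rcases (Nat.Prime.dvd_mul hq).1 k with k | k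
      · rcases (Nat.Prime.dvd_mul hq).1 k with k | k
        · exact q2 ((Nat.prime_dvd_prime_iff_eq hq Nat.prime_two).1 (hq.dvd_of_dvd_pow k))
        · exact q3 ((Nat.prime_dvd_prime_iff_eq hq Nat.prime_three).1 (hq.dvd_of_dvd_pow k))
      · obtain rfl := (Nat.prime_dvd_prime_iff_eq hq (by norm_num)).1 k
        omega
    · obtain rfl := (Nat.prime_dvd_prime_iff_eq hq (by norm_num)).1 k
      omega

end CL.Q49
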