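/-
Project Q49: the tables with two more hypotheses.
-/
import Cfsg.Agent.Q49.Defs

set_option autoImplicit false

namespace CL.Q49

open Cfsg Subgroup CL.Even CL.Grp CL.Loc CL.Ags CL.Q16

universe u

/-- `z` centralises a Sylow 2-subgroup of `N_K(L)` -/
def Sy {G : Type u} [Group G] (K L : Subgroup G) (z : G) : Prop := ∃ U, U ≤ Ce z ∧ IsSylowIn 2 U (K ⊓ 𝒩(L))

def Tab2 (P : (X : Type u) → [Group X] → Prop) : Prop := ∀ (G : Type u) [Group G] [Finite G] (K L : Subgroup G) (z : G),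
  Pr K L z → L ⊓ 𝒞(L) = ⊥ → Cov K ∨ Exc K L z → Sy K L z → (∀ S, IsSylowIn 2 S K → z ∉ 𝒞(S)) →
    P (K ⧸ center K) → SW K L z ∨ ZC K L z

theorem Tab.tab2 {P : (X : Type u) → [Group X] → Prop} (h : Tab P) : Tab2 P :=
  fun G _ _ K L z a b c _ _ d => h G K L z a b c d

theorem SK.sy {G : Type u} [Group G] [Finite G] {T L K : Subgroup G} {z y : G} (h : SK T L K z y) : Sy K L z := by
  have nK : 𝒩(L) ⊓ Ce y ≤ 𝒩(K) := fun x hx => by
    have c := h.cK.conj_smul_of_mem_normalizer (le_normalizer hx.2)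
    rcases c.eq_or_commutator_eq_bot h.cK with e | e
    · exact cj_eq_iff_mem.1 e
    · exfalso
      have l1 : L ≤ cj x K := (cj_eq_iff_mem.2 hx.1).symm.le.trans (map_mono h.le)
      have : ⁅L, L⁆ = ⊥ := le_bot_iff.1 ((commutator_mono l1 h.le).trans e.le)
      exact h.cL.ne_bot (h.cL.commutator_self.symm.trans this)
  have s := h.sD.inf_of_normalized (N := K ⊓ 𝒩(L)) (inf_le_inf h.cK.1.le le_rfl |>.trans (inf_comm _ _).le)
    (fun x hx => cj_eq_iff_mem.1 (by
      have e1 := cj_eq_iff_mem.2 (nK hx)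
      have e2 := cj_eq_iff_mem.2 (le_normalizer (H := 𝒩(L)) hx.1)
      rw [map_inf _ _ _ (MulAut.conj x).injective]
      exact congrArg₂ _ e1 e2))
  exact ⟨_, inf_le_left.trans (inf_le_left.trans h.zc), s⟩

end CL.Q49
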