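/-
Project Q49: the diagonal pump-up does not occur.
-/
import Cfsg.Agent.Q49.Defs
import Cfsg.Agent.Q16.Core0
import Cfsg.Agent.Loc.Diagonal

set_option autoImplicit false

namespace CL.Q49

open Cfsg Subgroup CL.Even CL.Grp CL.Loc CL.Ags CL.Q16
open scoped commutatorElement

universe u

namespace GDg

variable {G : Type u} [Group G]

theorem exists_sq {H : Subgroup G} (k : ℕ) : ∀ x : G, x ^ 2 ^ k ∈ H → x ∉ H → ∃ n : ℕ, x ^ n ∉ H ∧ x ^ n * x ^ n ∈ H := by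
  induction k with
  | zero => intro x h1 h2; exact absurd (by simpa using h1) h2
  | succ k ih =>
    intro x h1 h2
    by_cases h : x * x ∈ H
    · exact ⟨1, by rwa [pow_one], by rwa [pow_one]⟩
    · obtain ⟨n, hn⟩ := ih (x ^ 2) (by rwa [← pow_mul, ← pow_succ']) (by rwa [sq])
      exact ⟨2 * n, by rw [pow_mul]; exact hn.1, by rw [pow_mul]; exact hn.2⟩

theorem exists_up [Finite G] {T : Subgroup G} {y : G} (hT : IsPGroup 2 T) (h : ¬ T ≤ Ce y) : ∃ h, Up T y h := by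
  have hlt : T ⊓ Ce y < T := lt_of_le_of_ne inf_le_left fun e => h (e ▸ inf_le_right)
  obtain ⟨x, hx, hx'⟩ := SetLike.exists_of_lt (lt_inf_normalizer_of_isPGroup hT hlt)
  obtain ⟨k, hk⟩ := Two.of_mem hT (mem_inf.1 hx).1
  obtain ⟨n, h1, h2⟩ := exists_sq (H := Ce y) k x (by rw [hk]; exact Subgroup.one_mem _)
    fun e => hx' (mem_inf.2 ⟨(mem_inf.1 hx).1, e⟩)
  exact ⟨x ^ n, Subgroup.pow_mem _ (mem_inf.1 hx).1 n, Subgroup.pow_mem _ (mem_inf.1 hx).2 n, h1, h2⟩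

variable {K : Subgroup G} {z : G}

theorem cent_of_center {k : K} (hk : k ∈ center K) : (k : G) ∈ 𝒞(K) :=
  fun y hy => congrArg Subtype.val (mem_center_iff.1 hk ⟨y, hy⟩)

theorem center_of_cent {k : K} (hk : (k : G) ∈ 𝒞(K)) : k ∈ center K :=
  mem_center_iff.2 fun y => Subtype.ext (hk y y.2)

theorem cent_of_diag (hp : ⁅K, K⁆ = K) (hc : ⁅K, cj z K⁆ = ⊥) {k : K} (h : diagHom hc k ∈ 𝒞(diagSub K z)) :
    (k : G) ∈ 𝒞(K) := by
  refine cent_of_cmt hp (le_normalizer k.2) fun l hl => ?_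
  have h1 : diagHom hc ⁅k, (⟨l, hl⟩ : K)⁆ = 1 := by
    rw [map_commutatorElement, cmt_eq_one]
    exact cm_of h (mem_diagSub hl)
  exact cent_of_center (ker_diagHom_le hc h1)

theorem diag_cent (hc : ⁅K, cj z K⁆ = ⊥) {k : K} (h : (k : G) ∈ 𝒞(K)) : diagHom hc k ∈ 𝒞(K ⊔ cj z K) := by
  rw [cent_sup]
  exact mem_inf.2 ⟨Subgroup.mul_mem _ h (commutator_eq_bot_iff'.1 hc (conj_mem_cj z k.2)),
    Subgroup.mul_mem _ (le_cent_iff.2 hc k.2) (mem_cent_conj z h)⟩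

theorem one_class (hc : ⁅K, cj z K⁆ = ⊥) (na : NA (K ⧸ center K))
    (h0 : ∀ k ∈ center K, diagHom hc k = 1) {a b : G} (ha : a ∈ diagSub K z) (hb : b ∈ diagSub K z)
    (ia : Inv a) (ib : Inv b) : ∃ l ∈ diagSub K z, l * a * l⁻¹ = b := by
  rw [diagSub_eq_range hc] at ha hb ⊢
  obtain ⟨k, rfl⟩ := ha
  obtain ⟨k', rfl⟩ := hb
  have key : ∀ k : K, Inv (diagHom hc k) → Inv (QuotientGroup.mk' (center K) k) := fun k ik =>
    ⟨by
      rw [← map_mul, QuotientGroup.mk'_apply, QuotientGroup.eq_one_iff]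
      exact ker_diagHom_le hc (by rw [MonoidHom.mem_ker, map_mul]; exact ik.1),
    fun e => ik.2 (h0 k ((QuotientGroup.eq_one_iff k).1 e))⟩
  obtain ⟨c, hc'⟩ := isConj_iff.1 (na.one _ _ (key k ia) (key k' ib))
  obtain ⟨x, rfl⟩ := QuotientGroup.mk'_surjective (center K) c
  rw [← map_inv, ← map_mul, ← map_mul, QuotientGroup.mk'_apply, QuotientGroup.mk'_apply, QuotientGroup.eq] at hc'
  refine ⟨diagHom hc x, ⟨x, rfl⟩, ?_⟩
  have := h0 _ hc'
  rw [map_mul, map_inv, inv_mul_eq_one, map_mul, map_mul, map_inv] at this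
  exact this

end GDg

open GDg

theorem gdg (h1 : GS.{u}) (h2 : InvK.{u}) : GDg.{u} := by
  intro G _ _ T L K z y S hK ne hL
  have zy : Commute z y := (Core0.mem_Ce.1 (S.zc S.yT)).symm
  have hK' : IsCompIn (cj z K) (Ce y) := hK.conj_smul_of_mem_normalizer (Core0.norm_Ce zy)
  have hc : ⁅K, cj z K⁆ = ⊥ := (hK.eq_or_commutator_eq_bot hK').resolve_left ne.symm
  have nT : ¬ T ≤ Ce y := fun e =>
    ne (cj_eq (S.nrm y 1 S.iy (by rwa [cj_one]) K hK (Core0.mem_Ce.2 zy)))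
  obtain ⟨h, up⟩ := exists_up S.syl.isPGroup nT
  have nq : NQ K := S.nq y S.iy K z hK zy ne
  have nz : Ce z ≤ 𝒩(L) := S.nrm z 1 S.iz (by rw [cj_one]; exact S.zc) L S.cL
  have TL : T ≤ 𝒩(L) := S.zc.trans nz
  have Ls : L ≤ K ⊔ cj z K := hL ▸ diagSub_le_sup
  have ZL : L ⊓ 𝒞(L) = ⊥ := by
    by_contra hne
    have hP : IsPGroup 2 (L ⊓ 𝒞(L) : Subgroup G) :=
      map_center_subtype_eq_inf L ▸ (S.gl.lk z S.iz L S.cL).1.map _
    obtain ⟨w, hw, iw⟩ := exists_inv_of_isP hP hne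
    obtain ⟨z0, hz0, i0, c0⟩ := exists_inv_cent S.syl.isPGroup (le_norm_inf TL (le_norm_cent TL)) hw iw
    have hlt : T ⊓ Ce y < T := lt_of_le_of_ne inf_le_left fun e => nT (e ▸ inf_le_right)
    have good : IsCompIn L (Ce z0) := S.good z0 i0 (mem_inf.1 hz0).2 T S.syl.isPGroup
      (le_inf TL fun t ht => Core0.mem_Ce.2 (cm_of c0 ht).symm)
      (Set.Finite.card_lt_card (Set.toFinite _) (SetLike.coe_ssubset_coe.2 hlt))
    obtain ⟨hz1, hz2⟩ := mem_inf.1 hz0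
    rw [hL] at hz1 hz2
    rw [diagSub_eq_range hc] at hz1
    obtain ⟨k, rfl⟩ := hz1
    have h3 := diag_cent hc (cent_of_diag hK.commutator_self hc hz2)
    have h4 : IsCompIn L (K ⊔ cj z K) := good.of_le Ls fun t ht => Core0.mem_Ce.2 (cm_of h3 ht).symm
    have h5 : IsCompIn K (K ⊔ cj z K) := hK.of_le le_sup_left (sup_le hK.le hK'.le)
    rcases h5.eq_or_commutator_eq_bot h4 with e | e
    · exact ne (cj_eq (e ▸ nz (Core0.mem_Ce.2 (Commute.refl z))))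
    · exact IsQuasisimple.not_le_centralizer hK.2
        ((le_inf le_rfl (hL ▸ le_cent_iff.2 e)).trans (inf_centralizer_diagSub_le hc))
  have h0 : ∀ k ∈ center K, diagHom hc k = 1 := fun k hk => by
    have : diagHom hc k ∈ L ⊓ 𝒞(L) :=
      mem_inf.2 ⟨hL ▸ mem_diagSub k.2, cent_mono Ls (diag_cent hc (cent_of_center hk))⟩
    rwa [ZL, mem_bot] at this
  obtain ⟨k, hk, ik, kc⟩ := h2 G K nq
  have aL : k * (z * k * z⁻¹) ∈ L := hL ▸ mem_diagSub hk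
  have a1 : k * (z * k * z⁻¹) ≠ 1 := fun e =>
    kc (cent_of_center (k := ⟨k, hk⟩) (ker_diagHom_le hc e))
  have cm : Commute k (z * k * z⁻¹) := cm_of (le_cent_iff.2 hc hk) (conj_mem_cj z hk)
  have ia : Inv (k * (z * k * z⁻¹)) := ⟨by
    calc k * (z * k * z⁻¹) * (k * (z * k * z⁻¹)) = k * ((z * k * z⁻¹) * k) * (z * k * z⁻¹) := by group
      _ = k * (k * (z * k * z⁻¹)) * (z * k * z⁻¹) := by rw [← cm.eq]
      _ = (k * k) * (z * (k * k) * z⁻¹) := by group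
      _ = 1 := by rw [ik.1]; group, a1⟩
  have ac : k * (z * k * z⁻¹) ∉ 𝒞(L) := fun e => by
    have : k * (z * k * z⁻¹) ∈ L ⊓ 𝒞(L) := mem_inf.2 ⟨aL, e⟩
    rw [ZL, mem_bot] at this
    exact a1 this
  obtain ⟨l, hl, e⟩ := one_class hc nq.na h0 (hL ▸ aL) (hL ▸ conj_mem (TL up.hT) aL) ia (ia.conj h)
  refine h1 G T L z y h S up _ aL ac k (hK.le hk) ((Commute.refl k).mul_right cm) ?_ l (hL ▸ hl) e.symm
  rw [cm.eq, ik.inv_eq]
  calc k * z * k = (z * z) * k * z * k := by rw [S.iz.1, one_mul]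
    _ = z * (z * k * z * k) := by group
    _ = _ := by rw [S.iz.inv_eq]

end CL.Q49
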