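/-
Project Q49: the involution `z` does not centralise a Sylow 2-subgroup of the pump-up.
-/
import Cfsg.Agent.Q49.Defs
import Cfsg.Agent.Loc.TW
import Cfsg.Agent.Char.Burnside

set_option autoImplicit false

namespace CL.Q49

open Cfsg Subgroup CL.Even CL.Grp CL.Loc CL.Ags CL.Q16
open scoped commutatorElement

universe u

namespace GI1x

instance : Fact (Nat.Prime 2) := ⟨Nat.prime_two⟩

theorem a6 {X : Type*} [Group X] [Finite X] [IsSimpleGroup X] (h : IsoA6 X) {S Y : Subgroup X} (hS : IsSylowIn 2 S ⊤)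
    (le : S ≤ Y) (ne : Y ≠ ⊤) : Group.IsSolvable Y := by
  have c : Nat.card X = 360 := by
    rw [Nat.card_congr h.some.toEquiv, nat_card_alternatingGroup, Nat.card_eq_fintype_card, Fintype.card_fin]; rfl
  have o : ¬ 2 ∣ Y.index := fun k => hS.not_dvd (by rw [relIndex_top_right]; exact k.trans (index_dvd_of_le le))
  have i1 : Y.index ≠ 1 := fun k => ne (index_eq_one.1 k)
  have f := CL.TW.index_normalCore_dvd Y
  rw [(IsSimpleGroup.eq_bot_or_eq_top_of_normal Y.normalCore inferInstance).resolve_right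
    fun k => ne (top_le_iff.1 (k ▸ Y.normalCore_le)), index_bot, c] at f
  have m := Y.card_mul_index
  rw [c] at m
  have d : Y.index ∈ Nat.divisors 360 := Nat.mem_divisors.2 ⟨Dvd.intro_left _ m, by norm_num⟩
  have : Y.index = 9 ∨ Y.index = 15 ∨ Y.index = 45 := by
    generalize Y.index = n at *
    rw [show Nat.divisors 360 = {1, 2, 3, 4, 5, 6, 8, 9, 10, 12, 15, 18, 20, 24, 30, 36, 40, 45, 60, 72, 90, 120, 180,
      360} by decide +kernel] at d
    simp only [Finset.mem_insert, Finset.mem_singleton] at d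
    have n3 : n ≠ 3 := by rintro rfl; revert f; decide
    have n5 : n ≠ 5 := by rintro rfl; revert f; decide
    omega
  rcases this with e | e | e <;> rw [e] at m
  · exact CL.Char.isSolvable_of_card_eq_pow_mul_pow (a := 3) (b := 1) Nat.prime_two Nat.prime_five (by omega)
  · exact CL.Char.isSolvable_of_card_eq_pow_mul_pow (a := 3) (b := 1) Nat.prime_two Nat.prime_three (by omega)
  · exact CL.Char.isSolvable_of_card_eq_pow_mul_pow (a := 3) (b := 0) Nat.prime_two Nat.prime_three (by omega)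

theorem dvd {X : Type*} [Group X] [Finite X] {S Y : Subgroup X} (hS : IsSylowIn 2 S ⊤) (le : S ≤ Y) {k : ℕ}
    (h : 2 ^ k ∣ Nat.card X) : 2 ^ k ∣ Nat.card Y := by
  rw [← S.card_mul_index] at h
  exact (Nat.Coprime.dvd_of_dvd_mul_right (Nat.Coprime.pow_left k ((Nat.Prime.coprime_iff_not_dvd Nat.prime_two).2
    (relIndex_top_right S ▸ hS.not_dvd))) h).trans (card_dvd_of_le le)

end GI1x

open GI1x in
theorem gi1 (h0 : EvOf.{u}) (h1 : I1A.{u}) (h2 : LKAll.{u}) (h3 : NC2.{u}) : GI1.{u} := by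
  intro G _ _ K L z p S hS zS
  have sim := p.qs.2
  let π := QuotientGroup.mk' (center K)
  let β : MulAut K := K.normalizerMonoidHom ⟨z, p.zn⟩
  have hβ : ∀ k : K, (β k : G) = z * k * z⁻¹ := fun _ => rfl
  let α : MulAut (K ⧸ center K) := QuotientGroup.congr _ _ β (characteristic_iff_map_eq.1 inferInstance β)
  have hα : ∀ k : K, α (π k) = π (β k) := fun _ => rfl
  have ker : ∀ k : K, π k = 1 → (k : G) ∈ 𝒞(K) := fun k e y hy =>
    congrArg Subtype.val (mem_center_iff.1 ((QuotientGroup.eq_one_iff k).1 e) ⟨y, hy⟩)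
  have fx : ∀ k : K, z * k = k * z → α (π k) = π k := fun k e => by
    rw [hα, show β k = k from Subtype.ext (by rw [hβ, e, mul_inv_cancel_right])]
  have αα : α * α = 1 := MulEquiv.ext fun x => by
    obtain ⟨k, rfl⟩ := QuotientGroup.mk'_surjective _ x
    change α (α (π k)) = π k
    rw [hα, hα, show β (β k) = k from Subtype.ext (by
      rw [hβ, hβ, show z * (z * k * z⁻¹) * z⁻¹ = z * z * k * (z * z)⁻¹ by group, p.iz.1]; group)]
  have LK' : L ≤ K := p.cmp.le.trans inf_le_left
  have α1 : α ≠ 1 := fun e => by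
    have : z ∈ 𝒞(K) := cent_of_cmt (IsQuasisimple.commutator_self p.qs) p.zn fun k hk => by
      have := ker (β ⟨k, hk⟩ * (⟨k, hk⟩ : K)⁻¹) (by rw [map_mul, map_inv, ← hα, e, MulAut.one_apply, mul_inv_cancel])
      exact this
    exact p.ne (p.cmp.eq_of_le p.qs LK' (le_inf le_rfl fun k hk => mem_centralizer_singleton_iff.2 (this k hk)))
  have sy : IsSylowIn 2 ((S.subgroupOf K).map π) ⊤ := by
    have := syl_map π (isSylowIn_top hS.toSylow)
    rwa [map_top_of_surjective _ (QuotientGroup.mk'_surjective _)] at this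
  have fS : ∀ s ∈ (S.subgroupOf K).map π, α s = s := by
    rintro _ ⟨s, hs, rfl⟩
    exact fx s (zS _ hs).symm
  have fL : ∀ l : K, (l : G) ∈ L → α (π l) = π l := fun l hl =>
    fx l (mem_centralizer_singleton_iff.1 (p.cmp.le hl).2).symm
  have nab := IsQuasisimple.not_isMulCommutative_quotient p.qs
  rcases h1 _ sim nab (h0 K p.qs p.z2 p.ev) with i1 | i6
  · obtain ⟨x, hx⟩ := i1 α αα _ sy fS
    have x1 : x ≠ 1 := fun e => α1 (by rw [hx, e, map_one])
    have xx : x * x = 1 := by
      have : x * x ∈ center (K ⧸ center K) := mem_center_iff.2 fun y => by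
        have := DFunLike.congr_fun αα y
        rw [hx, ← map_mul, MulAut.conj_apply, MulAut.one_apply] at this
        exact (mul_inv_eq_iff_eq_mul.1 this).symm
      rwa [(IsSimpleGroup.eq_bot_or_eq_top_of_normal (center _) inferInstance).resolve_right
        fun k => nab ⟨⟨fun a b => (mem_center_iff.1 (k.ge (mem_top b)) a)⟩⟩, mem_bot] at this
    have le : (S.subgroupOf K).map π ≤ centralizer {x} := fun s hs => mem_centralizer_singleton_iff.2 (by
      have := fS s hs
      rw [hx, MulAut.conj_apply] at this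
      exact (mul_inv_eq_iff_eq_mul.1 this).symm)
    have xS : x ∈ (S.subgroupOf K).map π := (sy.eq_of_le (isPGroup_sup' sy.isPGroup (two_of_sq xx).isP
      (zpowers_le.2 (cent_le_norm _ fun s hs => mem_centralizer_singleton_iff.1 (le hs)))) le_sup_left le_top).le
        (mem_sup_right (mem_zpowers x))
    obtain ⟨e, he, rfl⟩ := xS
    have ez : (e : G) * z = z * e := zS _ he
    have eL : (e : G) ∈ 𝒞(L) := cent_of_cmt p.cmp.commutator_self (p.nrm ⟨e.2, mem_centralizer_singleton_iff.2 ez⟩)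
      fun l hl => cent_mono LK' (ker (e * ⟨l, LK' hl⟩ * e⁻¹ * ⟨l, LK' hl⟩⁻¹) (by
        have := fL ⟨l, LK' hl⟩ hl
        rw [hx, MulAut.conj_apply] at this
        rw [map_mul, map_mul, map_mul, map_inv, map_inv, this, mul_inv_cancel]))
    rcases h2 K p.qs p.z2 p.ev _ (inv_iff.1 ⟨xx, x1⟩) with k | k | k | k
    · exact h3 G K L z p e eL ez k
    · exact absurd (k.1 ▸ dvd sy le (k := 6) k.2) (by norm_num)
    · exact absurd (k.1 ▸ dvd sy le (k := 8) k.2) (by norm_num)
    · exact absurd (k.1 ▸ dvd sy le (k := 10) k.2) (by norm_num)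
  · refine IsQuasisimple.not_le_of_isSolvable (IsQuasisimple.map ((isQuasisimple_subgroupOf_iff LK').2 p.cmp.2) π
      fun k => IsQuasisimple.not_le_centralizer p.cmp.2 fun l hl => cent_mono LK' (ker ⟨l, LK' hl⟩
        (mem_bot.1 (k.le ⟨_, hl, rfl⟩))))
      (a6 i6 (Y := fixA α) sy fS fun k => α1 (MulEquiv.ext fun x => mem_fixA.1 (k.ge (mem_top x)))) ?_
    rintro _ ⟨l, hl, rfl⟩
    exact fL l hl

end CL.Q49
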