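/-
Project Q49, part GM: the moving elements.
-/
import Cfsg.Agent.Q49.Defs

set_option autoImplicit false

namespace CL.Q49

open Cfsg Subgroup CL.Even CL.Grp CL.Loc CL.Ags CL.Q16

universe u

namespace GMx

variable {G : Type u} [Group G]

theorem mem_Ce {x y : G} : y ∈ Ce x ↔ Commute y x := mem_centralizer_singleton_iff

theorem up [Finite G] {D P : Subgroup G} (hP : IsPGroup 2 P) (h : D < P) :
    ∃ x ∈ P, x ∈ 𝒩(D) ∧ x ∉ D ∧ x * x ∈ D := by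
  have := Fact.mk Nat.prime_two
  obtain ⟨r, hr, hr'⟩ := SetLike.exists_of_lt (lt_inf_normalizer_of_isPGroup hP h)
  obtain ⟨k, hk⟩ := Two.of_mem hP hr.1
  have key : ∀ (k : ℕ) (r : G), r ∈ P → r ∈ 𝒩(D) → r ∉ D → r ^ 2 ^ k ∈ D →
      ∃ x ∈ P, x ∈ 𝒩(D) ∧ x ∉ D ∧ x * x ∈ D := fun k => by
    induction k with
    | zero => intro r _ _ h3 h4; exact absurd (by simpa using h4) h3
    | succ k ih =>
      intro r h1 h2 h3 h4
      by_cases h5 : r * r ∈ D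
      · exact ⟨r, h1, h2, h3, h5⟩
      · exact ih (r * r) (mul_mem h1 h1) (mul_mem h2 h2) h5 (by rwa [← pow_two, ← pow_mul, ← pow_succ'])
  exact key k r hr.1 hr.2 hr' (by rw [hk]; exact one_mem _)

theorem two_cent {L : Subgroup G} (h : IsPGroup 2 (center L)) : IsPGroup 2 (L ⊓ 𝒞(L) : Subgroup G) :=
  isP_of_two fun x hx => by
    obtain ⟨k, hk⟩ := h ⟨⟨x, hx.1⟩, mem_center_iff.2 fun g => Subtype.ext (cm_of hx.2 g.2).symm.eq⟩
    exact ⟨k, congrArg (fun a : center L => ((a : L) : G)) hk⟩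

end GMx

open GMx in
theorem gm (h1 : GI1.{u}) (h2 : ZL0.{u}) : GM.{u} := by
  intro G _ _ T L K z y h
  have := Fact.mk Nat.prime_two
  have hD : IsPGroup 2 (T ⊓ Ce y : Subgroup G) := h.sD.isPGroup
  obtain ⟨S, hS, -, hn⟩ := exists_syl_inv hD h.DK (A := ⊥) IsPGroup.of_bot bot_le (by
    intro x _; rw [← cj_eq_iff_mem, cj_bot])
  have hP : IsPGroup 2 (S ⊔ T ⊓ Ce y : Subgroup G) := isPGroup_sup' hS.isPGroup hD hn
  have Py : S ⊔ T ⊓ Ce y ≤ Ce y := sup_le (hS.le.trans h.cK.le) inf_le_right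
  have zN : Ce z ≤ 𝒩(L) := h.nrm z 1 h.iz (by rw [cj_one]; exact h.zc) L h.cL
  have Pz : (S ⊔ T ⊓ Ce y) ⊓ Ce z = T ⊓ Ce y :=
    h.sD.eq_of_le hP.to_inf_left (le_inf le_sup_right (inf_le_left.trans h.zc))
      (le_inf (inf_le_right.trans zN) (inf_le_left.trans Py))
  have lt : T ⊓ Ce y < S ⊔ T ⊓ Ce y := lt_of_le_of_ne le_sup_right fun e =>
    h1 G K L z h.pr S hS (mc_iff.2 fun s hs =>
      (mem_Ce.1 (h.zc (e.ge (mem_sup_left hs)).1)).symm)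
  have lt2 : T ⊓ Ce y < T := lt_of_le_of_ne inf_le_left fun e =>
    lt.ne (e.trans (h.syl.eq_of_le hP (e.ge.trans le_sup_right) le_top).symm)
  obtain ⟨x, xP, xN, xD, x2⟩ := up hP lt
  obtain ⟨k, kT, kN, kD, k2⟩ := up h.syl.isPGroup lt2
  obtain ⟨s, hs, d, hd, rfl⟩ := (mem_sup_nl hn).1 xP
  have sK : s ∈ K := hS.le hs
  have sD : s ∉ T ⊓ Ce y := fun e => xD (mul_mem e hd)
  refine ⟨s, k, h, ⟨kT, kN, fun e => kD ⟨kT, e⟩, k2.2⟩, sK, (mul_mem_cancel_right (le_normalizer hd)).1 xN,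
    fun e => sD ⟨e, h.cK.le sK⟩, ?_, fun c => sD (Pz.le ⟨mem_sup_left hs, mem_Ce.2 c⟩), ?_⟩
  · rw [show s * s = s * d * d⁻¹ * (s * d)⁻¹ * (s * d * (s * d)) * d⁻¹ by group]
    exact (mul_mem (mul_mem (conj_mem xN (inv_mem hd)) x2) (inv_mem hd)).1
  · by_contra ne
    have TL : T ≤ 𝒩(L) := h.zc.trans zN
    obtain ⟨a, ha, ia⟩ := exists_inv_of_isP (two_cent (h.gl.lk z h.iz L h.cL).1) ne
    obtain ⟨e, he, ie, eT⟩ := exists_inv_cent h.syl.isPGroup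
      (le_norm_inf TL (TL.trans (norm_le_norm_cent L))) ha ia
    have good := h.good e ie he.2 T h.syl.isPGroup
      (le_inf TL fun t ht => mem_Ce.2 (cm_of eT ht).symm)
      (lt_of_le_of_ne (card_le_of_le lt2.le) fun c => lt2.ne (eq_of_le_of_card_ge lt2.le c.ge))
    have eK := h2 G K L z h.pr e he.1 he.2 ie
    exact h.pr.ne (good.eq_of_le h.pr.qs h.le fun t ht => mem_Ce.2 (cm_of eK ht).symm)

end CL.Q49
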