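/-
Project Q49: the global step (job Q49-GS).
-/
import Cfsg.Agent.Q49.Defs
import Cfsg.Agent.Q16.Core0

set_option autoImplicit false

namespace CL.Q49

open Cfsg Subgroup CL.Even CL.Grp CL.Loc CL.Ags CL.Q16

universe u

namespace GSx

theorem qs_le {G : Type*} [Group G] {J X H : Subgroup G} (q : IsCompIn J H) (n : J ≤ 𝒩(X)) {a : G} (ha : a ∈ J)
    (hX : a ∈ X) (c : a ∉ 𝒞(J)) : J ≤ X :=
  (q.le_or_commutator_eq_bot_of_le_normalizer (X := X ⊓ J) (inf_le_right.trans q.le)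
    (le_norm_inf n le_normalizer)).elim (·.trans inf_le_left) fun e =>
      absurd (commutator_eq_bot_iff'.1 e ⟨hX, ha⟩) c

end GSx

open Core0 in
theorem gs : GS.{u} := by
  intro G _ _ T L z y h S U a aL aC r ry ra rz l lL e
  have zN : Ce z ≤ 𝒩(L) := S.nrm z 1 S.iz (by rw [cj_one]; exact S.zc) L S.cL
  have hN : h ∈ 𝒩(L) := zN (S.zc U.hT)
  have ry' : Commute r y := mem_Ce.1 ry
  have cL' : IsCompIn (cj r L) (Ce (r * z * r⁻¹)) := by rw [← cj_Ce]; exact S.cL.conj_smul r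
  have tN : Ce (r * z * r⁻¹) ≤ 𝒩(cj r L) :=
    S.nrm _ r (S.iz.conj r) (by rw [← cj_Ce]; exact cj_mono r S.zc) _ cL'
  have ua : Commute (l⁻¹ * h) a := by
    change l⁻¹ * h * a = a * (l⁻¹ * h)
    calc l⁻¹ * h * a = l⁻¹ * (h * a * h⁻¹) * h := by group
      _ = a * (l⁻¹ * h) := by rw [e]; group
  have uz : Commute (l⁻¹ * h) z := mem_Ce.1 (mul_mem (inv_mem (S.cL.le lL)) (S.zc U.hT))
  have uN : l⁻¹ * h ∈ 𝒩(cj r L) := tN (mem_Ce.2 (by rw [rz]; exact uz.mul_right ua))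
  have yL' : y ∈ 𝒞(cj r L) := by
    have := mem_cent_conj r S.yL
    rwa [ry'.eq, mul_inv_cancel_right] at this
  have y1 : h * y * h⁻¹ ∈ 𝒞(L) := conj_mem (norm_cent hN) S.yL
  have y2 : h * y * h⁻¹ ∈ 𝒞(cj r L) := by
    have := conj_mem (norm_cent uN) yL'
    rwa [show l⁻¹ * h * y * (l⁻¹ * h)⁻¹ = l⁻¹ * (h * y * h⁻¹) * l by group, mul_assoc l⁻¹, (cm_of y1 lL).eq,
      inv_mul_cancel_left] at this
  have yD : y ∈ 𝒞(T ⊓ Ce y) := mc_iff.2 fun x hx => (mem_Ce.1 hx.2).symm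
  have y3 : h * y * h⁻¹ ∈ 𝒞(T ⊓ Ce y) := conj_mem (norm_cent U.hN) yD
  have yy : Commute (h * y * h⁻¹) y := cm_of y3 ⟨S.yT, mem_Ce.2 (Commute.refl y)⟩
  have i1 := S.iy.1
  have i2 := (S.iy.conj h).1
  have iF : Inv (y * (h * y * h⁻¹)) := by
    refine ⟨?_, fun k => U.hD (mem_Ce.2 ?_)⟩
    · rw [← yy.symm.mul_mul_mul_comm, i1, i2, one_mul]
    · have := eq_inv_of_mul_eq_one_right k
      rw [S.iy.inv_eq] at this
      exact mul_inv_eq_iff_eq_mul.1 this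
  have hF : h ∈ Ce (y * (h * y * h⁻¹)) := by
    refine mem_Ce.2 ?_
    have k : h * h * y = y * (h * h) := mem_Ce.1 U.h2
    change h * (y * (h * y * h⁻¹)) = y * (h * y * h⁻¹) * h
    calc h * (y * (h * y * h⁻¹)) = h * y * h⁻¹ * (h * h * y) * h⁻¹ := by group
      _ = h * y * h⁻¹ * y * h := by rw [k]; group
      _ = _ := by rw [yy.eq]
  have DF : T ⊓ Ce y ≤ T ⊓ Ce (y * (h * y * h⁻¹)) := fun x hx =>
    ⟨hx.1, mem_Ce.2 (cm_of (mul_mem yD y3) hx).symm⟩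
  have cF : IsCompIn L (Ce (y * (h * y * h⁻¹))) :=
    S.good _ iF (mul_mem S.yL y1) (T ⊓ Ce (y * (h * y * h⁻¹))) (S.syl.isPGroup.to_inf_left)
      (inf_le_inf_right _ (S.zc.trans zN))
      (Set.Finite.card_lt_card (Set.toFinite _) (SetLike.coe_ssubset_coe.2
        (lt_of_le_of_ne DF fun k => U.hD (k.ge ⟨U.hT, hF⟩).2)))
  have LF : cj r L ≤ Ce (y * (h * y * h⁻¹)) := fun x hx => mem_Ce.2 (cm_of (mul_mem yL' y2) hx).symm
  have e1 : r * a * r⁻¹ = a := by rw [ra.eq, mul_inv_cancel_right]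
  have aL' : a ∈ cj r L := by rw [← e1]; exact conj_mem_cj r aL
  have aC' : a ∉ 𝒞(cj r L) := fun k => aC (by
    rw [← cj_cent, mem_cj, mul_assoc, ← ra.eq, inv_mul_cancel_left] at k
    exact k)
  have l1 := (GSx.qs_le cL' (LF.trans (le_normalizer_subgroupLayer _)) aL' (cF.le_subgroupLayer aL) aC').trans
    cF.subgroupLayer_le_normalizer
  have l2 := GSx.qs_le cL' l1 aL' aL aC'
  have zC : z ∈ 𝒞(L) := mc_iff.2 fun x hx => (mem_Ce.1 (S.cL.le hx)).symm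
  have := mem_cent_conj r zC
  rw [rz] at this
  exact aC' ((Subgroup.mul_mem_cancel_left _ (cent_mono l2 zC)).1 this)

end CL.Q49
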