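/-
Project Q49: `z` is not fused to `z c` with `c` central in the pump-up.
-/
import Cfsg.Agent.Q49.Defs

set_option autoImplicit false

namespace CL.Q49

open Cfsg Subgroup CL.Even CL.Grp CL.Loc CL.Ags CL.Q16

universe u

/-- the elements fixing the coset `z Z` -/
def GZx.W {G : Type u} [Group G] (Z : Subgroup G) (z : G) : Subgroup G where
  carrier := {x | x ∈ 𝒩(Z) ∧ z⁻¹ * (x * z * x⁻¹) ∈ Z}
  one_mem' := ⟨one_mem _, by simp⟩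
  mul_mem' := fun {a b} ha hb => ⟨mul_mem ha.1 hb.1, by
    rw [show z⁻¹ * (a * b * z * (a * b)⁻¹) = z⁻¹ * (a * z * a⁻¹) * (a * (z⁻¹ * (b * z * b⁻¹)) * a⁻¹) by group]
    exact mul_mem ha.2 (conj_mem ha.1 hb.2)⟩
  inv_mem' := fun {a} ha => ⟨inv_mem ha.1, by
    rw [show z⁻¹ * (a⁻¹ * z * a⁻¹⁻¹) = a⁻¹ * (z⁻¹ * (a * z * a⁻¹))⁻¹ * a by group]
    exact conj_mem' ha.1 (inv_mem ha.2)⟩

theorem gz : GZ.{u} := by
  rintro G _ _ T L K z y h ⟨r, hrK, hrL, c, hcK, hcC, hc1, hr⟩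
  have hzc : c * z = z * c := comm_of_mem h.pr.zZ ⟨hcK, hcC⟩
  have hrc : r * c = c * r := comm_of_mem hcC hrK
  have hcc : c * c = 1 := by
    calc c * c = z * z * c * c := by rw [h.iz.1, one_mul]
      _ = z * c * (z * c) := by rw [← mul_assoc (z * c), mul_assoc z c, hzc, ← mul_assoc]
      _ = r * (z * z) * r⁻¹ := by rw [← hr]; group
      _ = 1 := by rw [h.iz.1]; group
  have hn : ∀ n : ℕ, r ^ n * z * (r ^ n)⁻¹ = z * c ^ n := fun n => by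
    induction n with
    | zero => simp
    | succ n ih =>
      calc r ^ (n + 1) * z * (r ^ (n + 1))⁻¹ = r * (r ^ n * z * (r ^ n)⁻¹) * r⁻¹ := by rw [pow_succ']; group
        _ = r * z * r⁻¹ * (r * c ^ n * r⁻¹) := by rw [ih]; group
        _ = _ := by rw [hr, (Commute.pow_right hrc n).mul_inv_cancel, pow_succ', mul_assoc]
  obtain ⟨a, k, ⟨j, hj⟩, hk⟩ := Nat.exists_eq_two_pow_mul_odd (orderOf_pos r).ne'
  have hs2 : (r ^ k) ^ 2 ^ a = 1 := by rw [← pow_mul, mul_comm, ← hk, pow_orderOf_eq_one]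
  have hs : r ^ k * z * (r ^ k)⁻¹ = z * c := by rw [hn, hj, pow_succ, pow_mul, pow_two, hcc, one_pow, one_mul]
  have hN : 𝒩(K) ≤ 𝒩(K ⊓ 𝒞(K)) := le_norm_inf le_rfl (norm_le_norm_cent K)
  have hD : T ⊓ Ce y ≤ GZx.W (K ⊓ 𝒞(K)) z := fun d hd => ⟨hN (h.DK hd), by
    rw [mem_centralizer_singleton_iff.1 (h.zc hd.1)]; simp⟩
  have hrW : r ∈ GZx.W (K ⊓ 𝒞(K)) z := ⟨hN (le_normalizer hrK), by rw [hr]; simpa using ⟨hcK, hcC⟩⟩
  obtain ⟨x, hx, hxs⟩ := syl_conj_le (h.sD.of_le (le_inf h.sD.le hD) inf_le_left) (isPGroup_zpowers hs2)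
    (zpowers_le.2 (pow_mem (mem_inf.2 ⟨mem_inf.2 ⟨hrL, h.cK.le hrK⟩, hrW⟩) k))
  have h1 := mem_centralizer_singleton_iff.1 (h.zc (hxs (conj_mem_cj x (mem_zpowers _))).1)
  have h2 := comm_of_mem (inv_mem (mem_inf.1 hx).2).2.2 (pow_mem hrK k)
  generalize r ^ k = s at hs h1 h2
  have h3 : s * (x⁻¹ * z * x⁻¹⁻¹) = x⁻¹ * z * x⁻¹⁻¹ * s := by
    calc _ = x⁻¹ * (x * s * x⁻¹ * z) * x := by group
      _ = _ := by rw [h1]; group
  have h4 : s * z * s⁻¹ = z := by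
    calc _ = s * (x⁻¹ * z * x⁻¹⁻¹) * (s * (z⁻¹ * (x⁻¹ * z * x⁻¹⁻¹)))⁻¹ := by group
      _ = _ := by rw [h2, h3]; group
  exact hc1 (mul_eq_left.1 (hs.symm.trans h4))

end CL.Q49
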