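/-
Project Q49: tools for the statement `I1` (an involutory automorphism fixing a Sylow 2-subgroup is inner).
-/
import Cfsg.Agent.Q49.Defs
import Cfsg.Agent.Known.LieTits
import Cfsg.Agent.Loc.CFunSec

set_option autoImplicit false

namespace CL.Q49

open Cfsg Subgroup CL.Even CL.Grp CL.Loc CL.Ags CL.Q16

universe u

variable {X Y : Type*} [Group X] [Group Y]

theorem I1.congr (e : X ≃* Y) (h : I1 Y) : I1 X := fun α h2 S hS hfix => by
  obtain ⟨k, hk⟩ := h (MulAut.congr e α) (by rw [← map_mul, h2, map_one]) (S.map e.toMonoidHom)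
    (CL.Loc.IsSylowIn.map_top hS e.surjective) (by
      rintro _ ⟨s, hs, rfl⟩
      simp [MulAut.congr, hfix s hs])
  refine ⟨e.symm k, MulEquiv.ext fun x => e.injective ?_⟩
  simpa [MulAut.congr] using DFunLike.congr_fun hk (e x)

/-- it suffices to look at one `2`-subgroup -/
theorem i1_of_pgroup [Finite X] {P : Subgroup X} (hP : IsPGroup 2 P)
    (h : ∀ α : MulAut X, α * α = 1 → (∀ s ∈ P, α s = s) → ∃ k : X, α = MulAut.conj k) : I1 X :=
  fun α h2 S hS hfix => by
  obtain ⟨g, -, hg⟩ := hS.exists_conj_le hP le_top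
  obtain ⟨k, hk⟩ := h ((MulAut.conj g)⁻¹ * α * MulAut.conj g)
    (by rw [show (MulAut.conj g)⁻¹ * α * MulAut.conj g * ((MulAut.conj g)⁻¹ * α * MulAut.conj g) =
      (MulAut.conj g)⁻¹ * (α * α) * MulAut.conj g by group, h2]; simp) fun s hs => by
      have := hfix _ (hg ⟨s, hs, rfl⟩)
      change α (g * s * g⁻¹) = g * s * g⁻¹ at this
      simp only [MulAut.mul_apply, MulAut.conj_apply, this, MulAut.conj_inv_apply]
      group
  refine ⟨g * k * g⁻¹, ?_⟩
  rw [map_mul, map_mul, map_inv, ← hk]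
  group

theorem i1_of_out (h : Nat.card (Out X) = 1) : I1 X := fun α _ _ _ _ => by
  have := (Nat.card_eq_one_iff_unique.mp h).1
  obtain ⟨k, hk⟩ := (QuotientGroup.eq_one_iff (N := Inn X) α).1 (Subsingleton.elim _ _)
  exact ⟨k, hk.symm⟩

/-- on a subgroup of characteristic 2 the automorphism is induced by a central involution of the Sylow subgroup -/
theorem conj_on_charP [Finite X] {H S : Subgroup X} {α : MulAut X} (h2 : α * α = 1) (hH : ∀ g ∈ H, α g ∈ H)
    (hS : IsSylowIn 2 S H) (hfix : ∀ s ∈ S, α s = s) (hc : IsCharP 2 H) :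
    ∃ c ∈ S, c * c = 1 ∧ (∀ s ∈ S, c * s = s * c) ∧ ∀ g ∈ H, α g = c * g * c⁻¹ := by
  obtain ⟨c, hcS, hc2, hcH⟩ := CL.Chev.exists_conj_of_fix_odd (P := H) (S := S) (R := pCoreOf 2 H) (σ := α)
    (fun g => DFunLike.congr_fun h2 g) hH (core_le_syl hS)
    (fun g hg r hr => by
      simpa using (mem_normalizer_iff.1 (self_le_norm_core (p := 2) H (inv_mem hg)) r).1 hr)
    hfix hc (Nat.odd_iff.2 (Nat.two_dvd_ne_zero.1 hS.2.2))
  refine ⟨c, hcS, hc2, fun s hs => ?_, hcH⟩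
  have := (hfix s hs).symm.trans (hcH s (hS.1 hs))
  calc c * s = c * s * c⁻¹ * c := by group
    _ = s * c := by rw [← this]

/-- the soft criterion: `Ω₁ Z(S) = ⟨z⟩`, `C(z)` and `N(V)` of characteristic 2 generate `X` -/
theorem i1_of_gen [Finite X] {S V : Subgroup X} {z : X} (hS : IsSylowIn 2 S ⊤) (hz : z ∈ S) (hzc : S ≤ Ce z)
    (hZ : ∀ c ∈ S, c * c = 1 → (∀ s ∈ S, c * s = s * c) → c = 1 ∨ c = z) (hC : IsCharP 2 (Ce z))
    (hV : V ≤ S) (hVS : S ≤ 𝒩(V)) (hN : IsCharP 2 𝒩(V)) (hgen : Ce z ⊔ 𝒩(V) = ⊤) : I1 X := by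
  refine i1_of_pgroup hS.2.1 fun α h2 hfix => ?_
  have key : ∀ c : X, c = 1 ∨ c = z → ∀ g ∈ Ce z, c * g * c⁻¹ = g := by
    rintro c (rfl | rfl) g hg
    · simp
    · rw [← mem_centralizer_singleton_iff.1 hg]; simp
  obtain ⟨c, hcS, hc2, hcc, hc⟩ := conj_on_charP h2 (H := Ce z) (fun g hg => by
      have := congrArg α (mem_centralizer_singleton_iff.1 hg)
      rw [map_mul, map_mul, hfix z hz] at this
      exact mem_centralizer_singleton_iff.2 this) (hS.of_le hzc le_top) hfix hC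
  have hinv : ∀ x, α (α x) = x := fun x => DFunLike.congr_fun h2 x
  obtain ⟨d, hdS, hd2, hdc, hd⟩ := conj_on_charP h2 (H := 𝒩(V)) (fun g hg => by
      refine mem_normalizer_iff.2 fun v => ⟨fun hv => ?_, fun hv => ?_⟩
      · have h1 := (mem_normalizer_iff.1 hg v).1 hv
        have h3 := hfix _ (hV h1)
        rw [map_mul, map_mul, map_inv, hfix v (hV hv)] at h3
        rwa [h3]
      · have h3 := hfix _ (hV hv)
        rw [map_mul, map_mul, map_inv, hinv] at h3
        have h4 : α v ∈ V := (mem_normalizer_iff.1 hg _).2 (h3 ▸ hv)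
        rw [← hinv v, hfix _ (hV h4)]
        exact h4) (hS.of_le hVS le_top) hfix hN
  refine ⟨d, MulEquiv.ext fun x => ?_⟩
  have : Ce z ⊔ 𝒩(V) ≤ α.toMonoidHom.eqLocus (MulAut.conj d).toMonoidHom := sup_le
    (fun g hg => by
      change α g = d * g * d⁻¹
      rw [hc g hg, key c (hZ c hcS hc2 hcc) g hg, key d (hZ d hdS hd2 hdc) g hg]) fun g hg => hd g hg
  exact this (hgen.ge (mem_top x))

end CL.Q49
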