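/-
Q49-INVK: a quasisimple group of narrow type has a non-central involution.
-/
import Cfsg.Agent.Q49.Defs
import Cfsg.Agent.Transfer.Control

set_option autoImplicit false

namespace CL.Q49

open Cfsg Subgroup CL.Even CL.Grp CL.Loc CL.Ags CL.Q16
open scoped commutatorElement

universe u

namespace InvKx

variable {L : Type*} [Group L] [Finite L]

theorem pick (A : Subgroup L) (l : List L) (h : l.length < Nat.card A) : ∃ x ∈ A, x ∉ l := by
  classical
  by_contra! k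
  have c := Set.ncard_le_ncard (show (A : Set L) ⊆ l.toFinset from fun x hx => by simpa using k x hx)
  rw [Set.ncard_coe_finset] at c
  have := l.toFinset_card_le
  change Nat.card A ≤ _ at c
  omega

theorem cyc {d u v : L} (hu : u ∈ zpowers d) (hv : v ∈ zpowers d) (iu : Ags.Inv u) (iv : Ags.Inv v) : u = v := by
  classical
  by_contra n
  have := Fintype.ofFinite (zpowers d)
  refine absurd (IsCyclic.card_pow_eq_one_le (α := zpowers d) two_pos) (not_le.2 (Finset.two_lt_card.2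
    ⟨1, by simp, ⟨u, hu⟩, ?_, ⟨v, hv⟩, ?_, fun e => iu.2 (congrArg Subtype.val e).symm,
      fun e => iv.2 (congrArg Subtype.val e).symm, fun e => n (congrArg Subtype.val e)⟩))
  exacts [Finset.mem_filter.2 ⟨Finset.mem_univ _, Subtype.ext ((pow_two u).trans iu.1)⟩,
    Finset.mem_filter.2 ⟨Finset.mem_univ _, Subtype.ext ((pow_two v).trans iv.1)⟩]

theorem om {U : Subgroup L} (h : SzSyl U) : (∀ a ∈ Om U, a * a = 1) ∧ 8 ≤ Nat.card (Om U) := by
  have le : Om U ≤ U := (closure_le _).2 fun a ha => ha.1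
  constructor
  · intro a ha
    induction ha using closure_induction with
    | mem a ha => exact ha.2
    | one => exact one_mul 1
    | mul a b ha hb h1 h2 =>
      rw [(show Commute b a from h.1 a (le ha) h1 b (le hb)).mul_mul_mul_comm, h1, h2, one_mul]
    | inv a _ h1 => rw [← mul_inv_rev, h1, inv_one]
  have e1 : (Om U).relIndex U ≤ Nat.card (Om U) := Nat.card_le_card_of_injective
    (fun q : U ⧸ (Om U).subgroupOf U => (⟨q.out * q.out, subset_closure ⟨(q.out * q.out).2, h.2.1 _ q.out.2⟩⟩ : Om U))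
    fun q r e => by
      rw [← q.out_eq, ← r.out_eq]
      exact QuotientGroup.eq.2 (subset_closure ⟨(q.out⁻¹ * r.out).2, h.2.2.2.1 _ q.out.2 _ r.out.2 (congrArg Subtype.val e)⟩)
  have e2 := h.2.2.2.2
  rw [← card_mul_relIndex le, mul_comm] at e2
  exact (Nat.le_of_mul_le_mul_left e2 Nat.card_pos).trans e1

/-- the elements whose commutator with `t` lies in `N` -/
def Kt (N : Subgroup L) (t : L) : Subgroup L where
  carrier := {x | x ∈ 𝒩(N) ∧ ⁅t, x⁆ ∈ N}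
  one_mem' := ⟨one_mem _, by simp⟩
  mul_mem' := fun {x y} hx hy => ⟨mul_mem hx.1 hy.1, by
    rw [show ⁅t, x * y⁆ = ⁅t, x⁆ * (x * ⁅t, y⁆ * x⁻¹) by simp only [commutatorElement_def]; group]
    exact mul_mem hx.2 (conj_mem hx.1 hy.2)⟩
  inv_mem' := fun {x} hx => ⟨inv_mem hx.1, by
    rw [show ⁅t, x⁻¹⁆ = x⁻¹ * ⁅t, x⁆⁻¹ * x by simp only [commutatorElement_def]; group]
    exact conj_mem' hx.1 (inv_mem hx.2)⟩

/-- the squares of central elements -/
def Sq (L : Type*) [Group L] : Subgroup L where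
  carrier := {x | ∃ ζ ∈ center L, x = ζ * ζ}
  one_mem' := ⟨1, one_mem _, (one_mul 1).symm⟩
  mul_mem' := by
    rintro _ _ ⟨x, hx, rfl⟩ ⟨y, hy, rfl⟩
    exact ⟨x * y, mul_mem hx hy, Commute.mul_mul_mul_comm (mem_center_iff.1 hy x) _ _⟩
  inv_mem' := by rintro _ ⟨x, hx, rfl⟩; exact ⟨x⁻¹, inv_mem hx, mul_inv_rev _ _⟩

instance : (Sq L).Normal := ⟨by
  rintro _ ⟨x, hx, rfl⟩ g
  rw [mem_center_iff.1 (mul_mem hx hx) g, mul_inv_cancel_right]
  exact ⟨x, hx, rfl⟩⟩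

omit [Finite L] in
theorem no8 (na : NA (L ⧸ center L)) (hc : ∀ k : L, k * k = 1 → k ∈ center L) {A : Subgroup (L ⧸ center L)}
    (hA : ∀ a ∈ A, a * a = 1) {a b c : L ⧸ center L} (ha : a ∈ A) (hb : b ∈ A) (hc' : c ∈ A) (a1 : a ≠ 1) (b1 : b ≠ 1)
    (c1 : c ≠ 1) (ab : a * b ≠ 1) (ac : a * c ≠ 1) (bc : b * c ≠ 1) (abc : a * (b * c) ≠ 1) : False := by
  set π := QuotientGroup.mk' (center L)
  set φ := QuotientGroup.mk' (Sq L)
  have ker : ∀ {x : L}, π x = 1 ↔ x ∈ center L := fun {x} => QuotientGroup.eq_one_iff x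
  have sur : ∀ y, ∃ x, π x = y := QuotientGroup.mk'_surjective _
  obtain ⟨x, rfl⟩ := sur a
  obtain ⟨y, rfl⟩ := sur b
  obtain ⟨w, rfl⟩ := sur c
  have x2 : x * x ∈ center L := ker.1 (by rw [map_mul, hA _ ha])
  have sq : ∀ v, π v ∈ A → π v ≠ 1 → φ (v * v) = φ (x * x) := fun v hv v1 => by
    obtain ⟨g, hg⟩ := isConj_iff.1 (na.one _ _ ⟨hA _ ha, a1⟩ ⟨hA _ hv, v1⟩)
    obtain ⟨g, rfl⟩ := sur g
    have hζ : (g * x * g⁻¹)⁻¹ * v ∈ center L := QuotientGroup.eq.1 (show π (g * x * g⁻¹) = π v by rw [map_mul, map_mul, map_inv, hg])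
    rw [← mul_inv_cancel_left (g * x * g⁻¹) v]
    generalize (g * x * g⁻¹)⁻¹ * v = ζ at hζ
    rw [Commute.mul_mul_mul_comm (show Commute ζ _ from (mem_center_iff.1 hζ _).symm), conj_mul,
      mem_center_iff.1 x2 g, mul_inv_cancel_right, map_mul φ _ (ζ * ζ),
      show φ (ζ * ζ) = 1 from (QuotientGroup.eq_one_iff _).2 ⟨ζ, hζ, rfl⟩, mul_one]
  have cm : ∀ v, π v ∈ A → π v ≠ 1 → π x * π v ≠ 1 → φ ⁅x⁻¹, v⁆ = (φ (x * x))⁻¹ := fun v hv v1 v2 => by
    have := sq (x * v) (by rw [map_mul]; exact mul_mem ha hv) (by rwa [map_mul])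
    rw [show x * v * (x * v) = x * x * (⁅x⁻¹, v⁆ * (v * v)) by rw [commutatorElement_def]; group, map_mul, map_mul φ _ (v * v),
      sq v hv v1, mul_eq_left] at this
    exact eq_inv_of_mul_eq_one_left this
  have z : ⁅x⁻¹, w⁆ ∈ center L := ker.1 (by
    have i : ∀ v ∈ A, v⁻¹ = v := fun v hv => inv_eq_of_mul_eq_one_right (hA v hv)
    have := i _ (mul_mem ha hc')
    rw [mul_inv_rev, i _ ha, i _ hc'] at this
    rw [map_commutatorElement, map_inv, i _ ha, cmt_eq_one]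
    exact this.symm)
  have e := cm (y * w) (by rw [map_mul]; exact mul_mem hb hc') (by rwa [map_mul]) (by rwa [map_mul])
  rw [show ⁅x⁻¹, y * w⁆ = ⁅x⁻¹, y⁆ * (y * ⁅x⁻¹, w⁆ * y⁻¹) by simp only [commutatorElement_def]; group, mem_center_iff.1 z y,
    mul_inv_cancel_right, map_mul, cm y hb b1 ab, cm w hc' c1 ac, mul_eq_left, inv_eq_one] at e
  obtain ⟨ζ, hζ, e⟩ := (QuotientGroup.eq_one_iff _).1 e
  refine a1 (ker.2 ((mul_mem_cancel_right (inv_mem hζ)).1 (hc _ ?_)))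
  rw [Commute.mul_mul_mul_comm (show Commute ζ⁻¹ _ from (mem_center_iff.1 (inv_mem hζ) _).symm), e, ← mul_inv_rev,
    mul_inv_cancel]

theorem core (hq : Group.IsPerfect L) (hZ : IsPGroup 2 (center L)) (na : NA (L ⧸ center L))
    (hc : ∀ k : L, k * k = 1 → k ∈ center L) {u v : L} (iu : Ags.Inv u) (iv : Ags.Inv v) : u = v := by
  obtain ⟨S, hS⟩ := exists_isSylowIn 2 (⊤ : Subgroup L)
  set π := QuotientGroup.mk' (center L)
  have ker : ∀ {x : L}, π x = 1 ↔ x ∈ center L := fun {x} => QuotientGroup.eq_one_iff x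
  have ZS : center L ≤ S := hS.le_of_normalized hZ le_top (normalizer_eq_top (center L)).ge
  have ZD : center L ≤ ⁅S, S⁆ := fun z hz => by
    obtain ⟨k, hk⟩ := IsPGroup.iff_orderOf.1 hZ ⟨z, hz⟩
    refine CL.Transfer.mem_of_pow_mem_of_coprime (CL.Transfer.pow_index_mem_commutator_of_center S (ZS hz)
      (hq.commutator_eq_top ▸ mem_top z) hz) ?_
    rw [← orderOf_coe] at hk
    rw [hk]
    exact ((Nat.prime_two.coprime_iff_not_dvd.2 (relIndex_top_right S ▸ hS.not_dvd)).symm).pow_right k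
  obtain ⟨b', c', hb, hc', sh⟩ : ∃ b c : L ⧸ center L, b * b = 1 ∧ c * c = 1 ∧ S.map π = closure {b, c} := by
    rcases na.sh _ (map_top_of_surjective π (QuotientGroup.mk'_surjective _) ▸ syl_map π hS) with h | h | h
    · obtain ⟨h1, h2⟩ := om h
      obtain ⟨a, ha, a1⟩ := pick (Om (S.map π)) [1] (by simp; omega)
      obtain ⟨b, hb, b1⟩ := pick (Om (S.map π)) [1, a⁻¹] (by simp; omega)
      obtain ⟨c, hc', c1⟩ := pick (Om (S.map π)) [1, a⁻¹, b⁻¹, (a * b)⁻¹] (by simp; omega)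
      simp only [List.mem_cons, List.not_mem_nil, or_false, not_or] at a1 b1 c1
      exact (no8 na hc h1 ha hb hc' a1 b1.1 c1.1 (mt eq_inv_of_mul_eq_one_right b1.2) (mt eq_inv_of_mul_eq_one_right c1.2.1)
        (mt eq_inv_of_mul_eq_one_right c1.2.2.1) fun e => c1.2.2.2 (eq_inv_of_mul_eq_one_right (by rwa [mul_assoc]))).elim
    · by_contra n
      have k : ∀ b ∈ S.map π, ∀ c ∈ S.map π, ∃ w ∈ S.map π, ∀ u ∈ closure {b, c}, u * w ≠ 1 := fun b hb c hc => by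
        obtain ⟨w, hw, nw⟩ := SetLike.exists_of_lt (lt_of_le_of_ne ((closure_le _).2 (Set.pair_subset hb hc))
          fun e => n ⟨b, c, h b hb, h c hc, e.symm⟩)
        exact ⟨w, hw, fun u hu e => nw (eq_inv_of_mul_eq_one_right e ▸ inv_mem hu)⟩
      obtain ⟨a, ha, a1⟩ := k 1 (one_mem _) 1 (one_mem _)
      obtain ⟨b, hb, b1⟩ := k a ha a ha
      obtain ⟨c, hc', c1⟩ := k a ha b hb
      have m1 : a ∈ closure {a, b} := subset_closure (.inl rfl)
      have m2 : b ∈ closure {a, b} := subset_closure (.inr rfl)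
      exact no8 na hc h ha hb hc' (one_mul a ▸ a1 1 (one_mem _)) (one_mul b ▸ b1 1 (one_mem _)) (one_mul c ▸ c1 1 (one_mem _))
        (b1 a (subset_closure (.inl rfl))) (c1 a m1) (c1 b m2) (mul_assoc a b c ▸ c1 _ (mul_mem m1 m2))
    · exact h
  obtain ⟨b, rfl⟩ : ∃ x, π x = b' := QuotientGroup.mk'_surjective _ b'
  obtain ⟨c, rfl⟩ : ∃ x, π x = c' := QuotientGroup.mk'_surjective _ c'
  have b2 := mem_center_iff.1 (ker.1 ((map_mul π b b).trans hb))
  have c2 := mem_center_iff.1 (ker.1 ((map_mul π c c).trans hc'))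
  have nN : ∀ g : L, g * ⁅b, c⁆ * g⁻¹ ∈ zpowers ⁅b, c⁆ → g ∈ 𝒩(zpowers ⁅b, c⁆) := fun g hg =>
    mem_normalizer_fintype (by
      rintro _ ⟨i, rfl⟩
      change g * ⁅b, c⁆ ^ i * g⁻¹ ∈ _
      rw [← conj_zpow]
      exact zpow_mem hg i)
  have nb := nN b (by
    rw [show b * ⁅b, c⁆ * b⁻¹ = b * b * c * b⁻¹ * c⁻¹ * b⁻¹ by rw [commutatorElement_def]; group, ← b2 c,
      show c * (b * b) * b⁻¹ * c⁻¹ * b⁻¹ = ⁅b, c⁆⁻¹ by rw [commutatorElement_def]; group]
    exact inv_mem (mem_zpowers _))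
  have nc := nN c (by
    rw [show c * ⁅b, c⁆ * c⁻¹ = c * b * c * (c * c * b)⁻¹ by rw [commutatorElement_def]; group, ← c2 b,
      show c * b * c * (b * (c * c))⁻¹ = ⁅b, c⁆⁻¹ by rw [commutatorElement_def]; group]
    exact inv_mem (mem_zpowers _))
  have gen : ∀ t, ⁅t, b⁆ ∈ zpowers ⁅b, c⁆ → ⁅t, c⁆ ∈ zpowers ⁅b, c⁆ → ∀ s ∈ S, ⁅t, s⁆ ∈ zpowers ⁅b, c⁆ := fun t h1 h2 s hs => by
    have l : closure {π b, π c} ≤ (Kt (zpowers ⁅b, c⁆) t).map π :=
      (closure_le _).2 (Set.pair_subset ⟨b, ⟨nb, h1⟩, rfl⟩ ⟨c, ⟨nc, h2⟩, rfl⟩)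
    obtain ⟨d, hd, e⟩ := (sh.trans_le l) (⟨s, hs, rfl⟩ : π s ∈ S.map π)
    have z : d⁻¹ * s ∈ center L := QuotientGroup.eq.1 e
    have := (Kt (zpowers ⁅b, c⁆) t).mul_mem hd ⟨cent_le_norm _ (center_le_centralizer _ z), by
      rw [cmt_eq_one.2 (mem_center_iff.1 z t)]; exact one_mem _⟩
    rw [mul_inv_cancel_left] at this
    exact this.2
  have D : center L ≤ zpowers ⁅b, c⁆ := ZD.trans (commutator_le.2 fun s hs => gen s
    (commutatorElement_inv b s ▸ inv_mem (gen b (by simp) (mem_zpowers _) s hs))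
    (commutatorElement_inv c s ▸ inv_mem (gen c (commutatorElement_inv b c ▸ inv_mem (mem_zpowers _)) (by simp) s hs)))
  exact cyc (D (hc u iu.1)) (D (hc v iv.1)) iu iv

end InvKx

theorem invK : InvK.{u} := by
  intro G _ _ K h
  by_contra! n
  obtain ⟨a, ha, b, hb, ia, ib, ne, -⟩ := h.four
  refine ne (congrArg Subtype.val (InvKx.core (u := ⟨a, ha⟩) (v := ⟨b, hb⟩) h.qs.1 (fun ⟨z, hz⟩ => ?_) h.na (fun k hk => ?_)
    ⟨Subtype.ext ia.1, fun e => ia.2 (congrArg Subtype.val e)⟩ ⟨Subtype.ext ib.1, fun e => ib.2 (congrArg Subtype.val e)⟩))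
  · obtain ⟨k, hk⟩ := h.z2 ⟨z, z.2, fun g hg => congrArg Subtype.val (mem_center_iff.1 hz ⟨g, hg⟩)⟩
    have e : (z : G) ^ 2 ^ k = 1 := congrArg Subtype.val hk
    exact ⟨k, Subtype.ext (Subtype.ext e)⟩
  · by_cases e : k = 1
    · exact e ▸ one_mem _
    · exact mem_center_iff.2 fun g => Subtype.ext (n k k.2 ⟨congrArg Subtype.val hk, fun e' => e (Subtype.ext e')⟩ g g.2)

end CL.Q49
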