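/-
Project Q49: the main case.
-/
import Cfsg.Agent.Q49.Defs
import Cfsg.Agent.Q16.Core0

set_option autoImplicit false

namespace CL.Q49

open Cfsg Subgroup CL.Even CL.Grp CL.Loc CL.Ags CL.Q16
open scoped commutatorElement

universe u

namespace Main1

variable {G : Type u} [Group G]

/-- the involutions of the centre of `D`, and the identity -/
def Wz (D : Subgroup G) : Subgroup G where
  carrier := {w | w ∈ D ∧ w ∈ 𝒞(D) ∧ w * w = 1}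
  one_mem' := ⟨one_mem _, one_mem _, one_mul _⟩
  mul_mem' := by
    rintro a b ⟨a1, a2, a3⟩ ⟨b1, b2, b3⟩
    refine ⟨mul_mem a1 b1, mul_mem a2 b2, ?_⟩
    rw [(cm_of a2 b1).symm.mul_mul_mul_comm, a3, b3, one_mul]
  inv_mem' := by
    rintro a ⟨a1, a2, a3⟩
    exact ⟨inv_mem a1, inv_mem a2, by rw [← mul_inv_rev, a3, inv_one]⟩

theorem norm_Wz (D : Subgroup G) : 𝒩(D) ≤ 𝒩(Wz D) := le_norm_of_cj_le fun g hg => by
  rintro _ ⟨w, ⟨w1, w2, w3⟩, rfl⟩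
  refine ⟨conj_mem hg w1, conj_mem (norm_cent hg) w2, ?_⟩
  change g * w * g⁻¹ * (g * w * g⁻¹) = 1
  calc g * w * g⁻¹ * (g * w * g⁻¹) = g * (w * w) * g⁻¹ := by group
    _ = 1 := by rw [w3, mul_one, mul_inv_cancel]

theorem exists_sq {D : Subgroup G} {x : G} (hx : x ∉ D) {k : ℕ} (h : x ^ 2 ^ k ∈ D) :
    ∃ n : ℕ, x ^ n ∉ D ∧ x ^ n * x ^ n ∈ D := by
  induction k with
  | zero => exact absurd (by simpa using h) hx
  | succ k ih =>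
    by_cases h1 : x ^ 2 ^ k ∈ D
    · exact ih h1
    · exact ⟨2 ^ k, h1, by rwa [← pow_add, ← mul_two, ← pow_succ]⟩

theorem dec {L : Subgroup G} {w : G} (h : w ∈ L ⊔ 𝒞(L)) : ∃ l ∈ L, ∃ c ∈ 𝒞(L), l * c = w :=
  (mem_sup_nr (le_norm_cent le_normalizer)).1 h

end Main1

open Main1

theorem gmain (h1 : GS.{u}) : GMain.{u} := by
  intro G _ _ T L K z y g h m hcov hexc in1 inA
  have := Fact.mk Nat.prime_two
  have hK : K ⊓ 𝒞(K) = ⊥ := not_not.1 hcov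
  have one : ∀ x ∈ L, x ∈ 𝒞(L) → x = 1 := fun x h1 h2 => mem_bot.1 (m.ZL ▸ (⟨h1, h2⟩ : x ∈ L ⊓ 𝒞(L)))
  have nL : Ce z ≤ 𝒩(L) := m.nrm z 1 m.iz (by rw [cj_one]; exact m.zc) L m.cL
  have TL : T ≤ 𝒩(L) := m.zc.trans nL
  have sU : IsSylowIn 2 (T ⊓ L) L := (m.syl.of_le TL le_top).inf_of_normalized le_normalizer le_rfl
  have UD : T ⊓ L ≤ T ⊓ Ce y := fun x hx => ⟨hx.1, Core0.mem_Ce.2 (cm_of m.yL hx.2).symm⟩
  have Lz : L ≤ Ce z := m.cL.le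
  have gy : g ∈ Ce y := m.cK.le m.gK
  have zW : z ∈ Wz (T ⊓ Ce y) := ⟨⟨m.zT, Core0.mem_Ce.2 (Core0.mem_Ce.1 (m.zc m.yT)).symm⟩,
    mc_iff.2 fun x hx => (Core0.mem_Ce.1 (m.zc hx.1)).symm, m.iz.1⟩
  have yW : y ∈ Wz (T ⊓ Ce y) := ⟨⟨m.yT, Core0.mem_Ce.2 (Commute.refl y)⟩,
    mc_iff.2 fun x hx => (Core0.mem_Ce.1 hx.2).symm, m.iy.1⟩
  -- (W1)
  have W1 : ∀ w ∈ Wz (T ⊓ Ce y), w ∈ K → w ∈ L := fun w hw hwK => by
    obtain ⟨l, hl, c, hc, e⟩ := dec (in1 _ sU w (TL hw.1.1) hw.2.2 (cent_mono UD hw.2.1))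
    have ec : c = l⁻¹ * w := by rw [← e, inv_mul_cancel_left]
    have cK : c ∈ K := ec ▸ mul_mem (inv_mem (m.le hl)) hwK
    have cz : c ∈ Ce z := ec ▸ mul_mem (inv_mem (Lz hl)) (m.zc hw.1.1)
    have h2 : l * l * (c * c) = 1 := by
      rw [← (cm_of hc hl).mul_mul_mul_comm, e]; exact hw.2.2
    have h3 : c * c = 1 := one _ ((eq_inv_of_mul_eq_one_right h2).symm ▸ inv_mem (mul_mem hl hl)) (mul_mem hc hc)
    by_cases c1 : c = 1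
    · rw [← e, c1, mul_one]; exact hl
    · exact absurd ⟨c, cK, hc, Core0.mem_Ce.1 cz, ⟨h3, c1⟩,
        fun hcK => c1 (mem_bot.1 (hK ▸ (⟨cK, hcK⟩ : c ∈ K ⊓ 𝒞(K))))⟩ hexc
  have gW : g ∈ 𝒩(Wz (T ⊓ Ce y)) := norm_Wz _ m.gN
  have gzW : g * z * g⁻¹ ∈ Wz (T ⊓ Ce y) := conj_mem gW zW
  obtain ⟨a, ha⟩ : ∃ a, a = z * (g * z * g⁻¹) := ⟨_, rfl⟩
  have aL : a ∈ L := by
    refine W1 a (ha ▸ mul_mem zW gzW) ?_
    have e : a = z * g * z⁻¹ * g⁻¹ := by rw [ha, m.iz.inv_eq]; group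
    rw [e]
    exact mul_mem (conj_mem m.zK m.gK) (inv_mem m.gK)
  have ez : g * z * g⁻¹ = z * a := by rw [ha, ← mul_assoc z z, m.iz.1, one_mul]
  have aC : a ∉ 𝒞(L) := fun hc => m.gz (by
    rw [one a aL hc, mul_one] at ez
    exact mul_inv_eq_iff_eq_mul.1 ez)
  have ga : Commute g a := by
    have h2 : g * g * z = z * (g * g) := Core0.mem_Ce.1 (m.zc m.g2)
    have h3 : z * (g * z * g⁻¹) = g * z * g⁻¹ * z := cm_of zW.2.1 gzW.1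
    change g * a = a * g
    rw [ha]
    calc g * (z * (g * z * g⁻¹)) = g * z * g⁻¹ * (g * g * z) * g⁻¹ := by group
      _ = g * z * g⁻¹ * z * g := by rw [h2]; group
      _ = _ := by rw [h3]
  -- (c)
  have AD : T ⊓ 𝒞(L) ≤ T ⊓ Ce y := by
    by_contra hn
    have hDA : T ⊓ Ce y ≤ 𝒩(T ⊓ 𝒞(L)) := le_norm_inf (le_norm_of_le inf_le_left) (le_norm_cent (inf_le_left.trans TL))
    have hle : (T ⊓ Ce y) ⊔ (T ⊓ 𝒞(L)) ≤ T := sup_le inf_le_left inf_le_left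
    have hlt := lt_inf_normalizer_of_isPGroup (m.syl.isPGroup.to_le hle)
      (lt_of_le_of_ne le_sup_left fun e => hn (le_sup_right.trans e.symm.le))
    obtain ⟨x0, hx0, hx1⟩ := SetLike.exists_of_lt hlt
    obtain ⟨k, hk⟩ := isPGroup_iff_forall.1 m.syl.isPGroup x0 (hle hx0.1)
    obtain ⟨n, n1, n2⟩ := exists_sq hx1 (k := k) (hk ▸ one_mem _)
    obtain ⟨d, hd, a0, ha0, e⟩ := (mem_sup_nr hDA).1 (pow_mem hx0.1 n)
    have xN : x0 ^ n ∈ 𝒩(T ⊓ Ce y) := pow_mem hx0.2 n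
    have e0 : a0 = d⁻¹ * x0 ^ n := by rw [← e, inv_mul_cancel_left]
    refine h1 G T L z y a0 m.toSt ⟨ha0.1, e0 ▸ mul_mem (inv_mem (le_normalizer hd)) xN,
      fun hy => n1 (e ▸ mul_mem hd ⟨ha0.1, hy⟩), ?_⟩ a aL aC g gy ga ez 1 (one_mem _) ?_
    · have e1 : a0 * a0 = d⁻¹ * (x0 ^ n * d⁻¹ * (x0 ^ n)⁻¹) * (x0 ^ n * x0 ^ n) := by rw [e0]; group
      rw [e1]
      exact (mul_mem (mul_mem (inv_mem hd) (conj_mem xN (inv_mem hd))) n2).2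
    · rw [conj_eq_of_mem ha0.2 aL, one_mul, inv_one, mul_one]
  -- (d)
  have TD : ⁅T, T⁆ ≤ T ⊓ Ce y := fun t ht => by
    have tT : t ∈ T := commutator_le_of_le_norm le_normalizer ht
    obtain ⟨l, hl, c, hc, e⟩ := dec (inA T m.syl.isPGroup TL ht)
    obtain ⟨k, hk⟩ := isPGroup_iff_forall.1 m.syl.isPGroup t tT
    rw [← e, (cm_of hc hl).symm.mul_pow] at hk
    have l2 : l ^ 2 ^ k = 1 := one _ (pow_mem hl _) ((eq_inv_of_mul_eq_one_left hk).symm ▸ inv_mem (pow_mem hc _))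
    have el : l = t * c⁻¹ := by rw [← e, mul_inv_cancel_right]
    have lN : l ∈ 𝒩(T ⊓ L) := el ▸ mul_mem (le_norm_inf le_normalizer TL tT)
      (inv_mem (cent_le_norm _ (cent_mono inf_le_right hc)))
    have h2 := sU.eq_of_le (isPGroup_sup (isPGroup_zpowers l2) sU.isPGroup (zpowers_le.2 lN)) le_sup_right
      (sup_le (zpowers_le.2 hl) inf_le_right)
    have lU : l ∈ T ⊓ L := h2 ▸ mem_sup_left (mem_zpowers l)
    have ec : c = l⁻¹ * t := by rw [← e, inv_mul_cancel_left]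
    exact e ▸ mul_mem (UD lU) (AD ⟨ec ▸ T.mul_mem (T.inv_mem lU.1) tT, hc⟩)
  have TN : T ≤ 𝒩(T ⊓ Ce y) := le_norm_of_commutator_le ((commutator_mono inf_le_left le_rfl).trans TD)
  have HW : T ⊔ zpowers g ≤ 𝒩(Wz (T ⊓ Ce y)) := sup_le (TN.trans (norm_Wz _)) (zpowers_le.2 gW)
  have eW : Wz (T ⊓ Ce y) ⊓ L = Wz (T ⊓ Ce y) ⊓ K :=
    le_antisymm (inf_le_inf_left _ m.le) fun w hw => ⟨hw.1, W1 w hw.1 hw.2⟩
  have HW1 : T ⊔ zpowers g ≤ 𝒩(Wz (T ⊓ Ce y) ⊓ L) := by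
    refine sup_le (le_norm_inf (TN.trans (norm_Wz _)) TL) ?_
    rw [eW]
    exact le_norm_inf (zpowers_le.2 gW) (zpowers_le.2 (le_normalizer m.gK))
  have s0 := (m.syl.of_le le_sup_left le_top).inf_of_normalized
    (N := (T ⊔ zpowers g) ⊓ cmod (Wz (T ⊓ Ce y)) (Wz (T ⊓ Ce y) ⊓ L)) inf_le_left
    (le_norm_inf le_normalizer (le_norm_cmod HW HW1))
  obtain ⟨k, hk⟩ := isPGroup_iff_forall.1 m.syl.isPGroup _ m.g2
  have g2 : g ^ 2 ^ (k + 1) = 1 := by rw [pow_succ', pow_mul, pow_two, hk]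
  have hP : IsPGroup 2 ((T ⊓ Ce y) ⊔ zpowers g : Subgroup G) :=
    isPGroup_sup' (m.syl.isPGroup.to_le inf_le_left) (isPGroup_zpowers g2) (zpowers_le.2 m.gN)
  have hle : (T ⊓ Ce y) ⊔ zpowers g ≤ (T ⊔ zpowers g) ⊓ cmod (Wz (T ⊓ Ce y)) (Wz (T ⊓ Ce y) ⊓ L) := by
    refine le_inf (sup_le_sup_right inf_le_left _) (sup_le (fun d hd => ?_) (zpowers_le.2 ?_))
    · refine mem_cmod.2 ⟨HW1 (mem_sup_left hd.1), fun v hv => ?_⟩
      rw [cmt_eq_one.2 (cm_of hv.2.1 hd)]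
      exact one_mem _
    · refine mem_cmod.2 ⟨HW1 (mem_sup_right (mem_zpowers g)), fun v hv => ?_⟩
      rw [eW]
      exact ⟨cmt_mem_l hv gW, cmt_mem_r (m.DK hv.1) m.gK⟩
  have c1 := s0.card_le hP hle
  have hsub : T ⊓ ((T ⊔ zpowers g) ⊓ cmod (Wz (T ⊓ Ce y)) (Wz (T ⊓ Ce y) ⊓ L)) ≤ T ⊓ Ce y := fun t ht =>
    ⟨ht.1, Core0.mem_Ce.2 (cmt_eq_one.1 (one _ ((mem_cmod.1 ht.2.2).2 y yW).2
      (cmt_mem_l m.yL (norm_cent (TL ht.1))))).symm⟩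
  have e := eq_of_le_of_card_ge (le_sup_left : T ⊓ Ce y ≤ (T ⊓ Ce y) ⊔ zpowers g) (c1.trans (card_le_of_le hsub))
  exact m.gD (e ▸ mem_sup_right (mem_zpowers g) : g ∈ T ⊓ Ce y).1

end CL.Q49
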