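/-
Project Q49: an involution of `K / Z(K)` centralising `L` and `z` has a centraliser not of characteristic 2.
-/
import Cfsg.Agent.Q49.Defs
import Cfsg.Agent.Q16.Lift
import Cfsg.Agent.Q16.Core0

set_option autoImplicit false

namespace CL.Q49

open Cfsg Subgroup CL.Even CL.Grp CL.Loc CL.Ags CL.Q16
open scoped commutatorElement

universe u

open CL.Q16.Lift in
theorem nc2 : NC2.{u} := by
  intro G _ _ K L z p e eL ez hc
  have hJ := p.cmp
  have zn := p.zn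
  have JK : L ≤ K := hJ.le.trans inf_le_left
  have KN : K ≤ 𝒩(K) := le_normalizer
  have nZ : 𝒩(K) ≤ 𝒩(K ⊓ 𝒞(K)) := le_norm_inf le_rfl (le_norm_cent le_rfl)
  have := (normal_subgroupOf_iff_le_normalizer (inf_le_left.trans KN)).2 nZ
  let π := QuotientGroup.mk' ((K ⊓ 𝒞(K)).subgroupOf 𝒩(K))
  have hπ : ∀ x : 𝒩(K), π x = 1 ↔ x.1 ∈ K ⊓ 𝒞(K) := fun x => QuotientGroup.eq_one_iff x
  let φ := QuotientGroup.lift (center K) (π.comp (inclusion KN)) fun x hx =>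
    (hπ _).2 ⟨x.2, fun y hy => congrArg Subtype.val (mem_center_iff.1 hx ⟨y, hy⟩)⟩
  have inj : Function.Injective φ := (injective_iff_map_eq_one φ).2 fun x hx => by
    obtain ⟨x, rfl⟩ := QuotientGroup.mk_surjective x
    exact (QuotientGroup.eq_one_iff x).2 (mem_center_iff.2 fun y => Subtype.ext (((hπ _).1 hx).2 y y.2))
  have im : (centralizer ({QuotientGroup.mk' (center K) e} : Set (K ⧸ center K))).map φ =
      bar π K ⊓ Ce (π (inclusion KN e)) := by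
    refine le_antisymm ?_ ?_
    · rintro _ ⟨x, hx, rfl⟩
      obtain ⟨x, rfl⟩ := QuotientGroup.mk_surjective x
      exact ⟨mem_bar π (x := inclusion KN x) x.2, mem_centralizer_singleton_iff.2 (by
        have := congrArg φ (mem_centralizer_singleton_iff.1 hx)
        rw [map_mul, map_mul] at this
        exact this)⟩
    · rintro _ ⟨⟨x, hx, rfl⟩, hx'⟩
      exact ⟨QuotientGroup.mk ⟨x, hx⟩, mem_centralizer_singleton_iff.2 (inj (by
        rw [map_mul, map_mul]; exact mem_centralizer_singleton_iff.1 hx')), rfl⟩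
  have c1 : IsCharP 2 (bar π K ⊓ Ce (π (inclusion KN e))) :=
    im ▸ isCharP_iff.2 (charP_congr (equivMapOfInjective _ φ inj).symm (isCharP_iff.1 hc))
  have cm : ∀ x y : 𝒩(K), x.1 * y = y * x → π x ∈ Ce (π y) := fun x y h => mem_centralizer_singleton_iff.2 (by
    rw [← map_mul, ← map_mul]; exact congrArg π (Subtype.ext h))
  have c2 := Core0.cz (z := π ⟨z, zn⟩) c1
    (by rw [← map_mul, show (⟨z, zn⟩ * ⟨z, zn⟩ : 𝒩(K)) = 1 from Subtype.ext p.iz.1, map_one])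
    (le_norm_inf (zpowers_le.2 (bar_norm π zn))
      (zpowers_le.2 (Core0.norm_Ce (Core0.mem_Ce.1 (cm _ _ ez.symm.eq)))) (mem_zpowers _))
  have hP : SubnIn ((K ⊓ Ce z).subgroupOf 𝒩(K)) (K.subgroupOf 𝒩(K) ⊓ (Ce (π ⟨z, zn⟩)).comap π) := by
    refine .of_le_normalizer (fun x hx => ⟨hx.1, cm _ _ (mem_centralizer_singleton_iff.1 hx.2)⟩)
      (le_normalizer_iff.2 fun p hp c hc => ⟨K.mul_mem (K.mul_mem hp.1 hc.1) (K.inv_mem hp.1), ?_⟩)
    have e1 : π p * π ⟨z, zn⟩ = π ⟨z, zn⟩ * π p := mem_centralizer_singleton_iff.1 hp.2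
    have e2 := ((hπ (p⁻¹ * ⟨z, zn⟩ * p * ⟨z, zn⟩⁻¹)).1 (by
      rw [map_mul, map_mul, map_mul, map_inv, map_inv, mul_assoc _ _ (π p), ← e1]; group)).2 c.1 hc.1
    have e3 : c.1 * z = z * c.1 := mem_centralizer_singleton_iff.1 hc.2
    change c.1 * (p.1⁻¹ * z * p.1 * z⁻¹) = p.1⁻¹ * z * p.1 * z⁻¹ * c.1 at e2
    refine mem_centralizer_singleton_iff.2 (show p.1 * c.1 * p.1⁻¹ * z = z * (p.1 * c.1 * p.1⁻¹) from ?_)
    calc p.1 * c.1 * p.1⁻¹ * z = p.1 * (c.1 * (p.1⁻¹ * z * p.1 * z⁻¹)) * z * p.1⁻¹ := by group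
      _ = z * p.1 * z⁻¹ * (c.1 * z) * p.1⁻¹ := by rw [e2]; group
      _ = _ := by rw [e3]; group
  have hJ' : IsCompIn (L.subgroupOf 𝒩(K)) (K.subgroupOf 𝒩(K) ⊓ (Ce (π ⟨z, zn⟩)).comap π) :=
    ⟨(hJ.1.comap (𝒩(K)).subtype).trans hP, (isQuasisimple_subgroupOf_iff (JK.trans KN)).2 hJ.2⟩
  have k := hJ'.map π fun h => IsQuasisimple.not_le_centralizer hJ.2 fun j hj y hy =>
    ((hπ ⟨j, KN (JK hj)⟩).1 (mem_bot.1 (h ▸ mem_bar π (H := L) hj))).2 y (JK hy)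
  refine Core0.not_charP k.2 (c2.of_subnIn (k.1.of_le ?_ ?_))
  · rintro _ ⟨x, hx, rfl⟩
    exact ⟨⟨mem_bar π (JK hx), cm _ _ (eL _ hx)⟩, cm _ _ (mem_centralizer_singleton_iff.1 (hJ.le hx).2)⟩
  · rintro _ ⟨⟨⟨x, hx, rfl⟩, -⟩, hx'⟩
    exact ⟨x, ⟨hx, hx'⟩, rfl⟩

namespace NC2x

theorem key (h0 : EvOf.{u}) (h1 : LK2.{u}) {G : Type u} [Group G] [Finite G] {K L : Subgroup G} {z : G} (p : Pr K L z)
    (e : K) (eL : (e : G) ∈ 𝒞(L)) (ez : Commute (e : G) z) (ie : Inv (e : G)) (eK : (e : G) ∉ 𝒞(K)) :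
    Ex4 (K ⧸ center K) ∧ QuotientGroup.mk' (center K) e ∉
      ⁅centralizer ({QuotientGroup.mk' (center K) e} : Set (K ⧸ center K)),
        centralizer ({QuotientGroup.mk' (center K) e} : Set (K ⧸ center K))⁆ :=
  (h1 _ p.qs.2 (IsQuasisimple.not_isMulCommutative_quotient p.qs) (h0 _ p.qs p.z2 p.ev) _ (inv_iff.1
    ⟨by rw [← QuotientGroup.mk_mul, show e * e = 1 from Subtype.ext ie.1]; rfl, fun h => eK fun y hy =>
      congrArg Subtype.val (mem_center_iff.1 ((QuotientGroup.eq_one_iff e).1 h) ⟨y, hy⟩)⟩)).resolve_left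
    (nc2 G K L z p e eL ez)

end NC2x

theorem redE (h0 : EvOf.{u}) (h1 : LK2.{u}) : RedE.{u} := fun _ _ _ _ _ _ p ⟨e, eK, eL, ez, ie, nC⟩ =>
  (NC2x.key h0 h1 p ⟨e, eK⟩ eL ez ie nC).1

theorem zl0 (h0 : EvOf.{u}) (h1 : LK2.{u}) : ZL0.{u} := by
  intro G _ _ K L z p e he eL ie
  by_contra nC
  have JK : L ≤ K := p.cmp.le.trans inf_le_left
  refine (NC2x.key h0 h1 p ⟨e, JK he⟩ eL (Core0.mem_Ce.1 (p.cmp.le he).2) ie nC).2 ?_
  have q := IsQuasisimple.commutator_self ((isQuasisimple_subgroupOf_iff JK).2 p.cmp.2)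
  have l : (L.subgroupOf K).map (QuotientGroup.mk' (center K)) ≤
      centralizer {QuotientGroup.mk' (center K) ⟨e, JK he⟩} := by
    rintro _ ⟨x, hx, rfl⟩
    refine mem_centralizer_singleton_iff.2 ?_
    rw [← map_mul, ← map_mul]
    exact congrArg _ (Subtype.ext (eL _ hx))
  refine commutator_mono l l ?_
  rw [← Subgroup.map_commutator, q]
  exact ⟨_, he, rfl⟩

end CL.Q49
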