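/-
Q49 (helper38): the groups `PSp₆` and `PΩ₈⁺` have `3`-rank at least three.
-/
import Cfsg.Agent.QT.CycCls

set_option autoImplicit false

namespace CL.Q49

open Cfsg Subgroup

namespace Rk3A

open Matrix CL.QT

/-- Independent commuting elements of order `p`, separated by subgroups. -/
theorem sep {K : Type*} [Group K] {p k : ℕ} (hp : p.Prime) {ι : Type} [Fintype ι] (x : ι → K)
    (D : ι → Subgroup K) (hx : ∀ i, x i ^ p = 1) (hc : ∀ i j, Commute (x i) (x j))
    (h1 : ∀ i, x i ∉ D i) (h2 : ∀ i j, i ≠ j → x j ∈ D i) (hk : k < Fintype.card ι) :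
    ¬ PRankLE p k K := by
  have := Fact.mk hp
  intro h
  have ho : ∀ i, orderOf (x i) = p := fun i =>
    orderOf_eq_prime (hx i) fun e => h1 i (e ▸ (D i).one_mem)
  let Z : ι → Subgroup K := fun i => Subgroup.zpowers (x i)
  have hcomm : Pairwise fun i j : ι => ∀ a b : K, a ∈ Z i → b ∈ Z j → Commute a b := by
    rintro i j - _ _ ⟨m, rfl⟩ ⟨n, rfl⟩
    exact (hc i j).zpow_zpow m n
  have hind : iSupIndep Z := by
    intro i
    rw [Subgroup.disjoint_def]
    intro a ha hb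
    have hle : (⨆ j, ⨆ _ : j ≠ i, Z j) ≤ D i :=
      iSup_le fun j => iSup_le fun hj => Subgroup.zpowers_le.2 (h2 i j hj.symm)
    by_contra ha1
    have hcard : Nat.card (Z i) = p := by rw [Nat.card_zpowers, ho]
    have : Finite (Z i) := Nat.finite_of_card_ne_zero (hcard ▸ hp.ne_zero)
    have hz : Subgroup.zpowers a = Z i := by
      refine Subgroup.eq_of_le_of_card_ge (Subgroup.zpowers_le.2 ha) ?_
      have hd : orderOf a ∣ p := hcard ▸ Subgroup.orderOf_dvd_natCard _ ha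
      rw [hcard, Nat.card_zpowers,
        ((Nat.dvd_prime hp).1 hd).resolve_left fun e => ha1 (orderOf_eq_one_iff.1 e)]
    exact h1 i (Subgroup.zpowers_le.2 (hle hb) (hz ▸ Subgroup.mem_zpowers (x i)))
  have hinj := Subgroup.injective_noncommPiCoprod_of_iSupIndep (hcomm := hcomm) hind
  have hr : (Subgroup.noncommPiCoprod hcomm).range = Subgroup.closure (Set.range x) := by
    rw [Subgroup.noncommPiCoprod_range]
    apply le_antisymm
    · exact iSup_le fun i => Subgroup.zpowers_le.2 (Subgroup.subset_closure ⟨i, rfl⟩)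
    · rw [Subgroup.closure_le]
      rintro _ ⟨i, rfl⟩
      exact Subgroup.mem_iSup_of_mem i (Subgroup.mem_zpowers _)
  have hcard : Nat.card (Subgroup.closure (Set.range x)) = p ^ Fintype.card ι := by
    rw [← hr, ← Nat.card_congr (MonoidHom.ofInjective hinj).toEquiv, Nat.card_pi]
    simp only [Z, Nat.card_zpowers, ho, Finset.prod_const, Finset.card_univ]
  have hA : IsMulCommutative (Subgroup.closure (Set.range x)) :=
    Subgroup.isMulCommutative_closure (by rintro _ ⟨i, rfl⟩ _ ⟨j, rfl⟩; exact hc i j)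
  have hpow : ∀ a ∈ Subgroup.closure (Set.range x), a ^ p = 1 := by
    intro a ha
    induction ha using Subgroup.closure_induction with
    | mem a ha => obtain ⟨i, rfl⟩ := ha; exact hx i
    | one => simp
    | mul a b ha hb iha ihb =>
      have : Commute a b := congrArg Subtype.val (hA.is_comm.comm ⟨a, ha⟩ ⟨b, hb⟩)
      rw [this.mul_pow, iha, ihb, one_mul]
    | inv a _ ih => rw [inv_pow, ih, inv_one]
  have := h _ hA hpow
  rw [hcard] at this
  exact absurd (Nat.pow_lt_pow_right hp.one_lt hk) (not_lt.2 this)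

theorem core {H K : Type*} [Group H] [Group K] (π : H →* K) (hk : π.ker ≤ Subgroup.center H)
    (x c : Fin 3 → H) (hx : ∀ i, x i ^ 3 = 1) (hc : ∀ i j, Commute (x i) (x j))
    (h2 : ∀ i j, i ≠ j → Commute (c i) (x j)) (h1 : ∀ i, ¬ Commute (c i) (x i)) :
    ¬ PRankLE 3 2 K := by
  refine sep Nat.prime_three (fun i => π (x i)) (fun i => (Subgroup.centralizer {c i}).map π)
    (fun i => by rw [← map_pow, hx, map_one]) (fun i j => (hc i j).map π) (fun i hi => h1 i ?_)
    (fun i j hij => Subgroup.mem_map_of_mem π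
      (Subgroup.mem_centralizer_singleton_iff.2 (h2 i j hij).symm)) (by simp)
  have h3 : x i ∈ ((Subgroup.centralizer {c i}).map π).comap π := hi
  rw [Subgroup.comap_map_eq_self (hk.trans (Subgroup.center_le_centralizer _))] at h3
  exact (Subgroup.mem_centralizer_singleton_iff.1 h3).symm

/-- Six elements with the property `P` that witness `3`-rank at least three modulo the centre. -/
def W3 {R : Type*} [Monoid R] (P : R → Prop) : Prop :=
  ∃ x c : Fin 3 → R, (∀ i, P (x i)) ∧ (∀ i, P (c i)) ∧ (∀ i, x i ^ 3 = 1) ∧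
    (∀ i j, Commute (x i) (x j)) ∧ (∀ i j, i ≠ j → Commute (c i) (x j)) ∧
    ∀ i, ¬ Commute (c i) (x i)

theorem W3.not_rank {R H K : Type*} [Monoid R] [Group H] [Group K] {P : R → Prop} (h : W3 P)
    (ρ : H →* R) (hρ : Function.Injective ρ) (hP : ∀ x, P x → ∃ g, ρ g = x)
    (e : K ≃* H ⧸ Subgroup.center H) : ¬ PRankLE 3 2 K := by
  obtain ⟨x, c, px, pc, hx, hc, h2, h1⟩ := h
  choose x' hx' using fun i => hP _ (px i)
  choose c' hc' using fun i => hP _ (pc i)
  exact core _ (ker_quot e).le x' c' (fun i => hρ (by rw [map_pow, hx', hx, map_one]))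
    (fun i j => Commute.of_map hρ (by rw [hx', hx']; exact hc i j))
    (fun i j hij => Commute.of_map hρ (by rw [hx', hc']; exact h2 i j hij))
    fun i e => h1 i (by rw [← hx', ← hc']; exact e.map ρ)

theorem w3_of_int {F : Type*} [Field F] {κ : Type} [Fintype κ] [DecidableEq κ]
    (x c : Fin 3 → Matrix κ κ ℤ) (hx : ∀ i, x i ^ 3 = 1) (hc : ∀ i j, x i * x j = x j * x i)
    (h2 : ∀ i j, i ≠ j → c i * x j = x j * c i) (a : Fin 3 → κ)
    (h1 : ∀ i, (c i * x i - x i * c i) (a i) (a i) = 1) {P : Matrix κ κ F → Prop}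
    (px : ∀ i, P ((x i).map Int.cast)) (pc : ∀ i, P ((c i).map Int.cast)) : W3 P := by
  let φ : Matrix κ κ ℤ →+* Matrix κ κ F := (Int.castRingHom F).mapMatrix
  have key : ∀ (x y : Matrix κ κ ℤ) (i j : κ), (x * y - y * x) i j = 1 →
      ¬ Commute (φ x) (φ y) := by
    intro x y i j h e
    have h1 : φ (x * y - y * x) = 0 := by rw [map_sub, map_mul, map_mul, e.eq, sub_self]
    have h2 : φ (x * y - y * x) i j = 1 := by
      change (((x * y - y * x) i j : ℤ) : F) = 1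
      rw [h, Int.cast_one]
    rw [h1] at h2
    exact zero_ne_one h2
  exact ⟨fun i => φ (x i), fun i => φ (c i), px, pc, fun i => by rw [← map_pow, hx, map_one],
    fun i j => Commute.map (hc i j) φ, fun i j hij => Commute.map (h2 i j hij) φ,
    fun i => key _ _ _ _ (h1 i)⟩

/-- elements of order three on the three hyperbolic planes -/
def sX (i : Fin 3) : Matrix (Fin 3 ⊕ Fin 3) (Fin 3 ⊕ Fin 3) ℤ :=
  fromBlocks (1 - single i i 1) (single i i (-1)) (single i i 1) (1 - single i i 2)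

/-- transvections on the three hyperbolic planes -/
def sC (i : Fin 3) : Matrix (Fin 3 ⊕ Fin 3) (Fin 3 ⊕ Fin 3) ℤ :=
  fromBlocks 1 (single i i 1) 0 1

theorem w3_sp6 (F : Type*) [Field F] :
    W3 fun M : Matrix (Fin 3 ⊕ Fin 3) (Fin 3 ⊕ Fin 3) F => M ∈ symplecticGroup (Fin 3) F := by
  have hX : ∀ i, sX i * J (Fin 3) ℤ * (sX i)ᵀ = J (Fin 3) ℤ := by decide +kernel
  have hC : ∀ i, sC i * J (Fin 3) ℤ * (sC i)ᵀ = J (Fin 3) ℤ := by decide +kernel
  exact w3_of_int sX sC (by decide +kernel) (by decide +kernel) (by decide +kernel) .inl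
    (by decide +kernel)
    (fun i => SymplecticGroup.map_mem (SymplecticGroup.mem_iff.2 (hX i)) (Int.castRingHom F))
    fun i => SymplecticGroup.map_mem (SymplecticGroup.mem_iff.2 (hC i)) (Int.castRingHom F)

theorem isoM_blocks {F : Type*} [Field F] {m : ℕ} (g h : Matrix (Fin m) (Fin m) ℤ)
    (hgh : gᵀ * h = 1) : IsoM (quadFormPlus m F) ((fromBlocks g 0 0 h).map Int.cast) := by
  intro v
  have e : (g.map (Int.cast : ℤ → F))ᵀ * h.map Int.cast = 1 := by
    have := congrArg (Int.castRingHom F).mapMatrix hgh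
    rw [map_mul, map_one] at this
    exact this
  have hv : v = Sum.elim (v ∘ Sum.inl) (v ∘ Sum.inr) := (Sum.elim_comp_inl_inr v).symm
  have hQ : ∀ a b : Fin m → F, quadFormPlus m F (Sum.elim a b) = a ⬝ᵥ b := fun a b => rfl
  rw [hv, fromBlocks_map, fromBlocks_mulVec, hQ, hQ]
  simp only [Matrix.map_zero _ Int.cast_zero, zero_mulVec, add_zero, zero_add,
    Sum.elim_comp_inl, Sum.elim_comp_inr]
  rw [dotProduct_mulVec, ← vecMul_transpose, vecMul_vecMul, e, vecMul_one]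

theorem comIso_conj {F : Type*} [Field F] {κ : Type} [Fintype κ] [DecidableEq κ]
    {Q : (κ → F) → F} {t M : Matrix κ κ ℤ} (ht : t * t = 1) (hT : IsoM Q (t.map Int.cast))
    (hM : ComIso Q (M.map Int.cast)) : ComIso Q ((t * M * t).map Int.cast) := by
  let φ : Matrix κ κ ℤ →+* Matrix κ κ F := (Int.castRingHom F).mapMatrix
  obtain ⟨x, y, x', y', h1, h2, hx, hy, e⟩ := hM
  have htt : φ t * φ t = 1 := by rw [← map_mul, ht, map_one]
  have hs : ∀ a b : Matrix κ κ F, φ t * a * φ t * (φ t * b * φ t) = φ t * (a * b) * φ t := by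
    intro a b
    calc φ t * a * φ t * (φ t * b * φ t) = φ t * a * (φ t * φ t) * b * φ t := by
          simp only [Matrix.mul_assoc]
      _ = _ := by rw [htt]; simp only [Matrix.mul_assoc, Matrix.one_mul]
  have e' : φ M = x * y * x' * y' := e
  refine ⟨φ t * x * φ t, φ t * y * φ t, φ t * x' * φ t, φ t * y' * φ t,
    by rw [hs, h1, mul_one, htt], by rw [hs, h2, mul_one, htt], (hT.mul hx).mul hT,
    (hT.mul hy).mul hT, ?_⟩
  change φ (t * M * t) = _
  rw [map_mul, map_mul, e', hs, hs, hs]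

/-- integral isometries of the split form in dimension eight -/
def pA : Matrix (Fin 4 ⊕ Fin 4) (Fin 4 ⊕ Fin 4) ℤ :=
  fromBlocks !![0, -1, 0, 0; 1, -1, 0, 0; 0, 0, 1, 0; 0, 0, 0, 1] 0 0
    !![-1, -1, 0, 0; 1, 0, 0, 0; 0, 0, 1, 0; 0, 0, 0, 1]
/-- integral isometries of the split form in dimension eight -/
def pS : Matrix (Fin 4 ⊕ Fin 4) (Fin 4 ⊕ Fin 4) ℤ :=
  fromBlocks !![0, 1, 0, 0; 1, 0, 0, 0; 0, 0, 1, 0; 0, 0, 0, 1] 0 0
    !![0, 1, 0, 0; 1, 0, 0, 0; 0, 0, 1, 0; 0, 0, 0, 1]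
/-- integral isometries of the split form in dimension eight -/
def pX (t : ℤ) : Matrix (Fin 4 ⊕ Fin 4) (Fin 4 ⊕ Fin 4) ℤ :=
  fromBlocks !![1, 0, t, 0; 0, 1, 0, 0; 0, 0, 1, 0; 0, 0, 0, 1] 0 0
    !![1, 0, 0, 0; 0, 1, 0, 0; -t, 0, 1, 0; 0, 0, 0, 1]
/-- integral isometries of the split form in dimension eight -/
def pY (t : ℤ) : Matrix (Fin 4 ⊕ Fin 4) (Fin 4 ⊕ Fin 4) ℤ :=
  fromBlocks !![1, 0, 0, 0; 0, 1, 0, 0; 0, t, 1, 0; 0, 0, 0, 1] 0 0
    !![1, 0, 0, 0; 0, 1, -t, 0; 0, 0, 1, 0; 0, 0, 0, 1]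
/-- integral isometries of the split form in dimension eight -/
def pW : Matrix (Fin 4 ⊕ Fin 4) (Fin 4 ⊕ Fin 4) ℤ :=
  fromBlocks !![0, 0, 1, 0; 0, 0, 0, 1; 1, 0, 0, 0; 0, 1, 0, 0] 0 0
    !![0, 0, 1, 0; 0, 0, 0, 1; 1, 0, 0, 0; 0, 1, 0, 0]
/-- integral isometries of the split form in dimension eight -/
def pT : Matrix (Fin 4 ⊕ Fin 4) (Fin 4 ⊕ Fin 4) ℤ :=
  fromBlocks !![1, 0, 0, 0; 0, 0, 0, 0; 0, 0, 1, 0; 0, 0, 0, 1]
    !![0, 0, 0, 0; 0, 1, 0, 0; 0, 0, 0, 0; 0, 0, 0, 0]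
    !![0, 0, 0, 0; 0, 1, 0, 0; 0, 0, 0, 0; 0, 0, 0, 0]
    !![1, 0, 0, 0; 0, 0, 0, 0; 0, 0, 1, 0; 0, 0, 0, 1]
/-- integral isometries of the split form in dimension eight -/
def pU : Matrix (Fin 4 ⊕ Fin 4) (Fin 4 ⊕ Fin 4) ℤ :=
  fromBlocks !![1, 1, 0, 0; 0, 1, 0, 0; 0, 0, 1, 0; 0, 0, 0, 1] 0 0
    !![1, 0, 0, 0; -1, 1, 0, 0; 0, 0, 1, 0; 0, 0, 0, 1]

theorem w3_o8 (F : Type*) [Field F] : W3 (ComIso (quadFormPlus 4 F)) := by
  have hA : IsoM (quadFormPlus 4 F) (pA.map Int.cast) := isoM_blocks _ _ (by decide +kernel)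
  have hS : IsoM (quadFormPlus 4 F) (pS.map Int.cast) := isoM_blocks _ _ (by decide +kernel)
  have hX : IsoM (quadFormPlus 4 F) ((pX 1).map Int.cast) := isoM_blocks _ _ (by decide +kernel)
  have hY : IsoM (quadFormPlus 4 F) ((pY 1).map Int.cast) := isoM_blocks _ _ (by decide +kernel)
  have hW : IsoM (quadFormPlus 4 F) (pW.map Int.cast) := isoM_blocks _ _ (by decide +kernel)
  have hT : IsoM (quadFormPlus 4 F) (pT.map Int.cast) := fun v => by
    simp [pT, quadFormPlus, mulVec, dotProduct, Fin.sum_univ_four]; ring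
  have cA : ComIso (quadFormPlus 4 F) (pA.map Int.cast) :=
    comIso_of_int pS pA pS (pA * pA) _ (by decide +kernel) (by decide +kernel)
      (by decide +kernel) hS hA
  have cU : ComIso (quadFormPlus 4 F) (pU.map Int.cast) :=
    comIso_of_int (pX 1) (pY 1) (pX (-1)) (pY (-1)) _ (by decide +kernel) (by decide +kernel)
      (by decide +kernel) hX hY
  have tT : pT * pT = 1 := by decide +kernel
  have tW : pW * pW = 1 := by decide +kernel
  refine w3_of_int ![pA, pT * pA * pT, pW * pA * pW] ![pU, pT * pU * pT, pW * pU * pW]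
    (by decide +kernel) (by decide +kernel) (by decide +kernel) ![.inl 0, .inl 0, .inl 2]
    (by decide +kernel) (fun i => ?_) fun i => ?_
  · fin_cases i
    exacts [cA, comIso_conj tT hT cA, comIso_conj tW hW cA]
  · fin_cases i
    exacts [cU, comIso_conj tT hT cU, comIso_conj tW hW cU]

theorem W3.not_rank_omega {F : Type*} [Field F] {ι : Type} [Fintype ι] [DecidableEq ι]
    {Q : (ι → F) → F} (h : W3 (ComIso Q)) {K : Type*} [Group K] (e : K ≃* POmega F Q) :
    ¬ PRankLE 3 2 K := by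
  refine h.not_rank ((Units.coeHom _).comp ((isometryGroup F Q).subtype.comp
    (Omega F Q).subtype)) (Units.val_injective.comp
      (Subtype.val_injective.comp Subtype.val_injective)) ?_ e
  rintro _ ⟨x, y, x', y', h1, h2, hx, hy, rfl⟩
  let X : isometryGroup F Q := ⟨⟨x, x', h1, mul_eq_one_comm.1 h1⟩, fun u _ => hx u⟩
  let Y : isometryGroup F Q := ⟨⟨y, y', h2, mul_eq_one_comm.1 h2⟩, fun u _ => hy u⟩
  exact ⟨⟨X * Y * X⁻¹ * Y⁻¹, Subgroup.commutator_mem_commutator (Subgroup.mem_top X)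
    (Subgroup.mem_top Y)⟩, rfl⟩

end Rk3A

theorem rk3_psp {F K : Type*} [Field F] [Group K] [Finite K] (e : K ≃* PSp 3 F) :
    ¬ PRankLE 3 2 K :=
  (Rk3A.w3_sp6 F).not_rank (Matrix.symplecticGroup (Fin 3) F).subtype
    Subtype.val_injective (fun x hx => ⟨⟨x, hx⟩, rfl⟩) e

theorem rk3_plus {F K : Type*} [Field F] [Group K] [Finite K]
    (e : K ≃* POmega F (quadFormPlus 4 F)) : ¬ PRankLE 3 2 K :=
  (Rk3A.w3_o8 F).not_rank_omega e

end CL.Q49
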