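/-
Project Q49: `U₄(2)` and `U₆(2)` have 3-rank at least three.
-/
import Cfsg.Agent.QT.CycCls
import Cfsg.Agent.QT.E3

set_option autoImplicit false

namespace CL.Q49

open Cfsg Subgroup

namespace Rk3B
open Matrix CL.QT

theorem core {R H K : Type*} [Monoid R] [Group H] [Group K] {P : R → Prop} (ρ : H →* R)
    (hρ : Function.Injective ρ) (hP : ∀ x, P x → ∃ g, ρ g = x) (e : K ≃* H ⧸ center H) (x c : Fin 3 → R)
    (px : ∀ i, P (x i)) (pc : ∀ i, P (c i)) (hx : ∀ i, x i ^ 3 = 1) (hc : ∀ i, c i * c i = 1)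
    (h0 : ∀ i j, Commute (x i) (x j)) (h1 : ∀ i, ¬ Commute (c i) (c i * x i * c i * x i * x i))
    (h2 : ∀ i j, i ≠ j → Commute (c i) (x j)) : ¬ PRankLE 3 2 K := by
  choose y hy using fun i => hP _ (px i)
  choose d hd using fun i => hP _ (pc i)
  let π : H →* K := e.symm.toMonoidHom.comp (QuotientGroup.mk' (center H))
  have hk : π.ker = center H := ker_quot e
  have cm : ∀ a b : H, Commute (ρ a) (ρ b) → Commute a b := fun a b h => hρ (by rw [map_mul, map_mul]; exact h)
  have y3 : ∀ i, y i ^ 3 = 1 := fun i => hρ (by rw [map_pow, hy, hx, map_one])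
  have dd : ∀ i, d i * d i = 1 := fun i => hρ (by rw [map_mul, hd, hc, map_one])
  intro h
  refine not_pRankLE_of_sep (k := 2) Nat.prime_three (fun i => π (y i)) (fun i => π (d i)) (H := ⊤)
    (fun _ => mem_top _) (fun i => by rw [← map_pow, y3, map_one])
    (fun i j => (cm _ _ (by rw [hy, hy]; exact h0 i j)).map π) (fun i hi => h1 i ?_)
    (fun i j hij => (cm _ _ (by rw [hy, hd]; exact h2 i j hij)).map π) (by simp) ?_
  · have h3 : d i * y i * d i * y i * y i ∈ π.ker := by
      rw [MonoidHom.mem_ker]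
      simp only [map_mul]
      rw [mul_assoc (π (d i)), ← hi.eq, ← mul_assoc, ← map_mul, dd, map_one, one_mul, ← map_mul, ← map_mul,
        ← pow_three', y3, map_one]
    rw [hk] at h3
    have h4 : Commute (d i) (d i * y i * d i * y i * y i) := mem_center_iff.1 h3 (d i)
    have h5 := h4.map ρ
    simpa only [map_mul, hy, hd] using h5
  · exact CL.Loc.pRankLE_subgroup h ⊤

variable {F : Type*} [Field F]

def xM (t : F) : Fin 3 → Matrix (Fin 4) (Fin 4) F :=
  ![diagonal ![1, t, t, t], diagonal ![t, 1, t, t], diagonal ![t, t, 1, t]]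

def cM (F : Type*) [Field F] : Fin 3 → Matrix (Fin 4) (Fin 4) F :=
  ![!![0, 0, 0, 1; 0, 1, 0, 0; 0, 0, 1, 0; 1, 0, 0, 0], !![1, 0, 0, 0; 0, 0, 0, 1; 0, 0, 1, 0; 0, 1, 0, 0],
    !![1, 0, 0, 0; 0, 1, 0, 0; 0, 0, 0, 1; 0, 0, 1, 0]]

theorem xM_diag (t : F) (i : Fin 3) : ∃ d : Fin 4 → F, xM t i = diagonal d ∧ ∏ j, d j = t ^ 3 ∧
    ∀ j, ∃ k : ℤ, d j = t ^ k := by
  have a : ∃ k : ℤ, (1 : F) = t ^ k := ⟨0, by simp⟩
  have b : ∃ k : ℤ, t = t ^ k := ⟨1, by simp⟩
  fin_cases i
  · refine ⟨_, rfl, by simp [Fin.prod_univ_four, pow_three'], fun j => ?_⟩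
    fin_cases j
    exacts [a, b, b, b]
  · refine ⟨_, rfl, by simp [Fin.prod_univ_four, pow_three'], fun j => ?_⟩
    fin_cases j
    exacts [b, a, b, b]
  · refine ⟨_, rfl, by simp [Fin.prod_univ_four, pow_three'], fun j => ?_⟩
    fin_cases j
    exacts [b, b, a, b]

theorem cM_sq (i : Fin 3) : cM F i * cM F i = 1 := by
  fin_cases i <;> (ext a b; fin_cases a <;> fin_cases b <;> simp [cM, Matrix.mul_apply, Fin.sum_univ_four])

theorem cM_up (σ : F →+* F) (t : F) (h : (-1 : F) = 1) (i : Fin 3) : UP σ t (cM F i) := by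
  refine ⟨?_, fun _ => ?_⟩
  · fin_cases i <;> simp [cM, det_succ_row_zero, Fin.sum_univ_succ, Fin.succAbove, h]
  · fin_cases i <;> (ext a b; fin_cases a <;> fin_cases b <;> simp [cM, Matrix.mul_apply, Fin.sum_univ_four])

theorem cM_comm (t : F) (i j : Fin 3) (h : i ≠ j) : Commute (cM F i) (xM t j) := by
  fin_cases i <;> fin_cases j <;> first
    | exact absurd rfl h
    | (ext a b; fin_cases a <;> fin_cases b <;> simp [cM, xM])

theorem cM_not {t : F} (ht : t ^ 3 = 1) (ht1 : t ≠ 1) (i : Fin 3) :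
    ¬ Commute (cM F i) (cM F i * xM t i * cM F i * xM t i * xM t i) := by
  have ht0 : t ≠ 0 := by rintro rfl; simp at ht
  intro e
  fin_cases i
  · have := congrFun (congrFun e.eq 0) 3
    simp only [Matrix.mul_apply, Fin.sum_univ_four] at this
    simp [cM, xM, ht0] at this
    exact ht1 this
  · have := congrFun (congrFun e.eq 1) 3
    simp only [Matrix.mul_apply, Fin.sum_univ_four] at this
    simp [cM, xM, ht0] at this
    exact ht1 this
  · have := congrFun (congrFun e.eq 2) 3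
    simp only [Matrix.mul_apply, Fin.sum_univ_four] at this
    simp [cM, xM, ht0] at this
    exact ht1 this

end Rk3B

open Rk3B CL.QT CL.Uni Matrix in
theorem rk3_psu {F K : Type*} [Field F] [Fintype F] [Group K] [Finite K] (hF : Fintype.card F = 2 ^ 2) {n : ℕ}
    (hn : n = 4 ∨ n = 6) (e : K ≃* PSU n F 2) : ¬ PRankLE 3 2 K := by
  have hσ := isBar_bar hF
  obtain ⟨t, ht⟩ := hσ.exists_primitiveRoot
  have hN : t * bar hF t = 1 := by rw [hσ.norm_eq_pow, ht.pow_eq_one]
  have ht3 : t ^ 3 = 1 := ht.pow_eq_one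
  have ht1 : t ≠ 1 := ht.ne_one (by norm_num)
  have h2 : (-1 : F) = 1 := by
    have h4 := FiniteField.cast_card_eq_zero F
    rw [hF] at h4
    have h5 : (2 : F) = 0 := pow_eq_zero_iff (n := 2) (by norm_num) |>.1 (by exact_mod_cast h4)
    linear_combination -h5
  have hinj : Function.Injective (SpecialLinearGroup.coeMonoidHom.comp (SU n F 2).subtype) :=
    Subtype.val_injective.comp Subtype.val_injective
  have h4 : 4 ≤ n := by omega
  have hj := Fin.castLE_injective h4
  refine core _ hinj (exists_su_of_up hσ hN) e (fun i => extM hj (xM t i)) (fun i => extM hj (cM F i))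
    (fun i => up_ext hj _ ?_) (fun i => up_ext hj _ (cM_up _ t h2 i)) (fun i => ?_)
    (fun i => by rw [← map_mul, cM_sq, map_one]) (fun i j => Commute.map ?_ _) (fun i h => cM_not ht3 ht1 i ?_)
    (fun i j h => (cM_comm t i j h).map _)
  · obtain ⟨d, e1, e2, e3⟩ := xM_diag t i
    rw [e1]
    exact up_diagonal (e2.trans ht3) e3
  · obtain ⟨d, e1, -, e3⟩ := xM_diag t i
    rw [← map_pow, e1, diagonal_pow_eq_one ht3 e3, map_one]
  · obtain ⟨d, e1, -⟩ := xM_diag t i
    obtain ⟨d', e1', -⟩ := xM_diag t j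
    rw [e1, e1']
    exact commute_diagonal _ _
  · refine extM_injective hj ?_
    simpa only [map_mul] using h.eq

end CL.Q49
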