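import Cfsg.Agent.QT.CycB
import Cfsg.Agent.QT.E3

/-! The groups `F₄(F)` and `²E₆(q)` have `3`-rank at least three. -/

set_option autoImplicit false

namespace CL.Q49

open Cfsg Subgroup

namespace Rk3C

open Cfsg.Lie CL.Chev CL.Chev.Cert CL.QT.Cy

/-- the commutator word -/
def cw (a b : List (ℕ × ℤ)) : List (ℕ × ℤ) := a ++ b ++ invW (b ++ a)

/-- the certificate for three orthogonal pairs of opposite roots -/
noncomputable def chk27 (A : Aux) (r0 s0 r1 s1 r2 s2 : ℕ) : Bool :=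
  oneZ A 0 (w3 r0 s0 ++ w3 r0 s0 ++ w3 r0 s0) && oneZ A 0 (w3 r1 s1 ++ w3 r1 s1 ++ w3 r1 s1) &&
    oneZ A 0 (w3 r2 s2 ++ w3 r2 s2 ++ w3 r2 s2) &&
    oneZ A 0 (cw (w3 r0 s0) (w3 r1 s1)) && oneZ A 0 (cw (w3 r0 s0) (w3 r2 s2)) &&
    oneZ A 0 (cw (w3 r1 s1) (w3 r2 s2)) &&
    neZ A 0 (cw [(r0, 1)] (w3 r0 s0)) && neZ A 0 (cw [(r1, 1)] (w3 r1 s1)) && neZ A 0 (cw [(r2, 1)] (w3 r2 s2)) &&
    oneZ A 0 (cw [(r0, 1)] (w3 r1 s1)) && oneZ A 0 (cw [(r0, 1)] (w3 r2 s2)) &&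
    oneZ A 0 (cw [(r1, 1)] (w3 r0 s0)) && oneZ A 0 (cw [(r1, 1)] (w3 r2 s2)) &&
    oneZ A 0 (cw [(r2, 1)] (w3 r0 s0)) && oneZ A 0 (cw [(r2, 1)] (w3 r1 s1))

section
variable {D : ChevalleyDatum} {A : Aux} (T : Tab D A) (E : Real D) {F : Type*} [Field F]

theorem cw_iff (a b : List (ℕ × ℤ)) :
    E.word (cst F (cw a b)) = 1 ↔ Commute (E.word (cst F a)) (E.word (cst F b)) := by
  rw [cw, cst, List.map_append, E.word_append, word_invW E, mul_inv_eq_one]
  simp only [cst, List.map_append, E.word_append]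
  rfl

include T

theorem cw_one {a b : List (ℕ × ℤ)} (h : oneZ A 0 (cw a b) = true) :
    Commute (E.word (cst F a)) (E.word (cst F b)) := (cw_iff E a b).1 (oneZ_sound Int.cast_zero T E h)

theorem cw_ne {a b : List (ℕ × ℤ)} (h : neZ A 0 (cw a b) = true) :
    ¬ Commute (E.word (cst F a)) (E.word (cst F b)) := fun c => neZ_sound Int.cast_zero T E h ((cw_iff E a b).2 c)

theorem cube {a : List (ℕ × ℤ)} (h : oneZ A 0 (a ++ a ++ a) = true) : E.word (cst F a) ^ 3 = 1 := by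
  have g := oneZ_sound (F := F) Int.cast_zero T E h
  simp only [cst, List.map_append, E.word_append] at g
  rw [pow_three']
  exact g

theorem mem_of {K : Subgroup (GL D.Idx F)} {g : List (List (ℕ × ℤ))} (hg : ∀ x ∈ g, E.word (cst F x) ∈ K)
    {w : List ℕ} {y : List (ℕ × ℤ)} (h : oneZ A 0 (expand g w ++ invW y) = true) : E.word (cst F y) ∈ K := by
  have g1 := oneZ_sound (F := F) Int.cast_zero T E h
  rw [cst, List.map_append, E.word_append, word_invW E, mul_inv_eq_one] at g1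
  exact g1 ▸ expand_mem E hg w

omit T in
theorem w3_mem {K : Subgroup (GL D.Idx F)} {r s : ℕ} (hr : E.word (cst F [(r, 1)]) ∈ K)
    (hs : E.word (cst F [(s, 1)]) ∈ K) : E.word (cst F (w3 r s)) ∈ K :=
  expand_mem E (g := [[(r, 1)], [(s, 1)]]) (by
    intro x hx
    simp only [List.mem_cons, List.not_mem_nil, or_false] at hx
    rcases hx with rfl | rfl
    exacts [hr, hs]) [0, 3, 0, 3]

theorem chk27_sound {K : Subgroup (GL D.Idx F)} {r0 s0 r1 s1 r2 s2 : ℕ} (h : chk27 A r0 s0 r1 s1 r2 s2 = true)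
    (m0 : E.word (cst F (w3 r0 s0)) ∈ K) (m1 : E.word (cst F (w3 r1 s1)) ∈ K) (m2 : E.word (cst F (w3 r2 s2)) ∈ K) :
    ¬ PRankLE 3 2 K := by
  simp only [chk27, Bool.and_eq_true] at h
  obtain ⟨⟨⟨⟨⟨⟨⟨⟨⟨⟨⟨⟨⟨⟨a0, a1⟩, a2⟩, b0⟩, b1⟩, b2⟩, c0⟩, c1⟩, c2⟩, d0⟩, d1⟩, d2⟩, d3⟩, d4⟩, d5⟩ := h
  refine CL.QT.not_pRankLE_of_sep Nat.prime_three
    ![E.word (cst F (w3 r0 s0)), E.word (cst F (w3 r1 s1)), E.word (cst F (w3 r2 s2))]
    ![E.word (cst F [(r0, 1)]), E.word (cst F [(r1, 1)]), E.word (cst F [(r2, 1)])]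
    (fun i => ?_) (fun i => ?_) (fun i j => ?_) (fun i => ?_) (fun i j e => ?_) (by simp)
  · fin_cases i
    exacts [m0, m1, m2]
  · fin_cases i
    exacts [cube T E a0, cube T E a1, cube T E a2]
  · fin_cases i <;> fin_cases j
    exacts [Commute.refl _, cw_one T E b0, cw_one T E b1, (cw_one T E b0).symm, Commute.refl _, cw_one T E b2,
      (cw_one T E b1).symm, (cw_one T E b2).symm, Commute.refl _]
  · fin_cases i
    exacts [cw_ne T E c0, cw_ne T E c1, cw_ne T E c2]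
  · fin_cases i <;> fin_cases j
    exacts [absurd rfl e, cw_one T E d0, cw_one T E d1, cw_one T E d2, absurd rfl e, cw_one T E d3,
      cw_one T E d4, cw_one T E d5, absurd rfl e]

end

theorem chkF4 : chk27 auxF4 25 22 30 17 41 6 = true := by decide +kernel
theorem chkE6 : chk27 auxE6 39 32 44 27 60 11 = true := by decide +kernel

def gA : List (List (ℕ × ℤ)) := [[(42, 1), (37, 1)], [(29, 1), (34, 1)], [(39, 1)], [(32, 1)]]
def gB : List (List (ℕ × ℤ)) := [[(56, 1), (36, 1)], [(15, 1), (35, 1)], [(44, 1)], [(27, 1)]]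

theorem e44 : oneZ auxE6 0 (expand gA [0, 3, 0, 5, 1, 2, 1] ++ invW [(44, 1)]) = true := by decide +kernel
theorem e27 : oneZ auxE6 0 (expand gA [0, 3, 0, 7, 1, 2, 1] ++ invW [(27, 1)]) = true := by decide +kernel
theorem e60 : oneZ auxE6 0 (expand gB [0, 3, 0, 5, 1, 2, 1] ++ invW [(60, 1)]) = true := by decide +kernel
theorem e11 : oneZ auxE6 0 (expand gB [0, 3, 0, 7, 1, 2, 1] ++ invW [(11, 1)]) = true := by decide +kernel

end Rk3C

open Cfsg.Lie CL.Chev CL.Chev.Cert CL.QT.Cy Rk3C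

theorem rk3_F4 (F : Type*) [Field F] : ¬ PRankLE 3 2 ↥(Lie.chevF4.group F) := by
  have m : ∀ w : List (ℕ × F), realF4.word w ∈ chevF4.group F := fun w => by
    rw [realF4.group_eq, Real.word]
    exact Subgroup.list_prod_mem _ fun x hx => by
      obtain ⟨p, -, rfl⟩ := List.mem_map.1 hx
      exact realF4.xN_mem_grp _ _
  exact chk27_sound tabF4 realF4 Rk3C.chkF4 (m _) (m _) (m _)

theorem rk3_2E6 (F : Type*) [Field F] (q : ℕ) : ¬ PRankLE 3 2 ↥(Lie.twistedE6 F q) := by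
  have m : ∀ x : List (ℕ × ℤ), cst F x ∈ e6Words F q → realE6.word (cst F x) ∈ twistedE6 F q := fun x hx => by
    rw [twistedE6, realE6.genSubgroup_eq]; exact Subgroup.subset_closure ⟨_, hx, rfl⟩
  have m39 := m [(39, 1)] (.inl ⟨1, one_pow _, 39, by decide, by simp [cst]⟩)
  have m32 := m [(32, 1)] (.inl ⟨1, one_pow _, 32, by decide, by simp [cst]⟩)
  have hA : ∀ x ∈ gA, realE6.word (cst F x) ∈ twistedE6 F q := fun x hx => by
    simp only [gA, List.mem_cons, List.not_mem_nil, or_false] at hx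
    rcases hx with rfl | rfl | rfl | rfl
    · exact m _ (.inr ⟨1, (42, 37), by decide, by simp [cst]⟩)
    · exact m _ (.inr ⟨1, (29, 34), by decide, by simp [cst]⟩)
    exacts [m39, m32]
  have m44 := mem_of tabE6 realE6 hA e44
  have m27 := mem_of tabE6 realE6 hA e27
  have hB : ∀ x ∈ gB, realE6.word (cst F x) ∈ twistedE6 F q := fun x hx => by
    simp only [gB, List.mem_cons, List.not_mem_nil, or_false] at hx
    rcases hx with rfl | rfl | rfl | rfl
    · exact m _ (.inr ⟨1, (56, 36), by decide, by simp [cst]⟩)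
    · exact m _ (.inr ⟨1, (15, 35), by decide, by simp [cst]⟩)
    exacts [m44, m27]
  exact chk27_sound tabE6 realE6 Rk3C.chkE6 (w3_mem realE6 m39 m32) (w3_mem realE6 m44 m27)
    (w3_mem realE6 (mem_of tabE6 realE6 hB e60) (mem_of tabE6 realE6 hB e11))

end CL.Q49
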