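/-
Project Q49: the maximal counterexample, and the pump-up.
-/
import Cfsg.Agent.Q49.Defs
import Cfsg.Agent.Loc.KConn

set_option autoImplicit false

namespace CL.Q49

open Cfsg Subgroup CL.Even CL.Grp CL.Loc CL.Ags CL.Q16

universe u

namespace SetX

variable {G : Type u} [Group G]

theorem cjCe (g x : G) : cj g (Ce x) = Ce (g * x * g⁻¹) := by
  ext y
  rw [mem_cj, mem_centralizer_singleton_iff, mem_centralizer_singleton_iff]
  constructor
  · intro h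
    calc y * (g * x * g⁻¹) = g * (g⁻¹ * y * g * x) * g⁻¹ := by group
      _ = g * (x * (g⁻¹ * y * g)) * g⁻¹ := by rw [h]
      _ = _ := by group
  · intro h
    calc g⁻¹ * y * g * x = g⁻¹ * (y * (g * x * g⁻¹)) * g := by group
      _ = g⁻¹ * (g * x * g⁻¹ * y) * g := by rw [h]
      _ = _ := by group

theorem zN {T L : Subgroup G} {z : G} (h : Gb T) (zc : T ≤ Ce z) (iz : Inv z) (cL : IsCompIn L (Ce z)) :
    Ce z ≤ 𝒩(L) := h.nrm z 1 iz (by rwa [cj_one]) L cL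

end SetX

open SetX in
theorem setT : SetT.{u} := by
  intro G _ _ T L z w gb zT zc iz cL iw wL bad
  have := Fact.mk Nat.prime_two
  let S : Set (G × Subgroup G) := {q | Inv q.1 ∧ q.1 ∈ 𝒞(L) ∧ ¬ IsCompIn L (Ce q.1) ∧ IsPGroup 2 q.2 ∧
    q.2 ≤ 𝒩(L) ⊓ Ce q.1}
  obtain ⟨⟨v, P⟩, ⟨iv, vL, bv, pP, hP⟩, hmax⟩ := Set.exists_max_image S (fun q => Nat.card q.2) (Set.toFinite _)
    ⟨(w, ⊥), iw, wL, bad, IsPGroup.of_bot, bot_le⟩
  have sP : IsSylowIn 2 P (𝒩(L) ⊓ Ce v) := isSylowIn_of_maximal hP pP fun U hU h1 h2 =>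
    (eq_of_le_of_card_ge h1 (hmax (v, U) ⟨iv, vL, bv, hU, h2⟩)).symm
  have vP : v ∈ P := by
    have h1 : zpowers v ≤ 𝒩(L) ⊓ Ce v :=
      zpowers_le.2 ⟨cent_le_norm L vL, mem_centralizer_singleton_iff.2 rfl⟩
    refine sP.le_of_normalized iv.two.isP h1 (inf_le_right.trans ?_) (mem_zpowers v)
    exact le_trans (by rw [zpowers_eq_closure, centralizer_closure]) (cent_le_norm _)
  have TN : T ≤ 𝒩(L) := zc.trans (zN gb zc iz cL)
  obtain ⟨n, hn, hle⟩ := syl_conj_le (gb.syl.of_le TN le_top) pP (hP.trans inf_le_left)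
  have eL : cj n L = L := cj_eq hn
  have s1 : IsSylowIn 2 (cj n P) (𝒩(L) ⊓ Ce (n * v * n⁻¹)) := by
    have := syl_cj sP n
    rwa [cj_inf, cj_norm, eL, cjCe] at this
  have e1 : T ⊓ Ce (n * v * n⁻¹) = cj n P := s1.eq_of_le gb.syl.isPGroup.to_inf_left
    (le_inf hle (s1.le.trans inf_le_right)) (inf_le_inf_right _ TN)
  refine ⟨n * v * n⁻¹, gb, zT, zc, iz, cL, hle (conj_mem_cj n vP), iv.conj n, eL ▸ mem_cent_conj n vL,
    fun c => bv ?_, e1 ▸ s1, fun w' iw' wL' Q pQ hQ hc => ?_⟩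
  · have h1 : IsCompIn (cj n⁻¹ L) (cj n⁻¹ (Ce (n * v * n⁻¹))) := c.conj_smul n⁻¹
    rwa [← cjCe, cj_inv_cj, cj_eq (inv_mem hn)] at h1
  · by_contra b
    have := hmax (w', Q) ⟨iw', wL', b, pQ, hQ⟩
    rw [e1, card_cj] at hc
    exact absurd this (not_le.2 hc)

open SetX in
theorem gk : GK.{u} := by
  intro G _ _ T L K z y s cK le zK
  have := Fact.mk Nat.prime_two
  have hz := zN s.toGb s.zc s.iz s.cL
  have nK : 𝒩(L) ⊓ Ce y ≤ 𝒩(K) := fun d hd => by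
    have c1 : IsCompIn (cj d K) (Ce y) := cK.conj_smul_of_mem_normalizer (le_normalizer hd.2)
    have l1 : L ≤ cj d K := (cj_eq hd.1).symm.le.trans (cj_mono d le)
    refine cj_eq_iff_mem.1 ((c1.eq_or_commutator_eq_bot cK).resolve_right fun c => ?_)
    exact IsQuasisimple.not_le_centralizer s.cL.2 (l1.trans ((le_cent_iff.2 c).trans (cent_mono le)))
  have z2 := (s.gl.lk y s.iy K cK).1
  have hZ : IsPGroup 2 (K ⊓ 𝒞(K) : Subgroup G) := map_center_subtype_eq_inf K ▸ z2.map K.subtype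
  have ZD : K ⊓ 𝒞(K) ≤ T ⊓ Ce y := s.sD.le_of_normalized hZ
    (le_inf (inf_le_right.trans ((cent_mono le).trans (cent_le_norm L))) (inf_le_left.trans cK.le))
    (le_norm_inf nK (le_norm_cent nK))
  refine ⟨s, cK, le, zK, s.sD.le.trans nK, cK.2, z2, s.ev y s.iy K cK, s.ev z s.iz L s.cL, s.iz, zK,
    fun c hc => mem_centralizer_singleton_iff.1 (s.zc (ZD hc).1),
    s.cL.of_le (le_inf le s.cL.le) inf_le_right, inf_le_right.trans hz, fun e => s.bad (e ▸ cK), fun p hp h2 => ?_⟩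
  exact pRankLE_mono_le (s.gl.qt p hp h2 𝒩(zpowers y) ⟨zpowers y, s.iy.two.isP, zpowers_ne_bot.2 s.iy.2, rfl⟩)
    (cK.le.trans (le_trans (by rw [zpowers_eq_closure, centralizer_closure]) (cent_le_norm _)))

end CL.Q49
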