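/-
Project Q49 (S1849): tables of involutions in a model `A` of the automorphism group of a simple group `M`.
-/
import Cfsg.Agent.Q49.Defs
import Cfsg.Agent.Q49.Lift0
import Cfsg.Agent.Spor.PGTop2
import Cfsg.Agent.Spor.PGCov
import Cfsg.Agent.Spor.PGStruct
import Cfsg.Agent.Fgs.SchurCover

set_option autoImplicit false
set_option linter.unusedSectionVars false

namespace CL.Q49M

open Cfsg Subgroup CL.Even CL.Grp CL.Loc CL.PG
open scoped commutatorElement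

variable {Γ : Type*} [Group Γ]

/-- the commutator subgroup of `C_M(t)` -/
def Dv (M : Subgroup Γ) (t : Γ) : Subgroup Γ := ⁅M ⊓ centralizer {t}, M ⊓ centralizer {t}⁆

/-- the class of `a` in `N` is invariant under automorphisms -/
def Stb (N : Subgroup Γ) (a : Γ) : Prop := ∀ φ : MulAut N, ∀ x : N, (x : Γ) = a → ∃ n ∈ N, n * a * n⁻¹ = φ x

/-- the words -/
def Wd (t : Γ) (M N : Subgroup Γ) : Prop := ∃ q ∈ M, ∃ l ∈ N, ∃ v ∈ M, ∃ s ∈ M, ∃ s' ∈ M, ∃ a q' : Γ,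
  q * t = t * (v * q) ∧ v * t = t * v ∧ l * v = v * (a * l) ∧ a ≠ 1 ∧ s * s = a ∧ s' * s' = a ∧ s * q = q * s ∧
    q' * l = l * q ∧ s' * q' = q' * s' ∧ Stb N a

def Row (b : Prop) (M : Subgroup Γ) (t : Γ) : Prop := ∀ N : Subgroup Γ, Finite N → N ≤ Dv M t → Dv M t ≤ 𝒩(N) →
  IsSimpleGroup N → ¬ IsMulCommutative N → b ∧ N = Dv M t ∧ Wd t M N

def Tb (b : Prop) (A M : Subgroup Γ) : Prop := ∀ t ∈ A, t * t = 1 → t = 1 ∨ ∃ y ∈ A, ∃ t₀, y * t₀ * y⁻¹ = t ∧ Row b M t₀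

def Gam (A M : Subgroup Γ) : Prop := ∃ S ≤ M, ∃ k m : ℕ, Nat.card S = 2 ^ k ∧ Nat.card M = 2 ^ k * m ∧ m % 2 = 1 ∧
  A ⊓ 𝒞(S) ≤ M

structure Md (b : Prop) (A M : Subgroup Γ) (n : ℕ) : Prop where
  le : M ≤ A
  cM : Nat.card M = n
  cA : Nat.card A = 2 * n
  pos : 0 < n
  cL : A ⊓ 𝒞(M) = ⊥
  tb : Tb b A M
  gam : Gam A M

theorem dd {gs : List Γ} {M C D : Subgroup Γ} {w : List ℕ} (h1 : M ⊓ centralizer (subW gs [w] : Set Γ) = C)
    (h2 : ⁅C, C⁆ = D) : Dv M (wordG gs w) = D := by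
  rw [centralizer_subW_single] at h1
  rw [Dv, h1, h2]

theorem inf_cases {N Q : Subgroup Γ} (hs : IsSimpleGroup N) (h : N ≤ 𝒩(Q)) : N ⊓ Q = ⊥ ∨ N ≤ Q := by
  have hn : (Q.subgroupOf N).Normal := ⟨fun x hx g => conj_mem (H := Q) (h g.2) hx⟩
  rcases hs.eq_bot_or_eq_top_of_normal _ hn with k | k
  · left
    rw [eq_bot_iff]
    intro x hx
    have : (⟨x, hx.1⟩ : N) ∈ Q.subgroupOf N := hx.2
    rw [k, mem_bot] at this
    exact congrArg Subtype.val this
  · exact .inr (subgroupOf_eq_top.1 k)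

theorem comm_of_two {N : Subgroup Γ} [Finite N] (hs : IsSimpleGroup N) (h : IsPGroup 2 N) : IsMulCommutative N := by
  have : Fact (Nat.Prime 2) := ⟨Nat.prime_two⟩
  have h1 := h.center_nontrivial
  rcases hs.eq_bot_or_eq_top_of_normal (center N) inferInstance with k | k
  · rw [k] at h1
    exact absurd h1 (not_nontrivial _)
  · exact ⟨⟨fun a b => (mem_center_iff.1 (k ▸ mem_top b) a)⟩⟩

theorem row_con {b : Prop} {M D Q Z : Subgroup Γ} {t : Γ} (h : Dv M t = D) (h1 : Q ≤ D) (h2 : D ≤ 𝒩(Q))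
    (h3 : IsPGroup 2 Q) (h4 : D ⊓ 𝒞(Q) = Z) (h5 : IsPGroup 2 Z) : Row b M t := fun N _ k1 k2 hs hc => by
  rw [h] at k1 k2
  refine absurd (comm_of_two hs ?_) hc
  rcases inf_cases hs (k1.trans h2) with k | k
  · refine h5.to_le (h4 ▸ le_inf k1 fun x hx y hy => ?_)
    have k3 : x * y * x⁻¹ * y⁻¹ ∈ N ⊓ Q := ⟨by
      have := N.mul_mem hx (conj_mem (k2 (h1 hy)) (N.inv_mem hx))
      rwa [← mul_assoc, ← mul_assoc] at this, Q.mul_mem (conj_mem (h2 (k1 hx)) hy) (Q.inv_mem hy)⟩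
    rw [k, mem_bot] at k3
    calc y * x = (x * y * x⁻¹ * y⁻¹) * (y * x) := by rw [k3, one_mul]
      _ = x * y := by group
  · exact h3.to_le k

theorem row_cmp {M D : Subgroup Γ} {t : Γ} (h : Dv M t = D) (hD : IsSimpleGroup D) (hw : Wd t M D) : Row True M t :=
  fun N _ k1 k2 hs _ => by
  rw [h] at k1 k2 ⊢
  rcases inf_cases hD k2 with k | k
  · rw [inf_eq_right.2 k1] at k
    have := hs.toNontrivial
    rw [k] at this
    exact absurd this (not_nontrivial _)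
  · obtain rfl : N = D := le_antisymm k1 k
    exact ⟨trivial, rfl, hw⟩

theorem w_of {gs : List Γ} {M D : Subgroup Γ} {t q l v a s s' q' : ℕ} (hq : wordG gs [q] ∈ M) (hl : wordG gs [l] ∈ D)
    (hv : wordG gs [v] ∈ M) (hs : wordG gs [s] ∈ M) (hs' : wordG gs [s'] ∈ M)
    (e1 : wordG gs [q, t] = wordG gs [t, v, q]) (e0 : wordG gs [v, t] = wordG gs [t, v])
    (e2 : wordG gs [l, v] = wordG gs [v, a, l]) (e3 : wordG gs [s, s] = wordG gs [a])
    (e4 : wordG gs [s', s'] = wordG gs [a]) (e5 : wordG gs [s, q] = wordG gs [q, s])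
    (e6 : wordG gs [q', l] = wordG gs [l, q]) (e7 : wordG gs [s', q'] = wordG gs [q', s'])
    (e8 : wordG gs [a] ≠ 1) (st : Stb D (wordG gs [a])) : Wd (wordG gs [t]) M D := by
  simp only [wordG_cons, wordG_nil, mul_one] at *
  exact ⟨_, hq, _, hl, _, hv, _, hs, _, hs', _, _, e1, e0, e2, e8, e3, e4, e5, e6, e7, st⟩

theorem st_aux {D : Subgroup Γ} {a : Γ} (h1 : a ≠ 1) (h2 : a * a = 1) (φ : MulAut D) (x : D) (hx : (x : Γ) = a) :
    (φ x : Γ) ^ 2 = 1 ∧ (φ x : Γ) ≠ 1 := by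
  have k : x * x = 1 := Subtype.ext (by rw [coe_mul, hx, h2]; rfl)
  refine ⟨?_, fun k1 => h1 ?_⟩
  · rw [pow_two, ← coe_mul, ← map_mul, k, map_one]; rfl
  · rw [← hx, (map_eq_one_iff φ φ.injective).1 (Subtype.ext k1)]; rfl

theorem st_one {gs : List Γ} {D : Subgroup Γ} {a : ℕ} (h1 : wordG gs [a] ≠ 1) (h2 : wordG gs [a, a] = wordG gs [])
    (h : Cls 2 D D gs [[], [a]]) : Stb D (wordG gs [a]) := fun φ x hx => by
  obtain ⟨k1, k2⟩ := st_aux h1 (by simpa using h2) φ x hx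
  obtain ⟨r, hr, y, hy, e⟩ := h _ (φ x).2 k1
  simp only [List.mem_cons, List.not_mem_nil, or_false] at hr
  rcases hr with rfl | rfl
  · exact absurd (by simpa using e.symm) k2
  · exact ⟨y, hy, e⟩

theorem card_cent (D : Subgroup Γ) (x : D) :
    Nat.card (D ⊓ centralizer {(x : Γ)} : Subgroup Γ) = Nat.card (centralizer {x} : Subgroup D) := by
  rw [← card_map_of_injective (K := centralizer {x}) D.subtype_injective]
  congr 2
  ext g
  simp only [mem_inf, mem_centralizer_singleton_iff, mem_map, coe_subtype]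
  exact ⟨fun h => ⟨⟨g, h.1⟩, Subtype.ext h.2, rfl⟩, fun ⟨y, h, e⟩ => e ▸ ⟨y.2, congrArg Subtype.val h⟩⟩

theorem card_cent_aut {D : Type*} [Group D] (φ : D ≃* D) (x : D) :
    Nat.card (centralizer {φ x} : Subgroup D) = Nat.card (centralizer {x} : Subgroup D) := by
  rw [← card_map_of_injective (K := centralizer {x}) (f := φ.toMonoidHom) φ.injective]
  congr 2
  ext g
  obtain ⟨g, rfl⟩ := φ.surjective g
  simp only [mem_centralizer_singleton_iff, mem_map, MulEquiv.coe_toMonoidHom, ← map_mul, φ.injective.eq_iff,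
    exists_eq_right]

theorem st_two {gs : List Γ} {D X Y : Subgroup Γ} {a b m n : ℕ} (h1 : wordG gs [a] ≠ 1)
    (h2 : wordG gs [a, a] = wordG gs []) (h : Cls 2 D D gs [[], [a], [b]]) (hb : wordG gs [b] ∈ D)
    (hX : D ⊓ centralizer (subW gs [[a]] : Set Γ) = X) (cX : Nat.card X = m)
    (hY : D ⊓ centralizer (subW gs [[b]] : Set Γ) = Y) (cY : Nat.card Y = n) (hmn : m ≠ n) :
    Stb D (wordG gs [a]) := fun φ x hx => by
  obtain ⟨k1, k2⟩ := st_aux h1 (by simpa using h2) φ x hx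
  obtain ⟨r, hr, y, hy, e⟩ := h _ (φ x).2 k1
  simp only [List.mem_cons, List.not_mem_nil, or_false] at hr
  rcases hr with rfl | rfl | rfl
  · exact absurd (by simpa using e.symm) k2
  · exact ⟨y, hy, e⟩
  · rw [centralizer_subW_single] at hX hY
    refine absurd ?_ hmn
    have e' : φ x = MulAut.conj (⟨y, hy⟩ : D) ⟨_, hb⟩ := Subtype.ext e.symm
    rw [← cX, ← cY, ← hX, ← hY, ← hx, card_cent, ← card_cent_aut φ, e', card_cent_aut, ← card_cent]

theorem tb_of {b : Prop} {gs : List Γ} {A M : Subgroup Γ} {R : List (List ℕ)} (h : Cls 2 A A gs ([] :: R))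
    (hR : ∀ r ∈ R, Row b M (wordG gs r)) : Tb b A M := fun t ht h2 => by
  obtain ⟨r, hr, y, hy, e⟩ := h t ht (by rw [pow_two, h2])
  rcases List.mem_cons.1 hr with rfl | hr
  · exact .inl (by simpa using e.symm)
  · exact .inr ⟨y, hy, _, e, hR r hr⟩

end CL.Q49M
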