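/-
Project Q49 (S1849): from a table in a model of the automorphism group to the statements `Tab` and `I1`.
-/
import Cfsg.Agent.Q49.TbA

set_option autoImplicit false
set_option linter.unusedSectionVars false

namespace CL.Q49M

open Cfsg Subgroup CL.Even CL.Grp CL.Loc CL.PG CL.Q49 CL.Q16
open scoped commutatorElement

universe u

variable {Γ : Type*} [Group Γ] [Finite Γ] {b : Prop} {A M : Subgroup Γ} {n : ℕ}

theorem Md.nrm (h : Md b A M n) : A ≤ 𝒩(M) :=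
  (normal_subgroupOf_iff_le_normalizer h.le).1 (exists_index_two h.le h.cA h.cM h.pos).1

theorem Md.aut (h : Md b A M n) {Y : Type*} [Group Y] (e : M ≃* Y) (hO : Nat.card (Cfsg.Out Y) = 2) (φ : MulAut M) :
    ∃ c ∈ A, ∀ x : M, (φ x : Γ) = c * x * c⁻¹ := by
  have : Finite Y := Finite.of_equiv _ e.toEquiv
  have hA : Nat.card (MulAut M) ≤ Nat.card A := by
    rw [Nat.card_congr (MulAut.congr e).toEquiv, card_eq_card_quotient_mul_card_subgroup (Cfsg.Inn Y), h.cA, ← h.cM]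
    exact Nat.mul_le_mul hO.le ((Nat.card_le_card_of_surjective _
      (MulAut.conj (G := Y)).rangeRestrict_surjective).trans (Nat.card_congr e.toEquiv).ge)
  have hj : Function.Injective (M.normalizerMonoidHom.comp (inclusion h.nrm)) :=
    (injective_iff_map_eq_one _).2 fun c hc => Subtype.ext (mem_bot.1 (h.cL.le ⟨c.2, fun a ha =>
      (mul_inv_eq_iff_eq_mul.1 (show (c : Γ) * a * (c : Γ)⁻¹ = a from
        congrArg Subtype.val (DFunLike.congr_fun hc (⟨a, ha⟩ : M)))).symm⟩))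
  obtain ⟨c, rfl⟩ := (hj.bijective_of_nat_card_le hA).2 φ
  exact ⟨c, c.2, fun _ => rfl⟩

theorem Md.i1 (h : Md b A M n) {Y : Type*} [Group Y] (e : M ≃* Y) (hO : Nat.card (Cfsg.Out Y) = 2)
    {X : Type*} [Group X] (f : X ≃* Y) (α : MulAut X) (S : Subgroup X) (hS : IsSylowIn 2 S ⊤) (hα : ∀ s ∈ S, α s = s) :
    ∃ k : X, α = MulAut.conj k := by
  have : Fact (Nat.Prime 2) := ⟨Nat.prime_two⟩
  let g : X ≃* M := f.trans e.symm
  obtain ⟨c, hc, k⟩ := h.aut e hO ((g.symm.trans α).trans g)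
  obtain ⟨T, hT, a, m, h1, h2, h3, h4⟩ := h.gam
  let π : X →* Γ := M.subtype.comp g.toMonoidHom
  have hr : (⊤ : Subgroup X).map π = M := by
    rw [← Subgroup.map_map, map_top_of_surjective _ g.surjective, ← MonoidHom.range_eq_map, range_subtype]
  have hS' : IsSylowIn 2 (S.map π) M := hr ▸ (⟨Subgroup.map_mono hS.1, hS.2.1.map π, fun hd => hS.2.2 (hd.trans (by
    rw [← Subgroup.relIndex_comap]; exact Subgroup.relIndex_dvd_of_le_left ⊤ (Subgroup.le_comap_map π S)))⟩ :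
    IsSylowIn 2 (S.map π) ((⊤ : Subgroup X).map π))
  obtain ⟨y, hy, hle⟩ := hS'.exists_conj_le (IsPGroup.of_card h1) hT
  have hcM : y⁻¹ * c * y ∈ M := h4 ⟨A.mul_mem (A.mul_mem (A.inv_mem (h.le hy)) hc) (h.le hy), fun x hx => by
    obtain ⟨s, hs, e1⟩ := hle (smul_mem_pointwise_smul x (MulAut.conj y) T hx)
    have k1 := k (g s)
    simp only [MulEquiv.trans_apply, MulEquiv.symm_apply_apply, hα s hs] at k1
    have e2 : (g s : Γ) = y * x * y⁻¹ := e1
    rw [e2] at k1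
    calc x * (y⁻¹ * c * y) = y⁻¹ * (y * x * y⁻¹) * c * y := by group
      _ = y⁻¹ * (c * (y * x * y⁻¹) * c⁻¹) * c * y := by rw [← k1]
      _ = _ := by group⟩
  have hc' : c ∈ M := by
    have := M.mul_mem (M.mul_mem hy hcM) (M.inv_mem hy)
    rwa [show y * (y⁻¹ * c * y) * y⁻¹ = c by group] at this
  refine ⟨g.symm ⟨c, hc'⟩, MulEquiv.ext fun x => g.injective (Subtype.ext ?_)⟩
  have k1 := k (g x)
  simp only [MulEquiv.trans_apply, MulEquiv.symm_apply_apply] at k1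
  simp [k1]

section amb
variable {G : Type u} [Group G] [Finite G] {K L : Subgroup G} {z : G}

theorem le_comm (h : Group.IsPerfect L) : L ≤ ⁅L, L⁆ := by
  have := congrArg (Subgroup.map L.subtype) h.commutator_eq_top
  rw [commutator_def, map_commutator, ← MonoidHom.range_eq_map, range_subtype] at this
  exact this.ge

theorem comm_cent {x y c d : G} (hx : x ∈ K) (hy : y ∈ K) (hd' : d ∈ K) (hc : c ∈ 𝒞(K)) (hd : d ∈ 𝒞(K)) :
    ⁅x * c, y * d⁆ = ⁅x, y⁆ := by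
  have e1 := comm_of_mem hc (K.mul_mem hy hd')
  have e2 := comm_of_mem hd (K.inv_mem hx)
  calc ⁅x * c, y * d⁆ = x * (c * (y * d)) * c⁻¹ * x⁻¹ * d⁻¹ * y⁻¹ := by rw [commutatorElement_def]; group
    _ = x * y * (d * x⁻¹) * d⁻¹ * y⁻¹ := by rw [← e1]; group
    _ = ⁅x, y⁆ := by rw [← e2, commutatorElement_def]; group

/-- a perfect subgroup which lies in `L` modulo the centre lies in `L` -/
theorem le_of_mod {P : Subgroup G} (hLK : L ≤ K) (hP : P ≤ ⁅P, P⁆)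
    (h : ∀ x ∈ P, ∃ l ∈ L, ∃ c ∈ K, c ∈ 𝒞(K) ∧ x = l * c) : P ≤ L := by
  refine hP.trans (commutator_le.2 fun x hx y hy => ?_)
  obtain ⟨l, hl, c, -, hc, rfl⟩ := h x hx
  obtain ⟨l', hl', d, hd', hd, rfl⟩ := h y hy
  rw [comm_cent (hLK hl) (hLK hl') hd' hc hd, commutatorElement_def]
  exact L.mul_mem (L.mul_mem (L.mul_mem hl hl') (L.inv_mem hl)) (L.inv_mem hl')

/-- the map onto the model -/
structure Pi (K : Subgroup G) (z : G) (M : Subgroup Γ) (π : K →* Γ) (t : Γ) : Prop where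
  rg : π.range = M
  ker : ∀ k : K, π k = 1 ↔ (k : G) ∈ 𝒞(K)
  cz : ∀ k k' : K, (k' : G) = z * k * z⁻¹ → π k' = t * π k * t⁻¹

theorem Pi.conj {π : K →* Γ} {t y : Γ} (h : Pi K z M π (y * t * y⁻¹)) (hy : y ∈ 𝒩(M)) :
    Pi K z M ((MulAut.conj y⁻¹).toMonoidHom.comp π) t where
  rg := by rw [MonoidHom.range_comp, h.rg]; exact cj_eq (inv_mem hy)
  ker k := by rw [← h.ker]; exact map_eq_one_iff (MulAut.conj y⁻¹) (MulAut.conj y⁻¹).injective
  cz k k' e := by simp [h.cz k k' e, mul_assoc]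

variable {π : K →* Γ} {t : Γ}

theorem Pi.mem (h : Pi K z M π t) (k : K) : π k ∈ M := h.rg ▸ ⟨k, rfl⟩
theorem Pi.surj (h : Pi K z M π t) {x : Γ} (hx : x ∈ M) : ∃ k, π k = x := (h.rg ▸ hx : x ∈ π.range)

theorem Pi.fus (h : Pi K z M π t) (hz : z * z = 1) (hn : z ∈ 𝒩(K)) (r : K) (hr : π r * t = t * π r) :
    ∃ c ∈ K, c ∈ 𝒞(K) ∧ r * z * (r : G)⁻¹ = z * c := by
  have hzi : z⁻¹ = z := inv_eq_of_mul_eq_one_right hz
  let k : K := ⟨z * r * z⁻¹, conj_mem hn r.2⟩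
  refine ⟨(k * r⁻¹ : K), (k * r⁻¹).2, (h.ker _).1 (by rw [map_mul, map_inv, h.cz r k rfl, ← hr]; group), ?_⟩
  show _ = z * (z * r * z⁻¹ * (r : G)⁻¹)
  rw [hzi, ← mul_assoc, ← mul_assoc, ← mul_assoc, hz, one_mul]

theorem Pi.dv (h : Pi K z M π t) (hz : z * z = 1) (hn : z ∈ 𝒩(K)) {B : Subgroup Γ}
    (hB : ∀ r : K, (r : G) ∈ Ce z → π r ∈ B) : Dv M t ≤ B := by
  refine commutator_le.2 fun x hx y hy => ?_
  obtain ⟨r, hr⟩ := h.surj (inv_mem hx.1)
  obtain ⟨s, hs⟩ := h.surj (inv_mem hy.1)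
  obtain ⟨c, hc', hc, e1⟩ := h.fus hz hn r (hr ▸ mem_centralizer_singleton_iff.1 (inv_mem hx.2))
  obtain ⟨d, hd', hd, e2⟩ := h.fus hz hn s (hs ▸ mem_centralizer_singleton_iff.1 (inv_mem hy.2))
  have e : ⁅x, y⁆ = π ((s * r)⁻¹ * (r * s)) := by
    simp only [map_mul, map_inv, hr, hs, commutatorElement_def]; group
  rw [e]
  refine hB _ (mem_centralizer_singleton_iff.2 ?_)
  have k1 : (r : G) * s * z * ((r : G) * s)⁻¹ = z * c * d := by
    calc (r : G) * s * z * ((r : G) * s)⁻¹ = r * (s * z * (s : G)⁻¹) * (r : G)⁻¹ := by group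
      _ = r * z * (r : G)⁻¹ * (r * d * (r : G)⁻¹) := by rw [e2]; group
      _ = _ := by rw [e1, comm_of_mem hd r.2]; group
  have k2 : (s : G) * r * z * ((s : G) * r)⁻¹ = z * c * d := by
    calc (s : G) * r * z * ((s : G) * r)⁻¹ = s * (r * z * (r : G)⁻¹) * (s : G)⁻¹ := by group
      _ = s * z * (s : G)⁻¹ * (s * c * (s : G)⁻¹) := by rw [e1]; group
      _ = z * (d * c) := by rw [e2, comm_of_mem hc s.2]; group
      _ = _ := by rw [comm_of_mem hc hd']; group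
  show ((s : G) * r)⁻¹ * (r * s) * z = z * (((s : G) * r)⁻¹ * (r * s))
  calc ((s : G) * r)⁻¹ * (r * s) * z = ((s : G) * r)⁻¹ * (r * s * z * ((r : G) * s)⁻¹) * (r * s) := by group
    _ = _ := by rw [k1, ← k2]; group

theorem exists_pi (h : Md b A M n) {Y : Type*} [Group Y] (e : M ≃* Y) (hO : Nat.card (Cfsg.Out Y) = 2)
    (f : (K ⧸ center K) ≃* Y) (hz : z * z = 1) (hn : z ∈ 𝒩(K)) :
    ∃ (π : K →* Γ) (t : Γ), Pi K z M π t ∧ t * t = 1 ∧ (t = 1 ∨ Row b M t) := by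
  let g : (K ⧸ center K) ≃* M := f.trans e.symm
  let ψ : MulAut K := K.normalizerMonoidHom ⟨z, hn⟩
  have hψ : (center K).map (ψ : K →* K) = center K := (characteristic_iff_map_eq.1 inferInstance) ψ
  obtain ⟨t, ht, k⟩ := h.aut e hO ((g.symm.trans (QuotientGroup.congr _ _ ψ hψ)).trans g)
  let π : K →* Γ := M.subtype.comp (g.toMonoidHom.comp (QuotientGroup.mk' _))
  have hπ : Pi K z M π t :=
    { rg := by
        rw [MonoidHom.range_comp, MonoidHom.range_eq_top_of_surjective _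
          (g.surjective.comp (QuotientGroup.mk'_surjective _)), ← MonoidHom.range_eq_map, range_subtype]
      ker := fun x => by
        have : π x = 1 ↔ x ∈ center K := by simp [π]
        rw [this, mem_center_iff]
        exact ⟨fun k y hy => congrArg Subtype.val (k ⟨y, hy⟩), fun k y => Subtype.ext (k y y.2)⟩
      cz := fun x x' hx => by
        have k1 := k (g (QuotientGroup.mk x))
        obtain rfl : x' = ψ x := Subtype.ext hx
        simpa [π] using k1 }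
  have h2 : t * t = 1 := mem_bot.1 (h.cL.le ⟨A.mul_mem ht ht, fun x hx => by
    obtain ⟨r, rfl⟩ := hπ.surj hx
    have k1 := hπ.cz r ⟨_, conj_mem hn r.2⟩ rfl
    have k2 := hπ.cz ⟨_, conj_mem hn r.2⟩ r (by
      show _ = z * (z * r * z⁻¹) * z⁻¹
      rw [inv_eq_of_mul_eq_one_right hz, ← mul_assoc, ← mul_assoc, hz, one_mul, mul_assoc, hz, mul_one])
    rw [k1] at k2
    calc π r * (t * t) = t * (t * π r * t⁻¹) * t⁻¹ * (t * t) := by rw [← k2]
      _ = _ := by group⟩)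
  rcases h.tb t ht h2 with k1 | ⟨y, hy, t₀, rfl, k1⟩
  · exact ⟨π, t, hπ, h2, .inl k1⟩
  · refine ⟨_, t₀, hπ.conj (h.nrm hy), ?_, .inr k1⟩
    calc t₀ * t₀ = y⁻¹ * (y * t₀ * y⁻¹ * (y * t₀ * y⁻¹)) * y := by group
      _ = 1 := by rw [h2]; group

theorem Pi.tab (h : Pi K z M π t) (ht : t * t = 1) (hR : t = 1 ∨ Row b M t) (hM : IsSimpleGroup M) (p : Pr K L z)
    (hL : L ⊓ 𝒞(L) = ⊥) (h2 : b → ∀ c ∈ K ⊓ 𝒞(K), c ^ 2 = 1) : b ∧ (SW K L z ∨ ZC K L z) := by
  have hz := p.iz.1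
  have hzi : z⁻¹ = z := inv_eq_of_mul_eq_one_right hz
  have hti : t⁻¹ = t := inv_eq_of_mul_eq_one_right ht
  have hLK : L ≤ K := p.cmp.1.le.trans inf_le_left
  have hLz : L ≤ Ce z := p.cmp.1.le.trans inf_le_right
  have hLp := le_comm p.cmp.2.1
  let ρ : L →* Γ := π.comp (inclusion hLK)
  have hρ : Function.Injective ρ := (injective_iff_map_eq_one _).2 fun x hx =>
    Subtype.ext (mem_bot.1 (hL.le ⟨x.2, centralizer_le hLK ((h.ker _).1 hx)⟩))
  let ε : L ≃* ρ.range := MonoidHom.ofInjective hρ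
  have hc : center L = ⊥ := eq_bot_iff.2 fun x hx => Subtype.ext (mem_bot.1 (hL.le ⟨x.2, fun y hy =>
    congrArg Subtype.val (mem_center_iff.1 hx ⟨y, hy⟩)⟩))
  have hs : IsSimpleGroup L :=
    have := p.cmp.2.2
    ((QuotientGroup.quotientMulEquivOfEq hc).trans QuotientGroup.quotientBot).symm.isSimpleGroup
  have hsN : IsSimpleGroup ρ.range := ε.symm.isSimpleGroup
  have hcN : ¬ IsMulCommutative ρ.range := fun k => by
    have : center L = ⊤ := eq_top_iff.2 fun x _ => mem_center_iff.2 fun y => ε.injective (by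
      rw [map_mul, map_mul]; exact k.1.1 _ _)
    exact absurd (hc.symm.trans this) bot_ne_top
  have hN : ∀ r : K, (r : G) ∈ 𝒩(L) → π r ∈ 𝒩(ρ.range) := fun r hr => mem_norm_of_cj_le (by
    rintro _ ⟨_, ⟨x, rfl⟩, rfl⟩
    exact ⟨⟨_, conj_mem hr x.2⟩, by
      show π _ = π r * π _ * (π r)⁻¹
      rw [← map_inv, ← map_mul, ← map_mul]; rfl⟩)
  have hmod : ∀ x : K, π x ∈ ρ.range → ∃ l ∈ L, ∃ c ∈ K, c ∈ 𝒞(K) ∧ (x : G) = l * c := by
    rintro x ⟨l, hl⟩
    refine ⟨l, l.2, ((inclusion hLK l)⁻¹ * x : K), Subtype.property _, (h.ker _).1 ?_, by simp⟩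
    rw [map_mul, map_inv, ← hl]; exact inv_mul_cancel _
  have hD : Dv M t ≤ 𝒩(ρ.range) := h.dv hz p.zn fun r hr => hN r (p.nrm ⟨r.2, hr⟩)
  have hC : ρ.range ≤ M ⊓ centralizer {t} := by
    rintro _ ⟨x, rfl⟩
    refine ⟨h.mem _, mem_centralizer_singleton_iff.2 ?_⟩
    have := h.cz (inclusion hLK x) (inclusion hLK x) (by
      rw [eq_mul_inv_iff_mul_eq]; exact mem_centralizer_singleton_iff.1 (hLz x.2))
    exact eq_mul_inv_iff_mul_eq.1 this
  have hle : ρ.range ≤ Dv M t := by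
    have := congrArg (Subgroup.map ρ) p.cmp.2.1.commutator_eq_top
    rw [commutator_def, map_commutator, ← MonoidHom.range_eq_map] at this
    exact this.ge.trans (commutator_mono hC hC)
  rcases hR with rfl | hR
  · have k1 : M ≤ Dv M 1 := by
      have := congrArg (Subgroup.map π) p.qs.1.commutator_eq_top
      rw [commutator_def, map_commutator, ← MonoidHom.range_eq_map, h.rg] at this
      have k : M ≤ M ⊓ centralizer {1} := le_inf le_rfl fun x _ => mem_centralizer_singleton_iff.2 (by simp)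
      exact this.ge.trans (commutator_mono k k)
    rcases inf_cases hM (k1.trans hD) with k | k
    · rw [inf_eq_right.2 (hC.trans inf_le_left)] at k
      have := hsN.toNontrivial
      rw [k] at this
      exact absurd this (not_nontrivial _)
    · exact absurd (le_antisymm hLK (le_of_mod hLK (le_comm p.qs.1) fun x hx => hmod ⟨x, hx⟩ (k (h.mem _)))) p.ne
  obtain ⟨hb, hE, q, hq, _, ⟨l, rfl⟩, v, hv, s, hs, s', hs', a, q', e1, e0, e2, e3, e4, e5, e6, e7, e8, st⟩ :=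
    hR _ inferInstance hle hD hsN hcN
  refine ⟨hb, ?_⟩
  obtain ⟨q, rfl⟩ := h.surj hq
  obtain ⟨s, rfl⟩ := h.surj hs
  obtain ⟨s', rfl⟩ := h.surj hs'
  let l' : K := inclusion hLK l
  have hl' : π l' = ρ l := rfl
  let qz : K := ⟨z * q * z⁻¹, conj_mem p.zn q.2⟩
  have hv' : π (qz * q⁻¹) = v := by
    rw [map_mul, map_inv, h.cz q qz rfl, hti]
    calc t * π q * t * (π q)⁻¹ = t * (π q * t) * (π q)⁻¹ := by group
      _ = (t * t) * v := by rw [e1]; group
      _ = v := by rw [ht, one_mul]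
  generalize hw : qz * q⁻¹ = w at hv'
  have hwG : (w : G) = z * q * z * (q : G)⁻¹ := by rw [← hw]; simp [qz, hzi]
  subst hv'
  obtain ⟨c, hc', hc, e9⟩ := h.fus hz p.zn w e0
  by_cases hc1 : c = 1
  swap
  · refine .inr ⟨w, w.2, mem_norm_of_cj_le (le_of_mod hLK ?_ ?_), c, hc', hc, hc1, e9⟩
    · exact (map_mono hLp).trans (map_commutator _ _ _).le
    · rintro _ ⟨x, hx, rfl⟩
      refine hmod (w * inclusion hLK ⟨x, hx⟩ * w⁻¹) ?_
      have k : π w ∈ 𝒩(ρ.range) := by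
        rw [hE]
        have k0 : π w ∈ M ⊓ centralizer {t} := ⟨hv, mem_centralizer_singleton_iff.2 e0⟩
        refine mem_norm_of_cj_le ((map_commutator _ _ _).le.trans ?_)
        exact commutator_mono (cj_eq (le_norm_of_le le_rfl k0)).le (cj_eq (le_norm_of_le le_rfl k0)).le
      rw [map_mul, map_mul, map_inv]
      exact conj_mem k ⟨⟨x, hx⟩, rfl⟩
  left
  rw [hc1, mul_one, mul_inv_eq_iff_eq_mul] at e9
  have hwN : (w : G) ∈ 𝒩(L) := p.nrm ⟨w.2, mem_centralizer_singleton_iff.2 e9⟩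
  let a' : K := w⁻¹ * (l' * w * l'⁻¹)
  have ha' : π a' = a := by
    simp only [a', map_mul, map_inv, hl', e2]; group
  have haG : (a' : G) = (w : G)⁻¹ * (l * w * (l : G)⁻¹) := rfl
  have haL : (a' : G) ∈ L := by
    have := L.mul_mem (conj_mem' hwN l.2) (L.inv_mem l.2)
    rw [haG]; convert this using 1; group
  have c1 : (q : G) * a' = a' * q := by
    refine Lift.comm_of_pow (h2 hb) s.2 q.2 ?_ ?_
    · exact (h.ker ((s ^ 2)⁻¹ * a')).1 (by rw [map_mul, map_inv, map_pow, pow_two, e4, ha', inv_mul_cancel])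
    · exact (h.ker (s⁻¹ * (q * s * q⁻¹))).1 (by simp only [map_mul, map_inv]; rw [← e6]; group)
  have hq' : π (l' * q * l'⁻¹) = q' := by rw [map_mul, map_mul, map_inv, hl', ← e7]; group
  have c2 : (l : G) * q * (l : G)⁻¹ * a' = a' * (l * q * (l : G)⁻¹) := by
    refine Lift.comm_of_pow (h2 hb) s'.2 (l' * q * l'⁻¹).2 ?_ ?_
    · exact (h.ker ((s' ^ 2)⁻¹ * a')).1 (by rw [map_mul, map_inv, map_pow, pow_two, e5, ha', inv_mul_cancel])
    · exact (h.ker (s'⁻¹ * ((l' * q * l'⁻¹) * s' * (l' * q * l'⁻¹)⁻¹))).1 (by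
        rw [map_mul, map_mul, map_mul _ _ s', map_inv, map_inv, hq', ← e8]; group)
  obtain ⟨k1, k2⟩ := Lift.core hz (mem_centralizer_singleton_iff.1 (hLz l.2)) hwG haG c1 c2
  have ha1 : (a' : G) ≠ 1 := fun k => e3 (by rw [← ha', show a' = 1 from Subtype.ext k, map_one])
  refine ⟨a', haL, ⟨Lift.sq_of_conj hz (mem_centralizer_singleton_iff.1 (hLz haL)) k2, ha1⟩,
    fun k => ha1 (mem_bot.1 (hL.le ⟨haL, k⟩)), ⟨_, (q⁻¹ * (l' * q * l'⁻¹)).2, k1, k2⟩, fun x hx => ?_⟩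
  obtain ⟨_, ⟨m, rfl⟩, k3⟩ := st ((ε.symm.trans (L.normalizerMonoidHom ⟨x, hx⟩)).trans ε) (ε ⟨_, haL⟩) ha'
  refine ⟨m, m.2, (congrArg Subtype.val (hρ (a₁ := m * ⟨_, haL⟩ * m⁻¹) (a₂ := L.normalizerMonoidHom ⟨x, hx⟩ ⟨_, haL⟩) ?_)).symm⟩
  rw [map_mul, map_mul, map_inv, show ρ ⟨_, haL⟩ = a from ha', k3]
  simp only [MulEquiv.trans_apply, MulEquiv.symm_apply_apply]
  rfl

theorem Md.tab (h : Md b A M n) {Y : Type*} [Group Y] (e : M ≃* Y) (hO : Nat.card (Cfsg.Out Y) = 2)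
    (hS : b → HasCyclicSchurMultiplier Y 2) (f : (K ⧸ center K) ≃* Y) (p : Pr K L z) (hL : L ⊓ 𝒞(L) = ⊥) :
    b ∧ (SW K L z ∨ ZC K L z) := by
  obtain ⟨π, t, k1, k2, k3⟩ := exists_pi h e hO f p.iz.1 p.zn
  have := p.qs.2
  refine k1.tab k2 k3 (e.trans f.symm).isSimpleGroup p hL fun hb c hc => ?_
  let σ : K →* Y := f.toMonoidHom.comp (QuotientGroup.mk' _)
  have hk : σ.ker = center K := by ext x; simp [σ]
  have hd := CL.Schur.HasSM.card_ker_dvd (hS hb) σ ⟨f.surjective.comp (QuotientGroup.mk'_surjective _), hk.le,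
    p.qs.1.commutator_eq_top ▸ le_top⟩
  have hx : (⟨c, hc.1⟩ : K) ∈ σ.ker := hk ▸ mem_center_iff.2 fun y => Subtype.ext (hc.2 y y.2)
  have := orderOf_dvd_iff_pow_eq_one.1 ((orderOf_dvd_natCard _ hx).trans (hd.trans (by simp : _ ∣ 2)))
  exact congrArg Subtype.val this

end amb

end CL.Q49M
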