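/-
Project Q49 (S1849): tables in a model of the automorphism group, for any order of the outer automorphism group.
-/
import Cfsg.Agent.Q49.TbB
import Cfsg.Agent.Odd.FT

set_option autoImplicit false
set_option linter.unusedSectionVars false

namespace CL.Q49M

open Cfsg Subgroup CL.Even CL.Grp CL.Loc CL.PG CL.Q49 CL.Q16
open scoped commutatorElement

universe u

section rows
variable {Γ : Type*} [Group Γ]

theorem comm_of_p {p : ℕ} (hp : p.Prime) {N : Subgroup Γ} [Finite N] (hs : IsSimpleGroup N) (h : IsPGroup p N) :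
    IsMulCommutative N := by
  have : Fact p.Prime := ⟨hp⟩
  have h1 := h.center_nontrivial
  rcases hs.eq_bot_or_eq_top_of_normal (center N) inferInstance with k | k
  · rw [k] at h1
    exact absurd h1 (not_nontrivial _)
  · exact ⟨⟨fun a b => (mem_center_iff.1 (k ▸ mem_top b) a)⟩⟩

theorem row_p {p : ℕ} (hp : p.Prime) {b : Prop} {M D Q Z : Subgroup Γ} {t : Γ} (h : Dv M t = D) (h1 : Q ≤ D)
    (h2 : D ≤ 𝒩(Q)) (h3 : IsPGroup p Q) (h4 : D ⊓ 𝒞(Q) = Z) (h5 : IsPGroup p Z) : Row b M t := fun N _ k1 k2 hs hc => by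
  rw [h] at k1 k2
  refine absurd (comm_of_p hp hs ?_) hc
  rcases inf_cases hs (k1.trans h2) with k | k
  · refine h5.to_le (h4 ▸ le_inf k1 fun x hx y hy => ?_)
    have k3 : x * y * x⁻¹ * y⁻¹ ∈ N ⊓ Q := ⟨by
      have := N.mul_mem hx (conj_mem (k2 (h1 hy)) (N.inv_mem hx))
      rwa [← mul_assoc, ← mul_assoc] at this, Q.mul_mem (conj_mem (h2 (k1 hx)) hy) (Q.inv_mem hy)⟩
    rw [k, mem_bot] at k3
    calc y * x = (x * y * x⁻¹ * y⁻¹) * (y * x) := by rw [k3, one_mul]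
      _ = x * y := by group
  · exact h3.to_le k

theorem row_con' {gs : List Γ} {w : List ℕ} {b : Prop} {M C Q Z : Subgroup Γ}
    (h : M ⊓ centralizer (subW gs [w] : Set Γ) = C) (h1 : Q ≤ ⁅C, C⁆) (h2 : C ≤ 𝒩(Q)) (h3 : IsPGroup 2 Q)
    (h4 : M ⊓ 𝒞(Q) = Z) (h5 : IsPGroup 2 Z) : Row b M (wordG gs w) :=
  row_con (dd h rfl) h1 ((commutator_le_self _).trans h2) h3 rfl
    (h5.to_le (h4 ▸ inf_le_inf_right _ ((commutator_le_self _).trans (h ▸ inf_le_left))))

theorem row_inv {gs : List Γ} {l : List (List ℕ)} {M : Subgroup Γ} {t : Γ} {a : ℕ} (h : Dv M t = subW gs l)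
    (hsq : Rels gs (zp [] (powWs 2 l) [])) (hc : Cls 2 (subW gs l) (subW gs l) gs [[], [a]])
    (hw : Wd t M (subW gs l)) : Row True M t := fun N _ k1 k2 hs hn => by
  rw [h] at k1 k2 ⊢
  have : Fact (Nat.Prime 2) := ⟨Nat.prime_two⟩
  have he : 2 ∣ Nat.card N := by
    by_contra ho
    have := CL.Odd.feit_thompson (G := N) (Nat.odd_iff.2 (by omega))
    exact hn ⟨⟨IsSimpleGroup.comm_iff_isSolvable.2 this⟩⟩
  obtain ⟨x, hx⟩ := exists_prime_orderOf_dvd_card' 2 he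
  have key : ∀ y ∈ subW gs l, y ^ 2 = 1 → y = 1 ∨ ∃ g ∈ subW gs l, g * wordG gs [a] * g⁻¹ = y := fun y hy h2 => by
    obtain ⟨r, hr, g, hg, e⟩ := hc y hy h2
    simp only [List.mem_cons, List.not_mem_nil, or_false] at hr
    rcases hr with rfl | rfl
    · exact .inl (by simpa using e.symm)
    · exact .inr ⟨g, hg, e⟩
  have ha : wordG gs [a] ∈ N := by
    rcases key x (k1 x.2) (by rw [← hx]; exact congrArg Subtype.val (pow_orderOf_eq_one x)) with k | ⟨g, hg, e⟩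
    · rw [show x = 1 from Subtype.ext k, orderOf_one] at hx
      omega
    · have := conj_mem' (k2 hg) x.2
      rwa [← e, show g⁻¹ * (g * wordG gs [a] * g⁻¹) * g = wordG gs [a] by group] at this
  obtain rfl : N = subW gs l := le_antisymm k1 (subW_le.2 fun w hw => by
    have k := (subW_le_of_rels hsq).trans (subW_nil gs).le (mem_subW (mem_mapL (f := fun x => powW x 2) hw))
    rw [mem_bot, wordG_powW] at k
    rcases key _ (mem_subW hw) k with k | ⟨g, hg, e⟩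
    · exact k ▸ one_mem _
    · exact e ▸ conj_mem (k2 hg) ha)
  exact ⟨trivial, rfl, hw⟩

end rows

variable {Γ : Type*} [Group Γ] [Finite Γ] {b : Prop} {A M : Subgroup Γ} {n k : ℕ}

structure Mk (b : Prop) (A M : Subgroup Γ) (n k : ℕ) : Prop where
  nrm : A ≤ 𝒩(M)
  cM : Nat.card M = n
  cA : Nat.card A = k * n
  cL : A ⊓ 𝒞(M) = ⊥
  tb : Tb b A M

theorem Mk.aut (h : Mk b A M n k) {Y : Type*} [Group Y] (e : M ≃* Y) (hO : Nat.card (Cfsg.Out Y) ≤ k) (φ : MulAut M) :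
    ∃ c ∈ A, ∀ x : M, (φ x : Γ) = c * x * c⁻¹ := by
  have : Finite Y := Finite.of_equiv _ e.toEquiv
  have hA : Nat.card (MulAut M) ≤ Nat.card A := by
    rw [Nat.card_congr (MulAut.congr e).toEquiv, card_eq_card_quotient_mul_card_subgroup (Cfsg.Inn Y), h.cA, ← h.cM]
    exact Nat.mul_le_mul hO ((Nat.card_le_card_of_surjective _
      (MulAut.conj (G := Y)).rangeRestrict_surjective).trans (Nat.card_congr e.toEquiv).ge)
  have hj : Function.Injective (M.normalizerMonoidHom.comp (inclusion h.nrm)) :=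
    (injective_iff_map_eq_one _).2 fun c hc => Subtype.ext (mem_bot.1 (h.cL.le ⟨c.2, fun a ha =>
      (mul_inv_eq_iff_eq_mul.1 (show (c : Γ) * a * (c : Γ)⁻¹ = a from
        congrArg Subtype.val (DFunLike.congr_fun hc (⟨a, ha⟩ : M)))).symm⟩))
  obtain ⟨c, rfl⟩ := (hj.bijective_of_nat_card_le hA).2 φ
  exact ⟨c, c.2, fun _ => rfl⟩

variable {G : Type u} [Group G] [Finite G] {K L : Subgroup G} {z : G}

theorem Mk.pi (h : Mk b A M n k) {Y : Type*} [Group Y] (e : M ≃* Y) (hO : Nat.card (Cfsg.Out Y) ≤ k)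
    (f : (K ⧸ center K) ≃* Y) (hz : z * z = 1) (hn : z ∈ 𝒩(K)) :
    ∃ (π : K →* Γ) (t : Γ), Pi K z M π t ∧ t * t = 1 ∧ (t = 1 ∨ Row b M t) := by
  let g : (K ⧸ center K) ≃* M := f.trans e.symm
  let ψ : MulAut K := K.normalizerMonoidHom ⟨z, hn⟩
  have hψ : (center K).map (ψ : K →* K) = center K := (characteristic_iff_map_eq.1 inferInstance) ψ
  obtain ⟨t, ht, k⟩ := h.aut e hO ((g.symm.trans (QuotientGroup.congr _ _ ψ hψ)).trans g)
  let π : K →* Γ := M.subtype.comp (g.toMonoidHom.comp (QuotientGroup.mk' _))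
  have hπ : Pi K z M π t :=
    { rg := by
        rw [MonoidHom.range_comp, MonoidHom.range_eq_top_of_surjective _
          (g.surjective.comp (QuotientGroup.mk'_surjective _)), ← MonoidHom.range_eq_map, range_subtype]
      ker := fun x => by
        have : π x = 1 ↔ x ∈ center K := by simp [π]
        rw [this, mem_center_iff]
        exact ⟨fun k y hy => congrArg Subtype.val (k ⟨y, hy⟩), fun k y => Subtype.ext (k y y.2)⟩
      cz := fun x x' hx => by
        have k1 := k (g (QuotientGroup.mk x))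
        obtain rfl : x' = ψ x := Subtype.ext hx
        simpa [π] using k1 }
  have h2 : t * t = 1 := mem_bot.1 (h.cL.le ⟨A.mul_mem ht ht, fun x hx => by
    obtain ⟨r, rfl⟩ := hπ.surj hx
    have k1 := hπ.cz r ⟨_, conj_mem hn r.2⟩ rfl
    have k2 := hπ.cz ⟨_, conj_mem hn r.2⟩ r (by
      show _ = z * (z * r * z⁻¹) * z⁻¹
      rw [inv_eq_of_mul_eq_one_right hz, ← mul_assoc, ← mul_assoc, hz, one_mul, mul_assoc, hz, mul_one])
    rw [k1] at k2
    calc π r * (t * t) = t * (t * π r * t⁻¹) * t⁻¹ * (t * t) := by rw [← k2]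
      _ = _ := by group⟩)
  rcases h.tb t ht h2 with k1 | ⟨y, hy, t₀, rfl, k1⟩
  · exact ⟨π, t, hπ, h2, .inl k1⟩
  · refine ⟨_, t₀, hπ.conj (h.nrm hy), ?_, .inr k1⟩
    calc t₀ * t₀ = y⁻¹ * (y * t₀ * y⁻¹ * (y * t₀ * y⁻¹)) * y := by group
      _ = 1 := by rw [h2]; group

theorem Mk.tab (h : Mk b A M n k) {Y : Type*} [Group Y] (e : M ≃* Y) (hO : Nat.card (Cfsg.Out Y) ≤ k)
    (f : (K ⧸ center K) ≃* Y) (p : Pr K L z) (hL : L ⊓ 𝒞(L) = ⊥) (h2 : b → ∀ c ∈ K ⊓ 𝒞(K), c ^ 2 = 1) :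
    b ∧ (SW K L z ∨ ZC K L z) := by
  obtain ⟨π, t, k1, k2, k3⟩ := h.pi e hO f p.iz.1 p.zn
  have := p.qs.2
  exact k1.tab k2 k3 (e.trans f.symm).isSimpleGroup p hL h2

theorem exp_two {Y : Type*} [Group Y] (hS : HasCyclicSchurMultiplier Y 2) (f : (K ⧸ center K) ≃* Y)
    (hK : IsQuasisimple K) : ∀ c ∈ K ⊓ 𝒞(K), c ^ 2 = 1 := fun c hc => by
  let σ : K →* Y := f.toMonoidHom.comp (QuotientGroup.mk' _)
  have hk : σ.ker = center K := by ext x; simp [σ]
  have hd := CL.Schur.HasSM.card_ker_dvd hS σ ⟨f.surjective.comp (QuotientGroup.mk'_surjective _), hk.le,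
    hK.1.commutator_eq_top ▸ le_top⟩
  have hx : (⟨c, hc.1⟩ : K) ∈ σ.ker := hk ▸ mem_center_iff.2 fun y => Subtype.ext (hc.2 y y.2)
  have := orderOf_dvd_iff_pow_eq_one.1 ((orderOf_dvd_natCard _ hx).trans (hd.trans (by simp : _ ∣ 2)))
  exact congrArg Subtype.val this

end CL.Q49M
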